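import Mathlib
import Cfsg.Agent.Lib.Helper95.OmPerp2
import Cfsg.Agent.Lib.Helper49.Parabolic

set_option autoImplicit false
set_option linter.unusedSimpArgs false
set_option linter.unusedSectionVars false
set_option linter.unusedVariables false

/-! A quadratic space over `F` together with a form of it over a subfield `F₀`; elementary
geometry of quadratic spaces over finite fields with sharp dimension bounds. -/

namespace Cfsg.Agent.Lib.Helper97.OSub

open QuadraticMap Module Cfsg.Agent.Lib.Helper95 Cfsg.Agent.Lib.Helper49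

section geo

variable {K W : Type*} [Field K] [AddCommGroup W] [Module K W] {q : QuadraticForm K W}

/-- a vector having a non-zero product with a vector orthogonal to all `a i` is outside their
span -/
lemma not_mem_span_of_polar {k : ℕ} (a : Fin k → W) {u t : W} (ht : ∀ i, polar q t (a i) = 0)
    (htu : polar q t u ≠ 0) : u ∉ Submodule.span K (Set.range a) := by
  intro hu
  apply htu
  have : Submodule.span K (Set.range a) ≤ LinearMap.ker (polarBilin q t) := by
    rw [Submodule.span_le]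
    rintro _ ⟨i, rfl⟩
    exact ht i
  exact this hu

variable [Fintype K] [FiniteDimensional K W]

/-- a singular vector orthogonal to `k` given vectors and outside their span -/
lemma exists_sing_perp_out (hnd : (polarBilin q).Nondegenerate) {k : ℕ} (a : Fin k → W)
    (hk : 2 * (k + 2) < finrank K W) :
    ∃ u, q u = 0 ∧ (∀ i, polar q u (a i) = 0) ∧ u ∉ Submodule.span K (Set.range a) := by
  obtain ⟨z, z', hz, hz', hzz⟩ := qexists_perp_pair hnd a (by omega)
  by_cases hQz : q z = 0
  · exact ⟨z, hQz, hz, not_mem_span_of_polar a hz' (by rw [polar_comm, hzz]; exact one_ne_zero)⟩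
  by_cases h2 : (2 : K) = 0
  · obtain ⟨e₀, he₀, he₀q⟩ := qexists_perp_nonsing q hnd
      (Fin.cons z (Fin.cons z' a) : Fin (k + 1 + 1) → W) (by omega)
    have hez : polar q e₀ z = 0 := by simpa using he₀ 0
    have hez' : polar q e₀ z' = 0 := by simpa using he₀ 1
    have hea : ∀ i, polar q e₀ (a i) = 0 := fun i => by simpa using he₀ i.succ.succ
    have hc : ringChar K = 2 := by
      have : CharP K 2 := CharTwo.of_one_ne_zero_of_two_eq_zero one_ne_zero h2
      exact ringChar.eq K 2
    obtain ⟨c, hc⟩ := FiniteField.isSquare_of_char_two hc (q z / q e₀)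
    refine ⟨z + c • e₀, ?_, fun i => ?_, ?_⟩
    · rw [qmap_add, QuadraticMap.map_smul, polar_smul_right, polar_comm q z e₀, hez, smul_eq_mul,
        ← hc]
      field_simp
      linear_combination (q z) * h2
    · rw [polar_add_left, polar_smul_left, hz i, hea i]; simp
    · apply not_mem_span_of_polar a hz'
      rw [polar_add_right, polar_smul_right, polar_comm q z' z, hzz, polar_comm q z' e₀, hez']
      simp
  · obtain ⟨e, he, heq⟩ := qexists_perp_norm2 q hnd (Fin.cons z a : Fin (k + 1) → W) (by omega)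
      (-q z)
    have hez : polar q e z = 0 := by simpa using he 0
    have hea : ∀ i, polar q e (a i) = 0 := fun i => by simpa using he i.succ
    refine ⟨z + e, ?_, fun i => ?_, ?_⟩
    · rw [qmap_add, heq, polar_comm, hez]; ring
    · rw [polar_add_left, hz i, hea i, add_zero]
    · apply not_mem_span_of_polar a hz
      rw [polar_add_right, polar_self, polar_comm q z e, hez]
      simp only [nsmul_eq_mul]; push_cast
      simpa using mul_ne_zero h2 hQz

/-- every vector orthogonal to the `x i` is a sum of three singular vectors orthogonal to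
the `x i` -/
lemma sum_sing (hnd : (polarBilin q).Nondegenerate) {k : ℕ} (x : Fin k → W)
    (hk : 2 * (k + 4) < finrank K W) {w : W} (hw : ∀ i, polar q w (x i) = 0) :
    ∃ s₁ s₂ s₃, q s₁ = 0 ∧ q s₂ = 0 ∧ q s₃ = 0 ∧ (∀ i, polar q s₁ (x i) = 0) ∧
      (∀ i, polar q s₂ (x i) = 0) ∧ (∀ i, polar q s₃ (x i) = 0) ∧ w = s₁ + s₂ + s₃ := by
  obtain ⟨e, f, he, hf, hef, hea, hfa⟩ := qexists_hyp hnd (Fin.cons w x : Fin (k + 1) → W)
    (by omega)
  have hew : polar q e w = 0 := by simpa using hea 0
  have hfw : polar q f w = 0 := by simpa using hfa 0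
  have hex : ∀ i, polar q e (x i) = 0 := fun i => by simpa using hea i.succ
  have hfx : ∀ i, polar q f (x i) = 0 := fun i => by simpa using hfa i.succ
  refine ⟨w + e - q w • f, -e, q w • f, ?_, ?_, ?_, fun i => ?_, fun i => ?_, fun i => ?_, ?_⟩
  · rw [qmap_sub, qmap_add, QuadraticMap.map_smul, he, hf, polar_smul_right, polar_add_left,
      polar_comm q w e, hew, polar_comm q w f, hfw, hef]
    simp
  · rw [QuadraticMap.map_neg, he]
  · rw [QuadraticMap.map_smul, hf]; simp
  · rw [polar_sub_left, polar_add_left, polar_smul_left, hw i, hex i, hfx i]; simp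
  · rw [polar_neg_left, hex i]; simp
  · rw [polar_smul_left, hfx i]; simp
  · abel

/-- additive predicates on the orthogonal complement of the `x i` are determined by the
singular vectors -/
lemma perp_induction (hnd : (polarBilin q).Nondegenerate) {k : ℕ} (x : Fin k → W)
    (hk : 2 * (k + 4) < finrank K W) (P : W → Prop) (hadd : ∀ u v, P u → P v → P (u + v))
    (hs : ∀ s, q s = 0 → (∀ i, polar q s (x i) = 0) → P s) {w : W}
    (hw : ∀ i, polar q w (x i) = 0) : P w := by
  obtain ⟨s₁, s₂, s₃, h1, h2, h3, p1, p2, p3, rfl⟩ := sum_sing hnd x hk hw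
  exact hadd _ _ (hadd _ _ (hs _ h1 p1) (hs _ h2 p2)) (hs _ h3 p3)

end geo

/-- a quadratic `F`-space `V` with a rational structure `j : V₀ → V` over the subfield `F₀` -/
structure QRS {F : Type*} [Field F] (F₀ : Subfield F) (V₀ V : Type*) [AddCommGroup V₀]
    [Module F₀ V₀] [AddCommGroup V] [Module F V] where
  Q₀ : QuadraticForm F₀ V₀
  Q : QuadraticForm F V
  j : V₀ →+ V
  j_smul : ∀ (c : F₀) (x : V₀), j (c • x) = (c : F) • j x
  Q_j : ∀ x, Q (j x) = (Q₀ x : F)
  nd₀ : (polarBilin Q₀).Nondegenerate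
  nd : (polarBilin Q).Nondegenerate
  span : Submodule.span F (Set.range j) = ⊤

variable {F : Type*} [Field F] {F₀ : Subfield F} {V₀ V : Type*} [AddCommGroup V₀]
  [Module F₀ V₀] [AddCommGroup V] [Module F V] (D : QRS F₀ V₀ V)

namespace QRS

theorem polar_j (x y : V₀) : polar D.Q (D.j x) (D.j y) = ((polar D.Q₀ x y : F₀) : F) := by
  simp only [polar, ← map_add, D.Q_j]
  push_cast
  ring

theorem polar_j_zero {x y : V₀} (h : polar D.Q₀ x y = 0) : polar D.Q (D.j x) (D.j y) = 0 := by
  rw [D.polar_j, h]; rfl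

theorem polar_j_one {x y : V₀} (h : polar D.Q₀ x y = 1) : polar D.Q (D.j x) (D.j y) = 1 := by
  rw [D.polar_j, h]; rfl

theorem polar_j_mem (x y : V₀) : polar D.Q (D.j x) (D.j y) ∈ F₀ := by
  rw [D.polar_j]; exact (polar D.Q₀ x y).2

theorem Q_j_zero {x : V₀} (h : D.Q₀ x = 0) : D.Q (D.j x) = 0 := by
  rw [D.Q_j, h]; rfl

theorem Q₀_zero_of {x : V₀} (h : D.Q (D.j x) = 0) : D.Q₀ x = 0 := by
  rw [D.Q_j] at h
  exact_mod_cast h

theorem polar₀_zero_of {x y : V₀} (h : polar D.Q (D.j x) (D.j y) = 0) : polar D.Q₀ x y = 0 := by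
  rw [D.polar_j] at h
  exact_mod_cast h

theorem spair_j {x y : V₀} (h : SPair D.Q₀ x y) : SPair D.Q (D.j x) (D.j y) :=
  ⟨D.Q_j_zero h.qu, D.Q_j_zero h.qv, D.polar_j_zero h.uv⟩

theorem zero_of_perp {v : V} (h : ∀ x, polar D.Q v (D.j x) = 0) : v = 0 := by
  apply D.nd.1
  have : polarBilin D.Q v = 0 := by
    apply LinearMap.ext_on D.span
    rintro _ ⟨x, rfl⟩
    simpa using h x
  intro y
  rw [this]; rfl

theorem j_inj {x : V₀} (h : D.j x = 0) : x = 0 := by
  apply D.nd₀.1
  intro y
  have := D.polar_j x y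
  rw [h] at this
  simp only [polar_zero_left] at this
  rw [polarBilin_apply_apply]
  exact_mod_cast this.symm

theorem j_ne {x : V₀} (h : x ≠ 0) : D.j x ≠ 0 := fun h0 => h (D.j_inj h0)

theorem j_injective : Function.Injective D.j := by
  intro x y hxy
  have : D.j (x - y) = 0 := by rw [map_sub, hxy, sub_self]
  exact sub_eq_zero.1 (D.j_inj this)

/-- a vector with rational products with all rational vectors is rational -/
theorem rat_of_forall [FiniteDimensional F₀ V₀] {v : V} (h : ∀ x, polar D.Q v (D.j x) ∈ F₀) :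
    ∃ v₀, v = D.j v₀ := by
  let φ : V₀ →ₗ[F₀] F₀ :=
    { toFun := fun x => ⟨polar D.Q v (D.j x), h x⟩
      map_add' := by
        intro x y
        apply Subtype.ext
        simp [polar_add_right]
      map_smul' := by
        intro c x
        apply Subtype.ext
        simp [D.j_smul, polar_smul_right] }
  refine ⟨(LinearMap.BilinForm.toDual (polarBilin D.Q₀) D.nd₀).symm φ, ?_⟩
  rw [← sub_eq_zero]
  apply D.zero_of_perp
  intro x
  have e : polar D.Q₀ ((LinearMap.BilinForm.toDual (polarBilin D.Q₀) D.nd₀).symm φ) x = φ x :=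
    LinearMap.BilinForm.apply_toDual_symm_apply (B := polarBilin D.Q₀) (hB := D.nd₀) φ x
  rw [polar_sub_left, D.polar_j, e]
  simp [φ]

/-- a vector with rational products with all rational vectors of `x^⊥` is rational modulo `x` -/
theorem rat_mod_of_forall [FiniteDimensional F₀ V₀] {x : V₀} (hx : x ≠ 0) {b : V}
    (h : ∀ v, polar D.Q₀ x v = 0 → polar D.Q b (D.j v) ∈ F₀) :
    ∃ (b₀ : V₀) (t : F), b = D.j b₀ + t • D.j x := by
  obtain ⟨x', hx'⟩ := qexists_dual D.Q₀ D.nd₀ hx
  obtain ⟨b₀, hb₀⟩ := D.rat_of_forall (v := b - polar D.Q b (D.j x') • D.j x) (by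
    intro v
    have h1 : polar D.Q₀ x (v - polar D.Q₀ x v • x') = 0 := by
      rw [polar_sub_right, polar_smul_right, hx']; simp
    have h2 := h _ h1
    rw [map_sub, D.j_smul, polar_sub_right, polar_smul_right] at h2
    rw [polar_sub_left, polar_smul_left, D.polar_j x v]
    simp only [smul_eq_mul] at h2 ⊢
    rwa [mul_comm])
  exact ⟨b₀, polar D.Q b (D.j x'), by rw [← hb₀]; abel⟩

/-- a vector orthogonal to all rational vectors of `w^⊥` is a multiple of `w` -/
theorem smul_of_perp {w : V₀} (hw : w ≠ 0) {u : V}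
    (h : ∀ x, polar D.Q₀ w x = 0 → polar D.Q u (D.j x) = 0) : ∃ c : F, u = c • D.j w := by
  obtain ⟨t, ht⟩ := qexists_dual D.Q₀ D.nd₀ hw
  refine ⟨polar D.Q u (D.j t), ?_⟩
  rw [← sub_eq_zero]
  apply D.zero_of_perp
  intro x
  have h1 : polar D.Q₀ w (x - (polar D.Q₀ w x) • t) = 0 := by
    rw [polar_sub_right, polar_smul_right, ht]; simp
  have h2 := h _ h1
  rw [map_sub, D.j_smul, polar_sub_right, polar_smul_right, smul_eq_mul] at h2
  rw [polar_sub_left, polar_smul_left, smul_eq_mul, D.polar_j]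
  linear_combination h2

/-- a vector orthogonal to all rational vectors of `{w₁, w₂}^⊥` lies in the span of `w₁, w₂` -/
theorem span_of_perp2 {w₁ w₂ : V₀} (hw₁ : w₁ ≠ 0) (hw : ∀ c : F₀, w₂ ≠ c • w₁) {u : V}
    (h : ∀ x, polar D.Q₀ w₁ x = 0 → polar D.Q₀ w₂ x = 0 → polar D.Q u (D.j x) = 0) :
    ∃ c d : F, u = c • D.j w₁ + d • D.j w₂ := by
  obtain ⟨t₂, h21, h22⟩ := qsep1 D.nd₀ hw
  have hw' : ∀ c : F₀, w₁ ≠ c • w₂ := by
    intro c hc
    by_cases hc0 : c = 0
    · rw [hc0, zero_smul] at hc; exact hw₁ hc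
    · apply hw c⁻¹
      rw [hc, smul_smul, inv_mul_cancel₀ hc0, one_smul]
  obtain ⟨t₁, h12, h11⟩ := qsep1 D.nd₀ hw'
  refine ⟨polar D.Q u (D.j t₁), polar D.Q u (D.j t₂), ?_⟩
  rw [← sub_eq_zero]
  apply D.zero_of_perp
  intro x
  have e1 : polar D.Q₀ w₁ (x - (polar D.Q₀ w₁ x) • t₁ - (polar D.Q₀ w₂ x) • t₂) = 0 := by
    rw [polar_sub_right, polar_sub_right, polar_smul_right, polar_smul_right,
      polar_comm D.Q₀ w₁ t₁, h11, polar_comm D.Q₀ w₁ t₂, h21]
    simp
  have e2 : polar D.Q₀ w₂ (x - (polar D.Q₀ w₁ x) • t₁ - (polar D.Q₀ w₂ x) • t₂) = 0 := by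
    rw [polar_sub_right, polar_sub_right, polar_smul_right, polar_smul_right,
      polar_comm D.Q₀ w₂ t₁, h12, polar_comm D.Q₀ w₂ t₂, h22]
    simp
  have h2 := h _ e1 e2
  rw [map_sub, map_sub, D.j_smul, D.j_smul, polar_sub_right, polar_sub_right, polar_smul_right,
    polar_smul_right, smul_eq_mul, smul_eq_mul] at h2
  rw [polar_sub_left, polar_add_left, polar_smul_left, polar_smul_left, smul_eq_mul, smul_eq_mul,
    D.polar_j, D.polar_j]
  linear_combination h2

/-- the two "rational modulo a point" lattices attached to independent points meet in the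
rational vectors -/
theorem rat_of_two {w₁ w₂ c₁ c₂ : V₀} (hw : ∀ c : F₀, w₂ ≠ c • w₁) {t₁ t₂ : F}
    (h : D.j c₁ + t₁ • D.j w₁ = D.j c₂ + t₂ • D.j w₂) : t₂ ∈ F₀ := by
  obtain ⟨s, h1, h2⟩ := qsep1 D.nd₀ hw
  have := congrArg (fun v => polar D.Q (D.j s) v) h
  simp only [polar_add_right, polar_smul_right, D.polar_j_zero h1, D.polar_j_one h2, smul_eq_mul,
    mul_zero, mul_one, add_zero] at this
  have e : t₂ = polar D.Q (D.j s) (D.j c₁) - polar D.Q (D.j s) (D.j c₂) := by
    rw [this]; ring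
  rw [e]
  exact F₀.sub_mem (D.polar_j_mem _ _) (D.polar_j_mem _ _)

end QRS

end Cfsg.Agent.Lib.Helper97.OSub
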