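import Mathlib
import Cfsg.Agent.Lib.Helper97.OSubRS
import Cfsg.Agent.Lib.Helper95.OmField

set_option autoImplicit false
set_option linter.unusedSimpArgs false
set_option linter.unusedSectionVars false
set_option linter.unusedVariables false

/-! The coefficient field of an overgroup of the rational long root elements. -/

namespace Cfsg.Agent.Lib.Helper97.OSub

open QuadraticMap Module Cfsg.Agent.Lib.Helper95 Cfsg.Agent.Lib.Helper49

section gen

variable {F V : Type*} [Field F] [AddCommGroup V] [Module F V] {Q : QuadraticForm F V}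
  {M : Subgroup (OG Q)}

theorem LR_swap {x y : V} {c : F} (hx : Q x = 0) (h : LR M (c • x) y) : LR M (c • y) x := by
  by_cases hc : c = 0
  · rw [hc, zero_smul]; exact LR.zero_left x hx
  · exact LR.smul_swap h.symm hx hc

theorem LR_smul_right {x y : V} {c : F} (hx : Q x = 0) (h : LR M (c • x) y) : LR M x (c • y) :=
  (LR_swap hx h).symm

theorem LR_smul_left {x y : V} {c : F} (hy : Q y = 0) (h : LR M x (c • y)) : LR M (c • x) y :=
  LR_swap hy h.symm

end gen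

variable {F : Type*} [Field F] {F₀ : Subfield F} {V₀ V : Type*} [AddCommGroup V₀]
  [Module F₀ V₀] [AddCommGroup V] [Module F V] {D : QRS F₀ V₀ V} {M : Subgroup (OG D.Q)}

/-- `M` contains the rational long root elements -/
def QRS.HasRat (D : QRS F₀ V₀ V) (M : Subgroup (OG D.Q)) : Prop :=
  ∀ x y : V₀, SPair D.Q₀ x y → LR M (D.j x) (D.j y)

/-- `c` is a coefficient of `M` on all rational singular lines -/
def Sh (D : QRS F₀ V₀ V) (M : Subgroup (OG D.Q)) (c : F) : Prop :=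
  ∀ x y : V₀, SPair D.Q₀ x y → LR M (c • D.j x) (D.j y)

theorem T1 (hM : D.HasRat M) {c : F} {x y u v : V₀} (h : LR M (c • D.j x) (D.j y))
    (huv : SPair D.Q₀ u v) (hux : polar D.Q₀ u x = 0) (huy : polar D.Q₀ u y = 0)
    (hvx : polar D.Q₀ v x = 0) (hvy : polar D.Q₀ v y = 1) : LR M (c • D.j x) (D.j u) :=
  LR.prop h (hM u v huv) (by rw [polar_smul_right, D.polar_j_zero hux]; simp)
    (D.polar_j_zero huy) (by rw [polar_smul_right, D.polar_j_zero hvx]; simp) (D.polar_j_one hvy)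

variable [Finite F] [FiniteDimensional F₀ V₀]

theorem T1' (hM : D.HasRat M) (hd : 13 ≤ finrank F₀ V₀) {c : F} {x y u : V₀}
    (h : LR M (c • D.j x) (D.j y)) (hu : D.Q₀ u = 0) (hux : polar D.Q₀ u x = 0)
    (huy : polar D.Q₀ u y = 0) (hy : y ∉ Submodule.span F₀ (Set.range ![u, x])) :
    LR M (c • D.j x) (D.j u) := by
  haveI : Fintype F₀ := Fintype.ofFinite F₀
  obtain ⟨v, hv, hvp, hvy⟩ := qsepS D.nd₀ ![u, x] hy (by omega)
  have hvu : polar D.Q₀ v u = 0 := hvp 0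
  have hvx : polar D.Q₀ v x = 0 := hvp 1
  exact T1 hM h ⟨hu, hv, by rw [polar_comm]; exact hvu⟩ hux huy hvx hvy

/-- a coefficient on one rational singular line is a coefficient on all of them -/
theorem Sh_of_one (hM : D.HasRat M) (hd : 13 ≤ finrank F₀ V₀) {c : F} {x y : V₀}
    (hxy : SPair D.Q₀ x y) (hx : x ≠ 0) (hind : ∀ k : F₀, y ≠ k • x)
    (h : LR M (c • D.j x) (D.j y)) : Sh D M c := by
  haveI : Fintype F₀ := Fintype.ofFinite F₀
  intro x' y' h'
  obtain ⟨u₁, hu₁, hp₁, ho₁⟩ := exists_sing_perp_out D.nd₀ ![x, y, x', y'] (by omega)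
  have p1x : polar D.Q₀ u₁ x = 0 := hp₁ 0
  have p1y : polar D.Q₀ u₁ y = 0 := hp₁ 1
  have p1x' : polar D.Q₀ u₁ x' = 0 := hp₁ 2
  have p1y' : polar D.Q₀ u₁ y' = 0 := hp₁ 3
  obtain ⟨u₂, hu₂, hp₂, ho₂⟩ := exists_sing_perp_out D.nd₀ ![u₁, x, x'] (by omega)
  have p2u : polar D.Q₀ u₂ u₁ = 0 := hp₂ 0
  have p2x : polar D.Q₀ u₂ x = 0 := hp₂ 1
  have p2x' : polar D.Q₀ u₂ x' = 0 := hp₂ 2
  rw [mem_span4] at ho₁
  rw [mem_span3] at ho₂
  push Not at ho₁ ho₂
  have s1 : LR M (c • D.j x) (D.j u₁) := by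
    apply T1' hM hd h hu₁ p1x p1y
    rw [mem_span2]
    rintro ⟨α, β, e⟩
    by_cases hα : α = 0
    · rw [hα, zero_smul, zero_add] at e
      exact hind β e
    · apply ho₁ (-(α⁻¹ * β)) α⁻¹ 0 0
      rw [e, smul_add, smul_smul, smul_smul, inv_mul_cancel₀ hα]
      module
  have s1' : LR M (c • D.j u₁) (D.j x) := LR_swap (D.Q_j_zero hxy.qu) s1
  have s2 : LR M (c • D.j u₁) (D.j u₂) := by
    apply T1' hM hd s1' hu₂ p2u p2x
    rw [mem_span2]
    rintro ⟨α, β, e⟩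
    by_cases hα : α = 0
    · rw [hα, zero_smul, zero_add] at e
      have hβ : β ≠ 0 := by
        rintro rfl
        rw [zero_smul] at e
        exact hx e
      apply ho₁ β⁻¹ 0 0 0
      rw [e, smul_smul, inv_mul_cancel₀ hβ]
      module
    · apply ho₂ (-(α⁻¹ * β)) α⁻¹ 0
      rw [e, smul_add, smul_smul, smul_smul, inv_mul_cancel₀ hα]
      module
  have s3 : LR M (c • D.j u₁) (D.j x') := by
    apply T1' hM hd s2 h'.qu (by rw [polar_comm]; exact p1x') (by rw [polar_comm]; exact p2x')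
    rw [mem_span2]
    rintro ⟨α, β, e⟩
    apply ho₂ β 0 α
    rw [e]; module
  have s3' : LR M (c • D.j x') (D.j u₁) := LR_swap (D.Q_j_zero hu₁) s3
  apply T1' hM hd s3' h'.qv h'.vu (by rw [polar_comm]; exact p1y')
  rw [mem_span2]
  rintro ⟨α, β, e⟩
  apply ho₁ 0 0 β α
  rw [e]; module

omit [Finite F] [FiniteDimensional F₀ V₀] in
theorem Sh_rat (hM : D.HasRat M) {k : F} (hk : k ∈ F₀) : Sh D M k := by
  intro x y h
  have h1 : SPair D.Q₀ ((⟨k, hk⟩ : F₀) • x) y := (h.symm.smul_right _).symm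
  have := hM _ _ h1
  rwa [D.j_smul] at this

omit [Finite F] [FiniteDimensional F₀ V₀] in
theorem Sh_add {a b : F} (ha : Sh D M a) (hb : Sh D M b) : Sh D M (a + b) := by
  intro x y h
  have h1 := (ha x y h).symm
  have h2 := (hb x y h).symm
  have h3 := h1.add h2 (by
    rw [polar_smul_left, polar_smul_right, polar_self_of_Q (D.Q_j_zero h.qu)]; simp)
  rw [← add_smul] at h3
  exact h3.symm

/-- a rational frame: three mutually orthogonal singular vectors and a partner of the second -/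
theorem exists_frame (D : QRS F₀ V₀ V) (hd : 13 ≤ finrank F₀ V₀) :
    ∃ e₁ e₂ e₃ f₂ : V₀, SPair D.Q₀ e₁ e₂ ∧ SPair D.Q₀ e₁ e₃ ∧ SPair D.Q₀ e₃ f₂ ∧
      polar D.Q₀ e₃ e₂ = 0 ∧ polar D.Q₀ f₂ e₁ = 0 ∧ polar D.Q₀ f₂ e₂ = 1 ∧ e₁ ≠ 0 ∧
      (∀ k : F₀, e₃ ≠ k • e₁) ∧ (∀ k : F₀, e₂ ≠ k • e₁) := by
  haveI : Fintype F₀ := Fintype.ofFinite F₀
  obtain ⟨e₁, f₁, he₁, hf₁, hef₁, -, -⟩ := qexists_hyp D.nd₀ ![] (by omega)
  obtain ⟨e₂, f₂, he₂, hf₂, hef₂, hp₂, hq₂⟩ := qexists_hyp D.nd₀ ![e₁, f₁] (by omega)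
  obtain ⟨e₃, f₃, he₃, hf₃, hef₃, hp₃, hq₃⟩ := qexists_hyp D.nd₀ ![e₁, e₂, f₂] (by omega)
  have a1 : polar D.Q₀ e₂ e₁ = 0 := hp₂ 0
  have a2 : polar D.Q₀ f₂ e₁ = 0 := hq₂ 0
  have a3 : polar D.Q₀ e₃ e₁ = 0 := hp₃ 0
  have a4 : polar D.Q₀ e₃ e₂ = 0 := hp₃ 1
  have a5 : polar D.Q₀ e₃ f₂ = 0 := hp₃ 2
  have a6 : polar D.Q₀ f₃ e₁ = 0 := hq₃ 0
  refine ⟨e₁, e₂, e₃, f₂, ⟨he₁, he₂, by rw [polar_comm]; exact a1⟩,
    ⟨he₁, he₃, by rw [polar_comm]; exact a3⟩, ⟨he₃, hf₂, a5⟩, a4, a2,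
    by rw [polar_comm]; exact hef₂, ?_, ?_, ?_⟩
  · rintro rfl
    simp at hef₁
  · intro k hk
    rw [hk, polar_smul_left, polar_comm, a6] at hef₃
    simp at hef₃
  · intro k hk
    rw [hk, polar_smul_left, polar_comm, a2] at hef₂
    simp at hef₂

theorem Sh_mul (hM : D.HasRat M) (hd : 13 ≤ finrank F₀ V₀) {a b : F} (ha : Sh D M a)
    (hb : Sh D M b) : Sh D M (a * b) := by
  obtain ⟨e₁, e₂, e₃, f₂, h12, h13, h3f, p32, pf1, pf2, h0, hi3, -⟩ := exists_frame D hd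
  have h1 := hb e₁ e₂ h12
  have h2 := ha e₃ f₂ h3f
  have h3 : LR M (b • D.j e₁) (a • D.j e₃) := by
    apply LR.prop h1 h2
    · rw [polar_smul_left, polar_smul_right, D.polar_j_zero h13.vu]; simp
    · rw [polar_smul_left, D.polar_j_zero p32]; simp
    · rw [polar_smul_right, D.polar_j_zero pf1]; simp
    · exact D.polar_j_one pf2
  have h4 := LR_smul_left (D.Q_j_zero h13.qv) h3
  rw [smul_smul] at h4
  exact Sh_of_one hM hd h13 h0 hi3 h4

theorem Sh_pow (hM : D.HasRat M) (hd : 13 ≤ finrank F₀ V₀) {a : F} (ha : Sh D M a) (n : ℕ) :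
    Sh D M (a ^ n) := by
  induction n with
  | zero => rw [pow_zero]; exact Sh_rat hM F₀.one_mem
  | succ k ih => rw [pow_succ]; exact Sh_mul hM hd ih ha

/-- the coefficient field -/
def ShField [Fintype F] (hM : D.HasRat M) (hd : 13 ≤ finrank F₀ V₀) : Subfield F where
  carrier := {δ | Sh D M δ}
  mul_mem' := Sh_mul hM hd
  one_mem' := Sh_rat hM F₀.one_mem
  add_mem' := Sh_add
  zero_mem' := Sh_rat hM F₀.zero_mem
  neg_mem' := by
    intro c hc
    have := Sh_mul hM hd (Sh_rat hM (F₀.neg_mem F₀.one_mem)) hc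
    rwa [neg_one_mul] at this
  inv_mem' := by
    intro c hc
    by_cases h0 : c = 0
    · rw [h0, _root_.inv_zero]; exact Sh_rat hM F₀.zero_mem
    · have h1 : c ^ (Fintype.card F - 1) = 1 := FiniteField.pow_card_sub_one_eq_one c h0
      have h2 : 2 ≤ Fintype.card F := Fintype.one_lt_card
      have h4 : c⁻¹ = c ^ (Fintype.card F - 2) := by
        apply inv_eq_of_mul_eq_one_left
        rw [← pow_succ]
        have : Fintype.card F - 2 + 1 = Fintype.card F - 1 := by omega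
        rw [this, h1]
      rw [h4]
      exact Sh_pow hM hd hc _

end Cfsg.Agent.Lib.Helper97.OSub
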