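import Mathlib
import Cfsg.Agent.Lib.Helper97.OSubSh

set_option autoImplicit false
set_option linter.unusedSimpArgs false
set_option linter.unusedSectionVars false
set_option linter.unusedVariables false
set_option linter.style.haveILetI false

/-! General Siegel transformations; an overgroup of the rational long root elements whose
coefficient field is everything contains `Ω`. -/

namespace Cfsg.Agent.Lib.Helper97.OSub

open QuadraticMap Module Cfsg.Agent.Lib.Helper95 Cfsg.Agent.Lib.Helper49

section rho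

variable {F V : Type*} [Field F] [AddCommGroup V] [Module F V] (Q : QuadraticForm F V)

/-- a singular vector and a vector orthogonal to it -/
structure RPair (u w : V) : Prop where
  qu : Q u = 0
  uw : polar Q u w = 0

/-- the Siegel map `x ↦ x + f(u,x) w - f(w,x) u - Q(w) f(u,x) u` -/
def rhoLin (u w : V) : V →ₗ[F] V :=
  LinearMap.id + (LinearMap.toSpanSingleton F V w).comp (polarBilin Q u)
    - (LinearMap.toSpanSingleton F V u).comp (polarBilin Q w)
    - (Q w) • (LinearMap.toSpanSingleton F V u).comp (polarBilin Q u)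

lemma rhoLin_apply (u w x : V) :
    rhoLin Q u w x = x + polar Q u x • w - polar Q w x • u - (Q w * polar Q u x) • u := by
  simp [rhoLin, LinearMap.toSpanSingleton_apply, smul_smul]

variable {Q}

lemma RPair.uu {u w : V} (h : RPair Q u w) : polar Q u u = 0 := polar_self_of_Q h.qu
lemma RPair.wu {u w : V} (h : RPair Q u w) : polar Q w u = 0 := by rw [polar_comm]; exact h.uw

lemma RPair.add {u w w' : V} (h : RPair Q u w) (h' : RPair Q u w') : RPair Q u (w + w') :=
  ⟨h.qu, by rw [polar_add_right, h.uw, h'.uw, add_zero]⟩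

lemma RPair.neg {u w : V} (h : RPair Q u w) : RPair Q u (-w) :=
  ⟨h.qu, by rw [polar_neg_right, h.uw, neg_zero]⟩

lemma rhoLin_rhoLin {u w w' : V} (h : RPair Q u w) (h' : RPair Q u w') (x : V) :
    rhoLin Q u w (rhoLin Q u w' x) = rhoLin Q u (w + w') x := by
  simp only [rhoLin_apply, polar_add_right, polar_sub_right, polar_smul_right, polar_add_left,
    h.uu, h.uw, h'.uw, h.wu, smul_eq_mul, mul_zero, add_zero, sub_zero, qmap_add]
  module

lemma rhoLin_zero (u x : V) : rhoLin Q u 0 x = x := by
  simp [rhoLin_apply]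

lemma Q_rhoLin {u w : V} (h : RPair Q u w) (x : V) : Q (rhoLin Q u w x) = Q x := by
  have e : rhoLin Q u w x = x + polar Q u x • w - (polar Q w x + Q w * polar Q u x) • u := by
    rw [rhoLin_apply]; module
  rw [e, qmap_sub, qmap_add, QuadraticMap.map_smul, QuadraticMap.map_smul, h.qu,
    polar_add_left, polar_smul_right, polar_smul_right, polar_smul_left, polar_smul_right, h.wu,
    polar_comm Q x w, polar_comm Q x u]
  simp only [smul_eq_mul]
  ring

/-- the Siegel transformation as an isometry -/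
def rho {u w : V} (h : RPair Q u w) : OG Q :=
  ⟨LinearEquiv.ofLinearMap (rhoLin Q u w) (rhoLin Q u (-w))
    (by
      ext x
      simp only [LinearMap.comp_apply, LinearMap.id_apply]
      rw [rhoLin_rhoLin h h.neg, add_neg_cancel, rhoLin_zero])
    (by
      ext x
      simp only [LinearMap.comp_apply, LinearMap.id_apply]
      rw [rhoLin_rhoLin h.neg h, neg_add_cancel, rhoLin_zero]), fun x => Q_rhoLin h x⟩

lemma rho_apply {u w : V} (h : RPair Q u w) (x : V) : (rho h).1 x = rhoLin Q u w x := rfl

lemma rho_add {u w w' : V} (h : RPair Q u w) (h' : RPair Q u w') :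
    rho (h.add h') = rho h * rho h' := by
  apply OG_ext
  intro x
  simp only [Subgroup.coe_mul, LinearEquiv.mul_apply, rho_apply]
  rw [rhoLin_rhoLin h h']

variable (M : Subgroup (OG Q))

/-- the Siegel transformation attached to `(u, w)` lies in `M` -/
def RR (u w : V) : Prop := ∃ h : RPair Q u w, rho h ∈ M

variable {M}

lemma RR.add {u w w' : V} (h : RR M u w) (h' : RR M u w') : RR M u (w + w') := by
  obtain ⟨hs, hm⟩ := h
  obtain ⟨hs', hm'⟩ := h'
  exact ⟨hs.add hs', by rw [rho_add hs hs']; exact M.mul_mem hm hm'⟩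

lemma RR.zero {u : V} (hu : Q u = 0) : RR M u 0 := by
  refine ⟨⟨hu, by simp⟩, ?_⟩
  have : rho (⟨hu, by simp⟩ : RPair Q u 0) = 1 := by
    apply OG_ext
    intro x
    rw [rho_apply, rhoLin_zero]; rfl
  rw [this]; exact M.one_mem

lemma rho_eq_sg {u w : V} (h : RPair Q u w) (hs : SPair Q u w) : rho h = sg hs := by
  apply OG_ext
  intro x
  rw [rho_apply, rhoLin_apply, sg_apply, hs.qv]
  simp

lemma RR_of_LR {u w : V} (h : LR M u w) : RR M u w := by
  obtain ⟨hs, hm⟩ := h
  exact ⟨⟨hs.qu, hs.uv⟩, by rw [rho_eq_sg _ hs]; exact hm⟩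

lemma LR_of_RR {u w : V} (h : RR M u w) (hw : Q w = 0) : LR M u w := by
  obtain ⟨hs, hm⟩ := h
  exact ⟨⟨hs.qu, hw, hs.uw⟩, by rw [← rho_eq_sg hs]; exact hm⟩

end rho

variable {F : Type*} [Field F] {F₀ : Subfield F} {V₀ V : Type*} [AddCommGroup V₀]
  [Module F₀ V₀] [AddCommGroup V] [Module F V] {D : QRS F₀ V₀ V} {M : Subgroup (OG D.Q)}
  [Finite F] [FiniteDimensional F₀ V₀]

/-- if all scalars are coefficients, the rational singular points are full -/
theorem FP_of_Sh (hall : ∀ c, Sh D M c) (hd : 13 ≤ finrank F₀ V₀) {x : V₀} (hx : D.Q₀ x = 0)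
    (hx0 : x ≠ 0) : FP M (D.j x) := by
  haveI : Fintype F₀ := Fintype.ofFinite F₀
  set S : Submodule F V :=
    Submodule.span F {v | ∃ y, D.Q₀ y = 0 ∧ polar D.Q₀ y x = 0 ∧ v = D.j y} with hS
  have hA : ∀ w ∈ S, ∀ c : F, RR M (D.j x) (c • w) := by
    intro w hw
    induction hw using Submodule.span_induction with
    | mem w hw =>
      obtain ⟨y, hy, hyx, rfl⟩ := hw
      intro c
      apply RR_of_LR
      exact LR_smul_right (D.Q_j_zero hx) (hall c x y ⟨hx, hy, by rw [polar_comm]; exact hyx⟩)
    | zero =>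
      intro c
      rw [smul_zero]; exact RR.zero (D.Q_j_zero hx)
    | add a b _ _ iha ihb =>
      intro c
      rw [smul_add]; exact (iha c).add (ihb c)
    | smul k a _ iha =>
      intro c
      rw [smul_smul]; exact iha _
  obtain ⟨x', hx'⟩ := qexists_dual D.Q₀ D.nd₀ hx0
  let π : V →ₗ[F] V :=
    LinearMap.id - (LinearMap.toSpanSingleton F V (D.j x')).comp (polarBilin D.Q (D.j x))
  have hπ : ∀ v, π v = v - polar D.Q (D.j x) v • D.j x' := by
    intro v
    simp [π, LinearMap.toSpanSingleton_apply]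
  have hB : ∀ v, π v ∈ S := by
    have h1 : Submodule.span F (Set.range D.j) ≤ S.comap π := by
      rw [Submodule.span_le]
      rintro _ ⟨v₀, rfl⟩
      change π (D.j v₀) ∈ S
      have e : π (D.j v₀) = D.j (v₀ - polar D.Q₀ x v₀ • x') := by
        rw [hπ, map_sub, D.j_smul, D.polar_j]
      rw [e]
      apply perp_induction D.nd₀ ![x] (by omega) (fun w => D.j w ∈ S)
      · intro u v hu hv
        rw [map_add]; exact S.add_mem hu hv
      · intro s hs hsx
        exact Submodule.subset_span ⟨s, hs, hsx 0, rfl⟩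
      · intro i
        fin_cases i
        change polar D.Q₀ (v₀ - polar D.Q₀ x v₀ • x') x = 0
        rw [polar_comm, polar_sub_right, polar_smul_right, hx']; simp
    intro v
    have : v ∈ Submodule.span F (Set.range D.j) := by rw [D.span]; trivial
    exact h1 this
  refine ⟨D.Q_j_zero hx, fun v hv hxv => ?_⟩
  have h1 := hB v
  rw [hπ, hxv, zero_smul, sub_zero] at h1
  have h2 := hA v h1 1
  rw [one_smul] at h2
  exact LR_of_RR h2 hv

/-- if all scalars are coefficients, `M` contains `Ω` -/
theorem commutator_le_of_Sh [FiniteDimensional F V] (hall : ∀ c, Sh D M c)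
    (hd : 13 ≤ finrank F₀ V₀) (hd' : 13 ≤ finrank F V) : commutator (OG D.Q) ≤ M := by
  haveI : Fintype F₀ := Fintype.ofFinite F₀
  haveI : Fintype F := Fintype.ofFinite F
  obtain ⟨e, f, he, hf, hef, -, -⟩ := qexists_hyp D.nd₀ ![] (by omega)
  have he0 : e ≠ 0 := by
    rintro rfl
    simp at hef
  have hf0 : f ≠ 0 := by
    rintro rfl
    simp at hef
  have h1 := FP_of_Sh hall hd he he0
  have h2 := FP_of_Sh hall hd hf hf0
  apply commutator_le_of_sg D.nd (by omega)
  intro u v h
  obtain ⟨_, hm⟩ := (FP.all D.nd (by omega) h1 h2 (by rw [D.polar_j_one hef]; exact one_ne_zero)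
    u h.qu).2 v h.qv h.uv
  exact hm

end Cfsg.Agent.Lib.Helper97.OSub
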