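import Mathlib
import Cfsg.Agent.Lib.Helper46.SL2Basic

set_option autoImplicit false
set_option linter.unusedSimpArgs false
set_option linter.unusedSectionVars false
set_option linter.unusedVariables false

/-! The subgroup of `SL₂(F)` induced by a linear group on two pairs of vectors modulo a fixed
vector. -/

namespace Cfsg.Agent.Lib.Helper97.OSub

open Module Matrix Cfsg.Agent.Lib.Helper46

variable {F V : Type*} [Field F] [AddCommGroup V] [Module F V]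

/-- `m` acts on the pair `(y, u)` through the matrix `X`, modulo `r` -/
def Act (m : V ≃ₗ[F] V) (X : SpecialLinearGroup (Fin 2) F) (y u r : V) : Prop :=
  (∃ ρ : F, m y = X.1 0 0 • y + X.1 1 0 • u + ρ • r) ∧
  (∃ ρ : F, m u = X.1 0 1 • y + X.1 1 1 • u + ρ • r)

theorem Act.one (y u r : V) : Act (1 : V ≃ₗ[F] V) 1 y u r :=
  ⟨⟨0, by simp⟩, ⟨0, by simp⟩⟩

theorem Act.mul {m m' : V ≃ₗ[F] V} {X Y : SpecialLinearGroup (Fin 2) F} {y u r : V}
    (h : Act m X y u r) (h' : Act m' Y y u r) (mr : m r = r) : Act (m * m') (X * Y) y u r := by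
  obtain ⟨⟨ρ₁, my⟩, ⟨ρ₂, mu⟩⟩ := h
  obtain ⟨⟨ρ₁', my'⟩, ⟨ρ₂', mu'⟩⟩ := h'
  constructor
  · refine ⟨Y.1 0 0 * ρ₁ + Y.1 1 0 * ρ₂ + ρ₁', ?_⟩
    rw [LinearEquiv.mul_apply, my', map_add, map_add, map_smul, map_smul, map_smul, my, mu, mr,
      mul_00, mul_10]
    module
  · refine ⟨Y.1 0 1 * ρ₁ + Y.1 1 1 * ρ₂ + ρ₂', ?_⟩
    rw [LinearEquiv.mul_apply, mu', map_add, map_add, map_smul, map_smul, map_smul, my, mu, mr,
      mul_01, mul_11]
    module

theorem Act.inv {m : V ≃ₗ[F] V} {X : SpecialLinearGroup (Fin 2) F} {y u r : V}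
    (h : Act m X y u r) (mr : m r = r) : Act m⁻¹ X⁻¹ y u r := by
  obtain ⟨⟨ρ₁, my⟩, ⟨ρ₂, mu⟩⟩ := h
  have hd := det2 X
  constructor
  · refine ⟨-(X.1 1 1 * ρ₁ - X.1 1 0 * ρ₂), ?_⟩
    show m.symm y = _
    rw [LinearEquiv.symm_apply_eq, inv_00, inv_10, map_add, map_add, map_smul, map_smul,
      map_smul, my, mu, mr]
    have : X.1 1 1 • (X.1 0 0 • y + X.1 1 0 • u + ρ₁ • r) +
        -X.1 1 0 • (X.1 0 1 • y + X.1 1 1 • u + ρ₂ • r) + -(X.1 1 1 * ρ₁ - X.1 1 0 * ρ₂) • r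
        = (X.1 0 0 * X.1 1 1 - X.1 0 1 * X.1 1 0) • y := by module
    rw [this, hd, one_smul]
  · refine ⟨-(-X.1 0 1 * ρ₁ + X.1 0 0 * ρ₂), ?_⟩
    show m.symm u = _
    rw [LinearEquiv.symm_apply_eq, inv_01, inv_11, map_add, map_add, map_smul, map_smul,
      map_smul, my, mu, mr]
    have : -X.1 0 1 • (X.1 0 0 • y + X.1 1 0 • u + ρ₁ • r) +
        X.1 0 0 • (X.1 0 1 • y + X.1 1 1 • u + ρ₂ • r) + -(-X.1 0 1 * ρ₁ + X.1 0 0 * ρ₂) • r
        = (X.1 0 0 * X.1 1 1 - X.1 0 1 * X.1 1 0) • u := by module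
    rw [this, hd, one_smul]

/-- the subgroup of `SL₂(F)` induced by `M` on the pairs `(y, u)`, `(y', u')` modulo the fixed
vector `r` -/
def quadGrp (M : Subgroup (V ≃ₗ[F] V)) (L : Submodule F V) (y u y' u' r : V) :
    Subgroup (SpecialLinearGroup (Fin 2) F) where
  carrier := {X | ∃ m ∈ M, (∀ x, m x - x ∈ L) ∧ m r = r ∧ Act m X y u r ∧ Act m X y' u' r}
  one_mem' := ⟨1, M.one_mem, by simp, by simp, Act.one _ _ _, Act.one _ _ _⟩
  mul_mem' := by
    rintro X Y ⟨m, hm, mL, mr, h1, h2⟩ ⟨m', hm', mL', mr', h1', h2'⟩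
    refine ⟨m * m', M.mul_mem hm hm', ?_, ?_, h1.mul h1' mr, h2.mul h2' mr⟩
    · intro x
      have : (m * m') x - x = (m (m' x) - m' x) + (m' x - x) := by
        rw [LinearEquiv.mul_apply]; abel
      rw [this]; exact L.add_mem (mL _) (mL' _)
    · rw [LinearEquiv.mul_apply, mr', mr]
  inv_mem' := by
    rintro X ⟨m, hm, mL, mr, h1, h2⟩
    refine ⟨m⁻¹, M.inv_mem hm, ?_, ?_, h1.inv mr, h2.inv mr⟩
    · intro x
      show m.symm x - x ∈ L
      have := mL (m.symm x)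
      rw [LinearEquiv.apply_symm_apply] at this
      have e : m.symm x - x = -(x - m.symm x) := by abel
      rw [e]; exact L.neg_mem this
    · show m.symm r = r
      rw [LinearEquiv.symm_apply_eq, mr]

end Cfsg.Agent.Lib.Helper97.OSub
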