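import Mathlib
import Cfsg.Agent.Lib.Helper97.OSubSh

set_option autoImplicit false
set_option linter.unusedSimpArgs false
set_option linter.unusedSectionVars false
set_option linter.unusedVariables false
set_option linter.style.haveILetI false

/-! Overgroups of the rational long root elements with rational coefficient field: long root
elements whose line is orthogonal to a rational singular point. -/

namespace Cfsg.Agent.Lib.Helper97.OSub

open QuadraticMap Module Cfsg.Agent.Lib.Helper95 Cfsg.Agent.Lib.Helper49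

section gen

variable {F V : Type*} [Field F] [AddCommGroup V] [Module F V] {Q : QuadraticForm F V}
  {M : Subgroup (OG Q)}

lemma LR_neg_right {u v : V} (h : LR M u v) : LR M u (-v) := by
  obtain ⟨hs, hm⟩ := h
  exact ⟨hs.neg_right, by rw [← sg_inv hs]; exact M.inv_mem hm⟩

/-- commutator of a long root element at `u` with a long root element fixing `u` -/
lemma LR_comm_sg {u y w z : V} (h : LR M u y) (hwz : LR M w z) (hwu : polar Q w u = 0)
    (hzu : polar Q z u = 0) : LR M u (polar Q w y • z - polar Q z y • w) := by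
  obtain ⟨hs, hm⟩ := hwz
  have h1 := h.conj hm
  rw [sg_apply, sg_apply, hwu, hzu, zero_smul, zero_smul, add_zero, sub_zero] at h1
  have ⟨hy, _⟩ := h
  have h2 := LR_neg_right h
  have h3 := h1.add h2 (by
    rw [polar_neg_right, polar_sub_left, polar_add_left, polar_smul_left, polar_smul_left,
      polar_self_of_Q hy.qv]
    simp only [smul_eq_mul]
    ring)
  have e : y + polar Q w y • z - polar Q z y • w + -y = polar Q w y • z - polar Q z y • w := by
    abel
  rwa [e] at h3

/-- a long root element only depends on the bivector -/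
lemma LR_basis {a b : V} (h : LR M a b) {α β γ δ : F} (hdet : α * δ - β * γ = 1) :
    LR M (α • a + β • b) (γ • a + δ • b) := by
  obtain ⟨hs, hm⟩ := h
  have hs' : SPair Q (α • a + β • b) (γ • a + δ • b) := by
    refine ⟨?_, ?_, ?_⟩
    · rw [qmap_add, QuadraticMap.map_smul, QuadraticMap.map_smul, polar_smul_left,
        polar_smul_right, hs.qu, hs.qv, hs.uv]
      simp
    · rw [qmap_add, QuadraticMap.map_smul, QuadraticMap.map_smul, polar_smul_left,
        polar_smul_right, hs.qu, hs.qv, hs.uv]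
      simp
    · simp only [polar_add_left, polar_add_right, polar_smul_left, polar_smul_right, hs.uu, hs.vv,
        hs.uv, hs.vu, smul_eq_mul, mul_zero, add_zero]
  refine ⟨hs', ?_⟩
  have : sg hs' = sg hs := by
    apply OG_ext
    intro x
    simp only [sg_apply, polar_add_left, polar_smul_left, smul_eq_mul]
    have e : x + (α * polar Q a x + β * polar Q b x) • (γ • a + δ • b) -
        (γ * polar Q a x + δ * polar Q b x) • (α • a + β • b) =
        x + ((α * δ - β * γ) * polar Q a x) • b - ((α * δ - β * γ) * polar Q b x) • a := by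
      module
    rw [e, hdet, one_mul, one_mul]
  rw [this]; exact hm

end gen

variable {F : Type*} [Field F] {F₀ : Subfield F} {V₀ V : Type*} [AddCommGroup V₀]
  [Module F₀ V₀] [AddCommGroup V] [Module F V] {D : QRS F₀ V₀ V} {M : Subgroup (OG D.Q)}
  [Finite F] [FiniteDimensional F₀ V₀]

/-- a long root element of `M` on a line through a rational point: the line is rational -/
theorem rat_point (hM : D.HasRat M) (hK : ∀ δ, Sh D M δ → δ ∈ F₀) (hd : 13 ≤ finrank F₀ V₀)
    {x : V₀} (hx : D.Q₀ x = 0) (hx0 : x ≠ 0) {b : V} (h : LR M (D.j x) b) :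
    ∃ (b₀ : V₀) (t : F), b = D.j b₀ + t • D.j x := by
  haveI : Fintype F₀ := Fintype.ofFinite F₀
  have ⟨hxb, _⟩ := h
  apply D.rat_mod_of_forall hx0
  intro v hv
  apply perp_induction D.nd₀ ![x] (by omega) (fun w => polar D.Q b (D.j w) ∈ F₀)
  · intro u v hu hv
    rw [map_add, polar_add_right]; exact F₀.add_mem hu hv
  · intro w hw hwx
    have hwx : polar D.Q₀ w x = 0 := hwx 0
    by_cases hdep : ∃ k : F₀, w = k • x
    · obtain ⟨k, rfl⟩ := hdep
      rw [D.j_smul, polar_smul_right, polar_comm, hxb.uv]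
      simp only [smul_eq_mul, mul_zero]
      exact F₀.zero_mem
    push Not at hdep
    obtain ⟨z, z', hz, hz', hzz, hp, hp'⟩ := qexists_hyp D.nd₀ ![x, w] (by omega)
    have hzx : polar D.Q₀ z x = 0 := hp 0
    have hzw : polar D.Q₀ z w = 0 := hp 1
    have hz'x : polar D.Q₀ z' x = 0 := hp' 0
    have hz'w : polar D.Q₀ z' w = 0 := hp' 1
    have h1 := LR_comm_sg h (hM w z ⟨hw, hz, by rw [polar_comm]; exact hzw⟩)
      (D.polar_j_zero hwx) (D.polar_j_zero hzx)
    have h2 := LR_comm_sg h1 (hM w z' ⟨hw, hz', by rw [polar_comm]; exact hz'w⟩)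
      (D.polar_j_zero hwx) (D.polar_j_zero hz'x)
    have hwz : polar D.Q₀ w z = 0 := by rw [polar_comm]; exact hzw
    have hz'z : polar D.Q₀ z' z = 1 := by rw [polar_comm]; exact hzz
    simp only [polar_sub_right, polar_smul_right, D.polar_j_zero hwz,
      polar_self_of_Q (D.Q_j_zero hw), D.polar_j_one hz'z, D.polar_j_zero hz'w, smul_eq_mul,
      mul_zero, mul_one, sub_zero, zero_smul, zero_sub] at h2
    rw [← neg_smul] at h2
    have h3 := LR_smul_left (D.Q_j_zero hw) h2
    have h4 := hK _ (Sh_of_one hM hd ⟨hx, hw, by rw [polar_comm]; exact hwx⟩ hx0 hdep h3)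
    rw [polar_comm]
    have := F₀.neg_mem h4
    rwa [neg_neg] at this
  · intro i
    fin_cases i
    change polar D.Q₀ v x = 0
    rw [polar_comm]; exact hv

/-- the basic rationality statement for a line orthogonal to a rational singular point `w` -/
theorem yv_rat (hM : D.HasRat M) (hK : ∀ δ, Sh D M δ → δ ∈ F₀) (hd : 13 ≤ finrank F₀ V₀)
    {a b : V} (h : LR M a b) {w : V₀} (hw : D.Q₀ w = 0) (hw0 : w ≠ 0)
    (hwa : polar D.Q a (D.j w) = 0) (hwb : polar D.Q b (D.j w) = 0) {v : V₀}
    (hvw : polar D.Q₀ v w = 0) :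
    ∃ (c : V₀) (t : F), polar D.Q a (D.j v) • b - polar D.Q b (D.j v) • a
      = D.j c + t • D.j w := by
  haveI : Fintype F₀ := Fintype.ofFinite F₀
  apply perp_induction D.nd₀ ![w] (by omega) (fun v => ∃ (c : V₀) (t : F),
    polar D.Q a (D.j v) • b - polar D.Q b (D.j v) • a = D.j c + t • D.j w)
  · rintro u v ⟨c, t, e⟩ ⟨c', t', e'⟩
    refine ⟨c + c', t + t', ?_⟩
    rw [map_add, map_add, polar_add_right, polar_add_right, add_smul, add_smul, add_smul]
    have : polar D.Q a (D.j u) • b + polar D.Q a (D.j v) • b -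
        (polar D.Q b (D.j u) • a + polar D.Q b (D.j v) • a) =
        (polar D.Q a (D.j u) • b - polar D.Q b (D.j u) • a) +
        (polar D.Q a (D.j v) • b - polar D.Q b (D.j v) • a) := by abel
    rw [this, e, e']; abel
  · intro s hs hsw
    have hsw : polar D.Q₀ s w = 0 := hsw 0
    have h1 := LR_comm_sg (hM w s ⟨hw, hs, by rw [polar_comm]; exact hsw⟩) h hwa hwb
    exact rat_point hM hK hd hw hw0 h1
  · intro i
    fin_cases i
    exact hvw

/-- the alternating form of a line orthogonal to a rational singular point `w` is rational on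
`w^⊥` -/
theorem omega_rat (hM : D.HasRat M) (hK : ∀ δ, Sh D M δ → δ ∈ F₀) (hd : 13 ≤ finrank F₀ V₀)
    {a b : V} (h : LR M a b) {w : V₀} (hw : D.Q₀ w = 0) (hw0 : w ≠ 0)
    (hwa : polar D.Q a (D.j w) = 0) (hwb : polar D.Q b (D.j w) = 0) {v v' : V₀}
    (hvw : polar D.Q₀ v w = 0) (hvw' : polar D.Q₀ v' w = 0) :
    polar D.Q a (D.j v) * polar D.Q b (D.j v') - polar D.Q b (D.j v) * polar D.Q a (D.j v')
      ∈ F₀ := by
  obtain ⟨c, t, e⟩ := yv_rat hM hK hd h hw hw0 hwa hwb hvw
  have := congrArg (fun x => polar D.Q x (D.j v')) e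
  simp only [polar_sub_left, polar_add_left, polar_smul_left, smul_eq_mul,
    D.polar_j_zero (show polar D.Q₀ w v' = 0 by rw [polar_comm]; exact hvw'), mul_zero,
    add_zero] at this
  rw [this]
  exact D.polar_j_mem _ _

/-- the line spanned by `a, b` is spanned by rational vectors -/
def RatLine (D : QRS F₀ V₀ V) (a b : V) : Prop :=
  ∃ a₀ b₀ : V₀, Submodule.span F {a, b} = Submodule.span F {D.j a₀, D.j b₀}

omit [Finite F] [FiniteDimensional F₀ V₀] in
theorem RatLine.symm {a b : V} (h : RatLine D a b) : RatLine D b a := by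
  obtain ⟨a₀, b₀, e⟩ := h
  exact ⟨a₀, b₀, by rw [Set.pair_comm]; exact e⟩

theorem ratLine_of_mem_aux (hM : D.HasRat M) (hK : ∀ δ, Sh D M δ → δ ∈ F₀)
    (hd : 13 ≤ finrank F₀ V₀) {a b : V} (h : LR M a b) {w : V₀} (hw : D.Q₀ w = 0) (hw0 : w ≠ 0)
    {s t : F} (hs : s ≠ 0) (e : D.j w = s • a + t • b) : RatLine D a b := by
  have h1 : LR M (s • a + t • b) ((0 : F) • a + s⁻¹ • b) :=
    LR_basis h (by rw [mul_inv_cancel₀ hs]; ring)
  rw [← e, zero_smul, zero_add] at h1
  obtain ⟨b₀, t', e'⟩ := rat_point hM hK hd hw hw0 h1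
  have hb : b = s • D.j b₀ + (s * t') • D.j w := by
    have : b = s • (s⁻¹ • b) := by rw [smul_smul, mul_inv_cancel₀ hs, one_smul]
    rw [this, e', smul_add, smul_smul]
  have ha : a = s⁻¹ • D.j w - (s⁻¹ * t) • b := by
    rw [e, smul_add, smul_smul, smul_smul, inv_mul_cancel₀ hs]; module
  refine ⟨w, b₀, le_antisymm ?_ ?_⟩
  · rw [Submodule.span_le]
    have hbm : b ∈ Submodule.span F {D.j w, D.j b₀} :=
      Submodule.mem_span_pair.2 ⟨s * t', s, by rw [hb]; abel⟩
    have hwm : D.j w ∈ Submodule.span F {D.j w, D.j b₀} := Submodule.subset_span (by simp)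
    rintro x (rfl | rfl)
    · rw [ha]
      exact Submodule.sub_mem _ (Submodule.smul_mem _ _ hwm) (Submodule.smul_mem _ _ hbm)
    · exact hbm
  · rw [Submodule.span_le]
    have hwm : D.j w ∈ Submodule.span F {a, b} := Submodule.mem_span_pair.2 ⟨s, t, e.symm⟩
    have hbm : b ∈ Submodule.span F {a, b} := Submodule.subset_span (by simp)
    rintro x (rfl | rfl)
    · exact hwm
    · have : D.j b₀ = s⁻¹ • b - t' • D.j w := by rw [e']; abel
      change D.j b₀ ∈ _
      rw [this]
      exact Submodule.sub_mem _ (Submodule.smul_mem _ _ hbm) (Submodule.smul_mem _ _ hwm)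

/-- a line of `M` containing a rational point is rational -/
theorem ratLine_of_mem (hM : D.HasRat M) (hK : ∀ δ, Sh D M δ → δ ∈ F₀)
    (hd : 13 ≤ finrank F₀ V₀) {a b : V} (h : LR M a b) {w : V₀} (hw0 : w ≠ 0)
    (hmem : D.j w ∈ Submodule.span F {a, b}) : RatLine D a b := by
  obtain ⟨s, t, e⟩ := Submodule.mem_span_pair.1 hmem
  have ⟨hab, _⟩ := h
  have hw : D.Q₀ w = 0 := by
    apply D.Q₀_zero_of
    rw [← e, qmap_add, QuadraticMap.map_smul, QuadraticMap.map_smul, polar_smul_left,
      polar_smul_right, hab.qu, hab.qv, hab.uv]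
    simp
  by_cases hs : s = 0
  · have ht : t ≠ 0 := by
      rintro rfl
      rw [hs, zero_smul, zero_smul, add_zero] at e
      exact D.j_ne hw0 e.symm
    exact (ratLine_of_mem_aux hM hK hd h.symm hw hw0 ht (by rw [← e, add_comm])).symm
  · exact ratLine_of_mem_aux hM hK hd h hw hw0 hs e.symm

end Cfsg.Agent.Lib.Helper97.OSub
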