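import Mathlib
import Cfsg.Agent.Lib.Helper97.OSubPar

set_option autoImplicit false
set_option linter.unusedSimpArgs false
set_option linter.unusedSectionVars false
set_option linter.unusedVariables false
set_option linter.style.haveILetI false

/-! Lines of `M` orthogonal to a rational singular point are rational. -/

namespace Cfsg.Agent.Lib.Helper97.OSub

open QuadraticMap Module Cfsg.Agent.Lib.Helper95 Cfsg.Agent.Lib.Helper49

variable {F : Type*} [Field F] {F₀ : Subfield F} {V₀ V : Type*} [AddCommGroup V₀]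
  [Module F₀ V₀] [AddCommGroup V] [Module F V] {D : QRS F₀ V₀ V} {M : Subgroup (OG D.Q)}
  [Finite F] [FiniteDimensional F₀ V₀]

/-- a line of `M` orthogonal to a rational singular point is rational -/
theorem ratLine_of_perp (hM : D.HasRat M) (hK : ∀ δ, Sh D M δ → δ ∈ F₀)
    (hd : 13 ≤ finrank F₀ V₀) {a b : V} (h : LR M a b)
    (hind : ∀ s t : F, s • a + t • b = 0 → s = 0 ∧ t = 0) {w : V₀} (hw : D.Q₀ w = 0)
    (hw0 : w ≠ 0) (hwa : polar D.Q a (D.j w) = 0) (hwb : polar D.Q b (D.j w) = 0) :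
    RatLine D a b := by
  by_cases hmem : D.j w ∈ Submodule.span F {a, b}
  · exact ratLine_of_mem hM hK hd h hw0 hmem
  have ⟨hab, _⟩ := h
  have ha0 : a ≠ 0 := by
    rintro rfl
    have := (hind 1 0 (by simp)).1
    exact one_ne_zero this
  have hamem : a ∈ Submodule.span F {a, b} := Submodule.subset_span (by simp)
  have hbmem : b ∈ Submodule.span F {a, b} := Submodule.subset_span (by simp)
  have hy0 : ∀ v : V₀, polar D.Q a (D.j v) • b - polar D.Q b (D.j v) • a = 0 →
      polar D.Q a (D.j v) = 0 ∧ polar D.Q b (D.j v) = 0 := by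
    intro v hv
    have := hind (-polar D.Q b (D.j v)) (polar D.Q a (D.j v)) (by rw [← hv]; module)
    exact ⟨this.2, by simpa using this.1⟩
  have hymem : ∀ v : V₀, polar D.Q a (D.j v) • b - polar D.Q b (D.j v) • a ∈
      Submodule.span F {a, b} := fun v =>
    Submodule.sub_mem _ (Submodule.smul_mem _ _ hbmem) (Submodule.smul_mem _ _ hamem)
  -- a rational vector `v ⊥ w` with `y v ≠ 0`
  obtain ⟨v, hvw, hyv⟩ : ∃ v, polar D.Q₀ v w = 0 ∧
      polar D.Q a (D.j v) • b - polar D.Q b (D.j v) • a ≠ 0 := by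
    by_contra hcon
    push Not at hcon
    obtain ⟨c, hc⟩ := D.smul_of_perp hw0 (u := a) (fun x hx =>
      (hy0 x (hcon x (by rw [polar_comm]; exact hx))).1)
    have hc0 : c ≠ 0 := by
      rintro rfl
      rw [zero_smul] at hc
      exact ha0 hc
    apply hmem
    have : D.j w = c⁻¹ • a := by rw [hc, smul_smul, inv_mul_cancel₀ hc0, one_smul]
    rw [this]
    exact Submodule.smul_mem _ _ hamem
  obtain ⟨c, t, hc⟩ := yv_rat hM hK hd h hw hw0 hwa hwb hvw
  have hjc : D.j c = polar D.Q a (D.j v) • b - polar D.Q b (D.j v) • a - t • D.j w := by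
    rw [hc]; abel
  have hca : polar D.Q a (D.j c) = 0 := by
    rw [hjc]
    simp only [polar_sub_right, polar_smul_right, hab.uu, hab.uv, hwa, smul_eq_mul, mul_zero,
      sub_zero]
  have hcb : polar D.Q b (D.j c) = 0 := by
    rw [hjc]
    simp only [polar_sub_right, polar_smul_right, hab.vv, hab.vu, hwb, smul_eq_mul, mul_zero,
      sub_zero]
  have hcw : ∀ k : F₀, c ≠ k • w := by
    intro k hk
    rw [hk, D.j_smul, ← add_smul] at hc
    have hkt : (k : F) + t ≠ 0 := by
      intro h0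
      rw [h0, zero_smul] at hc
      exact hyv hc
    apply hmem
    have : D.j w = ((k : F) + t)⁻¹ •
        (polar D.Q a (D.j v) • b - polar D.Q b (D.j v) • a) := by
      rw [hc, smul_smul, inv_mul_cancel₀ hkt, one_smul]
    rw [this]
    exact Submodule.smul_mem _ _ (hymem v)
  have hc0 : c ≠ 0 := by
    intro h0
    exact hcw 0 (by rw [h0, zero_smul])
  have hQc : D.Q₀ c = 0 := by
    apply D.Q₀_zero_of
    have e : D.j c = polar D.Q a (D.j v) • b + (-polar D.Q b (D.j v)) • a + (-t) • D.j w := by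
      rw [hjc]; module
    rw [e, qmap_add, qmap_add]
    simp only [QuadraticMap.map_smul, polar_add_left, polar_smul_left, polar_smul_right, hab.qu,
      hab.qv, hab.vu, hwa, hwb, D.Q_j_zero hw, smul_eq_mul, mul_zero, add_zero]
  by_cases hex : ∃ v', polar D.Q₀ v' w = 0 ∧ polar D.Q₀ v' c = 0 ∧
      polar D.Q a (D.j v') • b - polar D.Q b (D.j v') • a ≠ 0
  · obtain ⟨v', hv'w, hv'c, hyv'⟩ := hex
    obtain ⟨c₁, t₁, e₁⟩ := yv_rat hM hK hd h hw hw0 hwa hwb hv'w
    obtain ⟨c₂, t₂, e₂⟩ := yv_rat hM hK hd h hQc hc0 hca hcb hv'c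
    have ht₂ := D.rat_of_two hcw (e₁.symm.trans e₂)
    have e₃ : polar D.Q a (D.j v') • b - polar D.Q b (D.j v') • a
        = D.j (c₂ + (⟨t₂, ht₂⟩ : F₀) • c) := by
      rw [map_add, D.j_smul, e₂]
    have hp0 : c₂ + (⟨t₂, ht₂⟩ : F₀) • c ≠ 0 := by
      intro h0
      rw [h0, map_zero] at e₃
      exact hyv' e₃
    have hpm : D.j (c₂ + (⟨t₂, ht₂⟩ : F₀) • c) ∈ Submodule.span F {a, b} := by
      rw [← e₃]; exact hymem v'
    exact ratLine_of_mem hM hK hd h hp0 hpm
  · exfalso
    push Not at hex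
    have hperp : ∀ x, polar D.Q₀ w x = 0 → polar D.Q₀ c x = 0 →
        polar D.Q a (D.j x) = 0 ∧ polar D.Q b (D.j x) = 0 := fun x h1 h2 =>
      hy0 x (hex x (by rw [polar_comm]; exact h1) (by rw [polar_comm]; exact h2))
    obtain ⟨α, β, ea⟩ := D.span_of_perp2 hw0 hcw (u := a) (fun x h1 h2 => (hperp x h1 h2).1)
    obtain ⟨γ, δ, eb⟩ := D.span_of_perp2 hw0 hcw (u := b) (fun x h1 h2 => (hperp x h1 h2).2)
    have e1 : δ • a + (-β) • b = (α * δ - β * γ) • D.j w := by
      rw [ea, eb]; module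
    by_cases hdet : α * δ - β * γ = 0
    · rw [hdet, zero_smul] at e1
      obtain ⟨-, hβ⟩ := hind _ _ e1
      have hβ : β = 0 := by simpa using hβ
      rw [hβ, zero_smul, add_zero] at ea
      have hα : α ≠ 0 := by
        rintro rfl
        rw [zero_smul] at ea
        exact ha0 ea
      apply hmem
      have : D.j w = α⁻¹ • a := by rw [ea, smul_smul, inv_mul_cancel₀ hα, one_smul]
      rw [this]
      exact Submodule.smul_mem _ _ hamem
    · apply hmem
      have : D.j w = (α * δ - β * γ)⁻¹ • (δ • a + (-β) • b) := by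
        rw [e1, smul_smul, inv_mul_cancel₀ hdet, one_smul]
      rw [this]
      exact Submodule.smul_mem _ _
        (Submodule.add_mem _ (Submodule.smul_mem _ _ hamem) (Submodule.smul_mem _ _ hbmem))

end Cfsg.Agent.Lib.Helper97.OSub
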