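import Mathlib
import Cfsg.Agent.Lib.Helper97.OSubPar2

set_option autoImplicit false
set_option linter.unusedSimpArgs false
set_option linter.unusedSectionVars false
set_option linter.unusedVariables false
set_option linter.style.haveILetI false

/-! A line of `M` whose alternating form vanishes on a rational singular line is orthogonal to a
rational singular point. -/

namespace Cfsg.Agent.Lib.Helper97.OSub

open QuadraticMap Module Cfsg.Agent.Lib.Helper95 Cfsg.Agent.Lib.Helper49

variable {F : Type*} [Field F] {F₀ : Subfield F} {V₀ V : Type*} [AddCommGroup V₀]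
  [Module F₀ V₀] [AddCommGroup V] [Module F V] {D : QRS F₀ V₀ V} {M : Subgroup (OG D.Q)}
  [Finite F] [FiniteDimensional F₀ V₀]

omit [Finite F] [FiniteDimensional F₀ V₀] in
/-- rational root elements, written with a non-rational basis of the line -/
theorem LR_shift (hM : D.HasRat M) {x y : V₀} (h : SPair D.Q₀ x y) (μ : F) :
    LR M (D.j x - μ • D.j y) (D.j y) := by
  have h1 : LR M ((1 : F) • D.j x + (-μ) • D.j y) ((0 : F) • D.j x + (1 : F) • D.j y) :=
    LR_basis (hM x y h) (by ring)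
  have e1 : (1 : F) • D.j x + (-μ) • D.j y = D.j x - μ • D.j y := by module
  have e2 : (0 : F) • D.j x + (1 : F) • D.j y = D.j y := by module
  rwa [e1, e2] at h1

/-- the special configuration: the line meets a rational singular line in a point -/
theorem mu_rat_of_special (hM : D.HasRat M) (hK : ∀ δ, Sh D M δ → δ ∈ F₀)
    (hd : 13 ≤ finrank F₀ V₀) {u v : V₀} (huv : SPair D.Q₀ u v) (hu0 : u ≠ 0)
    (hvu : ∀ k : F₀, v ≠ k • u) {μ x₂ : F} (hx₂ : x₂ ≠ 0) {b' : V}
    (h : LR M (x₂ • (D.j v - μ • D.j u)) b') (hbu : polar D.Q b' (D.j u) = 1) : μ ∈ F₀ := by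
  haveI : Fintype F₀ := Fintype.ofFinite F₀
  obtain ⟨c₀, hc₀, hp, hout⟩ := exists_sing_perp_out D.nd₀ ![u, v] (by omega)
  have hcu : polar D.Q₀ c₀ u = 0 := hp 0
  have hcv : polar D.Q₀ c₀ v = 0 := hp 1
  rw [mem_span2] at hout
  push Not at hout
  have huc : polar D.Q₀ u c₀ = 0 := by rw [polar_comm]; exact hcu
  have hvc : polar D.Q₀ v c₀ = 0 := by rw [polar_comm]; exact hcv
  set γ := polar D.Q b' (D.j c₀) with hγ
  have hq : LR M (D.j c₀ - γ • D.j u) (D.j u) := LR_shift hM ⟨hc₀, huv.qu, hcu⟩ γ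
  have Euu := polar_self_of_Q (D.Q_j_zero huv.qu)
  have Evv := polar_self_of_Q (D.Q_j_zero huv.qv)
  have Euv := D.polar_j_zero huv.uv
  have Evu := D.polar_j_zero huv.vu
  have Ecu := D.polar_j_zero hcu
  have Ecv := D.polar_j_zero hcv
  have Euc := D.polar_j_zero huc
  have Evc := D.polar_j_zero hvc
  have hub : polar D.Q (D.j u) b' = 1 := by rw [polar_comm]; exact hbu
  have hcb : polar D.Q (D.j c₀) b' = γ := by rw [polar_comm]
  have h1 : LR M (x₂ • (D.j v - μ • D.j u)) (D.j c₀ - γ • D.j u) := by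
    apply LR.prop h hq
    · simp only [polar_sub_left, polar_sub_right, polar_smul_left, polar_smul_right, Ecv, Ecu, Euv,
        Euu, smul_eq_mul, mul_zero, sub_zero]
    · simp only [polar_sub_left, polar_smul_left, hcb, hub, smul_eq_mul, mul_one, sub_self]
    · simp only [polar_sub_right, polar_smul_right, Euv, Euu, smul_eq_mul, mul_zero, sub_zero]
    · exact hub
  -- dual vectors
  obtain ⟨v', hv'u, hv'c, hv'v⟩ := qsep2 D.nd₀ (x := u) (y := c₀) (w := v) (by
    intro α β e
    by_cases hβ : β = 0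
    · rw [hβ, zero_smul, add_zero] at e
      exact hvu α e
    · apply hout (-(β⁻¹ * α)) β⁻¹
      rw [e, smul_add, smul_smul, smul_smul, inv_mul_cancel₀ hβ]
      module)
  obtain ⟨c', hc'u, hc'v, hc'c⟩ := qsep2 D.nd₀ (x := u) (y := v) (w := c₀) hout
  obtain ⟨u', hu'v, hu'c, hu'u⟩ := qsep2 D.nd₀ (x := v) (y := c₀) (w := u) (by
    intro α β e
    by_cases hβ : β = 0
    · rw [hβ, zero_smul, add_zero] at e
      have hα : α ≠ 0 := by
        rintro rfl
        rw [zero_smul] at e
        exact hu0 e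
      apply hvu α⁻¹
      rw [e, smul_smul, inv_mul_cancel₀ hα, one_smul]
    · apply hout β⁻¹ (-(β⁻¹ * α))
      rw [e, smul_add, smul_smul, smul_smul, inv_mul_cancel₀ hβ]
      module)
  have P : ∀ {x y : V₀}, polar D.Q₀ x y = 0 → polar D.Q (D.j y) (D.j x) = 0 := by
    intro x y hxy
    rw [polar_comm]; exact D.polar_j_zero hxy
  have P1 : ∀ {x y : V₀}, polar D.Q₀ x y = 1 → polar D.Q (D.j y) (D.j x) = 1 := by
    intro x y hxy
    rw [polar_comm]; exact D.polar_j_one hxy
  have r1 := omega_rat hM hK hd h1 huv.qu hu0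
    (by simp only [polar_smul_left, polar_sub_left, Evu, Euu, smul_eq_mul, mul_zero, sub_zero])
    (by simp only [polar_smul_left, polar_sub_left, Ecu, Euu, smul_eq_mul, mul_zero, sub_zero])
    hv'u hc'u
  have hv0 : v ≠ 0 := by
    intro h0
    exact hvu 0 (by rw [h0, zero_smul])
  have r2 := omega_rat hM hK hd h1 huv.qv hv0
    (by simp only [polar_smul_left, polar_sub_left, Evv, Euv, smul_eq_mul, mul_zero, sub_zero])
    (by simp only [polar_smul_left, polar_sub_left, Ecv, Euv, smul_eq_mul, mul_zero, sub_zero])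
    hu'v hc'v
  simp only [polar_smul_left, polar_sub_left, P hv'u, P hv'c, P1 hv'v, P hc'u, P hc'v, P1 hc'c,
    smul_eq_mul, mul_zero, mul_one, sub_zero, zero_mul] at r1
  simp only [polar_smul_left, polar_sub_left, P hu'v, P hu'c, P1 hu'u, P hc'u, P hc'v, P1 hc'c,
    smul_eq_mul, mul_zero, mul_one, sub_zero, zero_sub, zero_mul] at r2
  have : μ = -(x₂ * -μ) / x₂ := by field_simp
  rw [this]
  exact F₀.div_mem (F₀.neg_mem r2) r1

/-- if the alternating form of a line of `M` vanishes on a rational singular line, the line is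
orthogonal to a rational singular point -/
theorem exists_perp_of_omega_zero (hM : D.HasRat M) (hK : ∀ δ, Sh D M δ → δ ∈ F₀)
    (hd : 13 ≤ finrank F₀ V₀) {a b : V} (h : LR M a b)
    (hind : ∀ s t : F, s • a + t • b = 0 → s = 0 ∧ t = 0) {u v : V₀} (huv : SPair D.Q₀ u v)
    (hu0 : u ≠ 0) (hvu : ∀ k : F₀, v ≠ k • u)
    (hω : polar D.Q a (D.j u) * polar D.Q b (D.j v) - polar D.Q b (D.j u) * polar D.Q a (D.j v)
      = 0) :
    ∃ w, D.Q₀ w = 0 ∧ w ≠ 0 ∧ polar D.Q a (D.j w) = 0 ∧ polar D.Q b (D.j w) = 0 := by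
  haveI : Fintype F₀ := Fintype.ofFinite F₀
  set αu := polar D.Q a (D.j u) with hαu
  set βu := polar D.Q b (D.j u) with hβu
  set αv := polar D.Q a (D.j v) with hαv
  set βv := polar D.Q b (D.j v) with hβv
  by_cases h0 : αu = 0 ∧ βu = 0
  · exact ⟨u, huv.qu, hu0, h0.1, h0.2⟩
  obtain ⟨s, t, hst⟩ : ∃ s t : F, s * αu + t * βu = 1 := by
    by_cases hα : αu = 0
    · have hβ : βu ≠ 0 := fun hβ => h0 ⟨hα, hβ⟩
      exact ⟨0, βu⁻¹, by rw [inv_mul_cancel₀ hβ]; ring⟩
    · exact ⟨αu⁻¹, 0, by rw [inv_mul_cancel₀ hα]; ring⟩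
  have h' : LR M (βu • a + (-αu) • b) (s • a + t • b) :=
    LR_basis h (by linear_combination hst)
  set a' := βu • a + (-αu) • b with ha'
  set b' := s • a + t • b with hb'
  set μ := s * αv + t * βv with hμ
  have ⟨hab', _⟩ := h'
  have a'u : polar D.Q a' (D.j u) = 0 := by
    rw [ha', polar_add_left, polar_smul_left, polar_smul_left, ← hαu, ← hβu]
    simp only [smul_eq_mul]; ring
  have a'v : polar D.Q a' (D.j v) = 0 := by
    rw [ha', polar_add_left, polar_smul_left, polar_smul_left, ← hαv, ← hβv]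
    simp only [smul_eq_mul]; linear_combination -hω
  have b'u : polar D.Q b' (D.j u) = 1 := by
    rw [hb', polar_add_left, polar_smul_left, polar_smul_left, ← hαu, ← hβu]
    simp only [smul_eq_mul]; exact hst
  have b'v : polar D.Q b' (D.j v) = μ := by
    rw [hb', polar_add_left, polar_smul_left, polar_smul_left, ← hαv, ← hβv]
    simp only [smul_eq_mul]
    exact hμ.symm
  have eα : αv = μ * αu := by
    rw [hμ]; linear_combination (-αv) * hst - t * hω
  have eβ : βv = μ * βu := by
    rw [hμ]; linear_combination (-βv) * hst + s * hω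
  by_cases hμm : μ ∈ F₀
  · refine ⟨v - (⟨μ, hμm⟩ : F₀) • u, ?_, ?_, ?_, ?_⟩
    · rw [qmap_sub, QuadraticMap.map_smul, polar_smul_right, huv.qu, huv.qv, huv.vu]; simp
    · intro h1
      exact hvu _ (sub_eq_zero.1 h1)
    · rw [map_sub, D.j_smul, polar_sub_right, polar_smul_right, ← hαu, ← hαv, eα]; simp
    · rw [map_sub, D.j_smul, polar_sub_right, polar_smul_right, ← hβu, ← hβv, eβ]; simp
  exfalso
  apply hμm
  have Euu := polar_self_of_Q (D.Q_j_zero huv.qu)
  have Evv := polar_self_of_Q (D.Q_j_zero huv.qv)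
  have Euv := D.polar_j_zero huv.uv
  have Evu := D.polar_j_zero huv.vu
  have ua' : polar D.Q (D.j u) a' = 0 := by rw [polar_comm]; exact a'u
  have va' : polar D.Q (D.j v) a' = 0 := by rw [polar_comm]; exact a'v
  have ub' : polar D.Q (D.j u) b' = 1 := by rw [polar_comm]; exact b'u
  have vb' : polar D.Q (D.j v) b' = μ := by rw [polar_comm]; exact b'v
  have hp : LR M (D.j v - μ • D.j u) (D.j u) := LR_shift hM huv.symm μ
  have h1 : LR M a' (D.j v - μ • D.j u) := by
    apply LR.prop h' hp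
    · simp only [polar_sub_left, polar_smul_left, va', ua', smul_eq_mul, mul_zero, sub_zero]
    · simp only [polar_sub_left, polar_smul_left, vb', ub', smul_eq_mul, mul_one, sub_self]
    · exact ua'
    · exact ub'
  have huv' : ∀ c : F₀, u ≠ c • v := by
    intro c hc
    by_cases hc0 : c = 0
    · rw [hc0, zero_smul] at hc; exact hu0 hc
    · apply hvu c⁻¹
      rw [hc, smul_smul, inv_mul_cancel₀ hc0, one_smul]
  have hv0 : v ≠ 0 := by
    intro h0
    exact hvu 0 (by rw [h0, zero_smul])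
  obtain ⟨v', hv'u, hv'v⟩ := qsep1 D.nd₀ hvu
  obtain ⟨u', hu'v, hu'u⟩ := qsep1 D.nd₀ huv'
  have P : ∀ {x y : V₀}, polar D.Q₀ x y = 0 → polar D.Q (D.j y) (D.j x) = 0 := by
    intro x y hxy
    rw [polar_comm]; exact D.polar_j_zero hxy
  have P1 : ∀ {x y : V₀}, polar D.Q₀ x y = 1 → polar D.Q (D.j y) (D.j x) = 1 := by
    intro x y hxy
    rw [polar_comm]; exact D.polar_j_one hxy
  -- `a'` is orthogonal to all rational vectors orthogonal to `u` and `v`
  have hA : ∀ x, polar D.Q₀ u x = 0 → polar D.Q₀ v x = 0 → polar D.Q a' (D.j x) = 0 := by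
    intro x hux hvx
    have r1 := omega_rat hM hK hd h1 huv.qu hu0 a'u
      (by simp only [polar_smul_left, polar_sub_left, Evu, Euu, smul_eq_mul, mul_zero, sub_zero])
      (show polar D.Q₀ x u = 0 by rw [polar_comm]; exact hux) hv'u
    have r2 := omega_rat hM hK hd h1 huv.qv hv0 a'v
      (by simp only [polar_smul_left, polar_sub_left, Evv, Euv, smul_eq_mul, mul_zero, sub_zero])
      (show polar D.Q₀ x v = 0 by rw [polar_comm]; exact hvx) hu'v
    simp only [polar_smul_left, polar_sub_left, P hv'u, P1 hv'v, D.polar_j_zero hux,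
      D.polar_j_zero hvx, smul_eq_mul, mul_zero, mul_one, sub_zero, zero_mul] at r1
    simp only [polar_smul_left, polar_sub_left, P hu'v, P1 hu'u, D.polar_j_zero hux,
      D.polar_j_zero hvx, smul_eq_mul, mul_zero, mul_one, sub_zero, zero_sub, zero_mul] at r2
    by_contra hne
    apply hμm
    have : μ = -(polar D.Q a' (D.j x) * -μ) / polar D.Q a' (D.j x) := by field_simp
    rw [this]
    exact F₀.div_mem (F₀.neg_mem r2) r1
  obtain ⟨x₁, x₂, ea'⟩ := D.span_of_perp2 hu0 hvu hA
  have hx : x₁ + x₂ * μ = 0 := by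
    have := hab'.vu
    rw [ea', polar_add_right, polar_smul_right, polar_smul_right, b'u, b'v] at this
    simpa using this
  have ea'' : a' = x₂ • (D.j v - μ • D.j u) := by
    rw [ea', show x₁ = -(x₂ * μ) by linear_combination hx]; module
  have hx₂ : x₂ ≠ 0 := by
    rintro rfl
    rw [zero_smul] at ea''
    obtain ⟨k1, k2⟩ := hind _ _ ea''
    exact h0 ⟨by simpa using k2, k1⟩
  rw [ea''] at h'
  exact mu_rat_of_special hM hK hd huv hu0 hvu hx₂ h' b'u

end Cfsg.Agent.Lib.Helper97.OSub
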