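import Mathlib
import Cfsg.Agent.Lib.Helper97.OSubPar3
import Cfsg.Agent.Lib.Helper97.OSubGrp

set_option autoImplicit false
set_option linter.unusedSimpArgs false
set_option linter.unusedSectionVars false
set_option linter.unusedVariables false
set_option linter.style.haveILetI false

/-! The generic case: restriction of the parameter of the elements inducing unitriangular
matrices on the section. -/

namespace Cfsg.Agent.Lib.Helper97.OSub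

open QuadraticMap Module Cfsg.Agent.Lib.Helper95 Cfsg.Agent.Lib.Helper49

section spans

variable {F V : Type*} [Field F] [AddCommGroup V] [Module F V]

lemma mem_span5 {a b c d e x : V} : x ∈ Submodule.span F (Set.range ![a, b, c, d, e]) ↔
    ∃ α β γ δ ε : F, x = α • a + β • b + γ • c + δ • d + ε • e := by
  rw [Submodule.mem_span_range_iff_exists_fun]
  constructor
  · rintro ⟨k, hk⟩
    refine ⟨k 0, k 1, k 2, k 3, k 4, ?_⟩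
    rw [← hk]; simp [Fin.sum_univ_five]
  · rintro ⟨α, β, γ, δ, ε, rfl⟩
    exact ⟨![α, β, γ, δ, ε], by simp [Fin.sum_univ_five]⟩

end spans

variable {F : Type*} [Field F] {F₀ : Subfield F} {V₀ V : Type*} [AddCommGroup V₀]
  [Module F₀ V₀] [AddCommGroup V] [Module F V] {D : QRS F₀ V₀ V} {M : Subgroup (OG D.Q)}

/-- the normalised configuration of the generic case -/
structure Cfg (D : QRS F₀ V₀ V) (a b : V) (ζ₁ ζ₂ ζ₃ ξ₁ ξ₂ ξ₃ : V₀) (α β : F) : Prop where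
  ab : SPair D.Q a b
  z12 : SPair D.Q₀ ζ₁ ζ₂
  z13 : SPair D.Q₀ ζ₁ ζ₃
  z23 : SPair D.Q₀ ζ₂ ζ₃
  a1 : polar D.Q a (D.j ζ₁) = 1
  a2 : polar D.Q a (D.j ζ₂) = 0
  a3 : polar D.Q a (D.j ζ₃) = α
  b1 : polar D.Q b (D.j ζ₁) = 0
  b2 : polar D.Q b (D.j ζ₂) = 1
  b3 : polar D.Q b (D.j ζ₃) = β
  q1 : D.Q₀ ξ₁ = 0
  q2 : D.Q₀ ξ₂ = 0
  q3 : D.Q₀ ξ₃ = 0
  x11 : polar D.Q₀ ξ₁ ζ₁ = 1
  x12 : polar D.Q₀ ξ₁ ζ₂ = 0
  x13 : polar D.Q₀ ξ₁ ζ₃ = 0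
  x21 : polar D.Q₀ ξ₂ ζ₁ = 0
  x22 : polar D.Q₀ ξ₂ ζ₂ = 1
  x23 : polar D.Q₀ ξ₂ ζ₃ = 0
  x31 : polar D.Q₀ ξ₃ ζ₁ = 0
  x32 : polar D.Q₀ ξ₃ ζ₂ = 0
  x33 : polar D.Q₀ ξ₃ ζ₃ = 1

variable [Finite F] [FiniteDimensional F₀ V₀]

/-- an element of `M` inducing an upper unitriangular matrix has a restricted parameter -/
theorem param_restricted (hM : D.HasRat M) (hK : ∀ δ, Sh D M δ → δ ∈ F₀)
    (hd : 13 ≤ finrank F₀ V₀) {a b : V} {ζ₁ ζ₂ ζ₃ ξ₁ ξ₂ ξ₃ : V₀} {α β : F}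
    (C : Cfg D a b ζ₁ ζ₂ ζ₃ ξ₁ ξ₂ ξ₃ α β)
    (hlin : ∀ k₀ ∈ F₀, ∀ k₁ ∈ F₀, ∀ k₂ ∈ F₀, k₀ + k₁ * α + k₂ * β = 0 → k₁ = 0 ∧ k₂ = 0)
    {m : OG D.Q} (hm : m ∈ M)
    (mL : ∀ x, m.1 x - x ∈ Submodule.span F (Set.range ![a, b, D.j ζ₁, D.j ζ₂, D.j ζ₃]))
    {σ₁ σ₂ τ s : F}
    (mr : m.1 (D.j ζ₃ - α • D.j ζ₁ - β • D.j ζ₂) = D.j ζ₃ - α • D.j ζ₁ - β • D.j ζ₂)
    (m1 : m.1 (D.j ζ₁) = D.j ζ₁ + σ₁ • (D.j ζ₃ - α • D.j ζ₁ - β • D.j ζ₂))
    (m2 : m.1 (D.j ζ₂) = D.j ζ₂ + σ₂ • (D.j ζ₃ - α • D.j ζ₁ - β • D.j ζ₂))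
    (ma : m.1 a = s • D.j ζ₂ + a + τ • (D.j ζ₃ - α • D.j ζ₁ - β • D.j ζ₂)) :
    ∃ k₀ ∈ F₀, ∃ k₁ ∈ F₀, ∃ k₂ ∈ F₀, s = k₀ + k₁ * α + k₂ * β := by
  have P : ∀ {x y : V₀}, polar D.Q₀ x y = 0 → polar D.Q (D.j y) (D.j x) = 0 := by
    intro x y hxy
    rw [polar_comm]; exact D.polar_j_zero hxy
  have P1 : ∀ {x y : V₀}, polar D.Q₀ x y = 1 → polar D.Q (D.j y) (D.j x) = 1 := by
    intro x y hxy
    rw [polar_comm]; exact D.polar_j_one hxy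
  have E11 := polar_self_of_Q (D.Q_j_zero C.z12.qu)
  have E22 := polar_self_of_Q (D.Q_j_zero C.z12.qv)
  have E33 := polar_self_of_Q (D.Q_j_zero C.z13.qv)
  have E12 := D.polar_j_zero C.z12.uv
  have E21 := D.polar_j_zero C.z12.vu
  have E13 := D.polar_j_zero C.z13.uv
  have E31 := D.polar_j_zero C.z13.vu
  have E23 := D.polar_j_zero C.z23.uv
  have E32 := D.polar_j_zero C.z23.vu
  have X11 := P1 C.x11
  have X12 := P C.x12
  have X13 := P C.x13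
  have X21 := P C.x21
  have X22 := P1 C.x22
  have X23 := P C.x23
  have X31 := P C.x31
  have X32 := P C.x32
  have X33 := P1 C.x33
  have hζ₁ : ζ₁ ≠ 0 := by
    rintro rfl
    have := C.x11
    simp at this
  have hζ₂ : ζ₂ ≠ 0 := by
    rintro rfl
    have := C.x22
    simp at this
  have hζ₃ : ζ₃ ≠ 0 := by
    rintro rfl
    have := C.x33
    simp at this
  -- step 1
  have hL := (hM ζ₁ ζ₂ C.z12).conj hm
  rw [m1, m2] at hL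
  set ρ := D.j ζ₃ - α • D.j ζ₁ - β • D.j ζ₂ with hρ
  have R1 : polar D.Q ρ (D.j ζ₁) = 0 := by
    simp only [hρ, polar_sub_left, polar_smul_left, E31, E11, E21, smul_eq_mul, mul_zero, sub_zero]
  have R2 : polar D.Q ρ (D.j ζ₂) = 0 := by
    simp only [hρ, polar_sub_left, polar_smul_left, E32, E12, E22, smul_eq_mul, mul_zero, sub_zero]
  have R3 : polar D.Q ρ (D.j ζ₃) = 0 := by
    simp only [hρ, polar_sub_left, polar_smul_left, E33, E13, E23, smul_eq_mul, mul_zero, sub_zero]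
  have S1 : polar D.Q ρ (D.j ξ₁) = -α := by
    simp only [hρ, polar_sub_left, polar_smul_left, X11, X12, X13, smul_eq_mul]; ring
  have S2 : polar D.Q ρ (D.j ξ₂) = -β := by
    simp only [hρ, polar_sub_left, polar_smul_left, X21, X22, X23, smul_eq_mul]; ring
  have S3 : polar D.Q ρ (D.j ξ₃) = 1 := by
    simp only [hρ, polar_sub_left, polar_smul_left, X31, X32, X33, smul_eq_mul]; ring
  have r13 := omega_rat hM hK hd hL C.z12.qv hζ₂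
    (by simp only [polar_add_left, polar_smul_left, E12, R2, smul_eq_mul, mul_zero, add_zero])
    (by simp only [polar_add_left, polar_smul_left, E22, R2, smul_eq_mul, mul_zero, add_zero])
    C.x12 C.x32
  have r23 := omega_rat hM hK hd hL C.z12.qu hζ₁
    (by simp only [polar_add_left, polar_smul_left, E11, R1, smul_eq_mul, mul_zero, add_zero])
    (by simp only [polar_add_left, polar_smul_left, E21, R1, smul_eq_mul, mul_zero, add_zero])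
    C.x21 C.x31
  have r12 := omega_rat hM hK hd hL C.z13.qv hζ₃
    (by simp only [polar_add_left, polar_smul_left, E13, R3, smul_eq_mul, mul_zero, add_zero])
    (by simp only [polar_add_left, polar_smul_left, E23, R3, smul_eq_mul, mul_zero, add_zero])
    C.x13 C.x23
  simp only [polar_add_left, polar_smul_left, X11, X12, X13, X21, X22, X23, X31, X32, X33, S1, S2,
    S3, smul_eq_mul] at r13 r23 r12
  have hσ₂ : σ₂ ∈ F₀ := by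
    have e : (1 + σ₁ * -α) * (0 + σ₂ * 1) - (0 + σ₂ * -α) * (0 + σ₁ * 1) = σ₂ := by ring
    rwa [e] at r13
  have hσ₁ : σ₁ ∈ F₀ := by
    have e : (0 + σ₁ * -β) * (0 + σ₂ * 1) - (1 + σ₂ * -β) * (0 + σ₁ * 1) = -σ₁ := by ring
    rw [e] at r23
    have := F₀.neg_mem r23
    rwa [neg_neg] at this
  obtain ⟨z1, z2⟩ := hlin _ (F₀.sub_mem r12 F₀.one_mem) σ₁ hσ₁ σ₂ hσ₂ (by ring)
  rw [z1, zero_smul, add_zero] at m1
  rw [z2, zero_smul, add_zero] at m2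
  have m3 : m.1 (D.j ζ₃) = D.j ζ₃ := by
    have e : D.j ζ₃ = ρ + α • D.j ζ₁ + β • D.j ζ₂ := by rw [hρ]; abel
    rw [e, map_add, map_add, map_smul, map_smul, mr, m1, m2]
  -- step 2
  have hrat : ∀ (ξ ζ ζ' : V₀), D.Q₀ ξ = 0 → D.Q₀ ζ = 0 → D.Q₀ ζ' = 0 → polar D.Q₀ ξ ζ = 0 →
      polar D.Q₀ ξ ζ' = 0 → ζ ≠ 0 → ζ' ≠ 0 → (∀ c : F₀, ζ' ≠ c • ζ) → m.1 (D.j ζ) = D.j ζ →
      m.1 (D.j ζ') = D.j ζ' → ∃ η, m.1 (D.j ξ) = D.j η := by
    intro ξ ζ ζ' hξ hζ hζ' h1 h2 h0 h0' hi mz mz'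
    have l1 := ((hM ξ ζ ⟨hξ, hζ, h1⟩).conj hm).symm
    have l2 := ((hM ξ ζ' ⟨hξ, hζ', h2⟩).conj hm).symm
    rw [mz] at l1
    rw [mz'] at l2
    obtain ⟨d, t, e⟩ := rat_point hM hK hd hζ h0 l1
    obtain ⟨d', t', e'⟩ := rat_point hM hK hd hζ' h0' l2
    have ht' := D.rat_of_two hi (e.symm.trans e')
    exact ⟨d' + (⟨t', ht'⟩ : F₀) • ζ', by rw [map_add, D.j_smul, e']⟩
  have key : ∀ ξ : V₀, (∃ η, m.1 (D.j ξ) = D.j η) → ∃ y₁ ∈ F₀, ∃ y₂ ∈ F₀, ∃ y₃ ∈ F₀,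
      m.1 (D.j ξ) = D.j ξ + y₁ • D.j ζ₁ + y₂ • D.j ζ₂ + y₃ • D.j ζ₃ := by
    rintro ξ ⟨η, hη⟩
    obtain ⟨xa, xb, y₁, y₂, y₃, e⟩ := mem_span5.1 (mL (D.j ξ))
    have c1 : polar D.Q (m.1 (D.j ξ) - D.j ξ) (D.j ζ₁) = 0 := by
      rw [polar_sub_left]
      conv_lhs => rw [← m1]
      rw [OG_polar, m1, sub_self]
    have c2 : polar D.Q (m.1 (D.j ξ) - D.j ξ) (D.j ζ₂) = 0 := by
      rw [polar_sub_left]
      conv_lhs => rw [← m2]
      rw [OG_polar, m2, sub_self]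
    rw [e] at c1 c2
    simp only [polar_add_left, polar_smul_left, C.a1, C.a2, C.b1, C.b2, E11, E21, E31, E12, E22,
      E32, smul_eq_mul, mul_zero, mul_one, add_zero, zero_add] at c1 c2
    rw [c1, c2, zero_smul, zero_smul, zero_add, zero_add] at e
    have hmem : ∀ ξ' : V₀, polar D.Q (m.1 (D.j ξ) - D.j ξ) (D.j ξ') ∈ F₀ := by
      intro ξ'
      rw [hη, ← map_sub]
      exact D.polar_j_mem _ _
    have f1 := hmem ξ₁
    have f2 := hmem ξ₂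
    have f3 := hmem ξ₃
    rw [e] at f1 f2 f3
    simp only [polar_add_left, polar_smul_left, X11, X12, X13, X21, X22, X23, X31, X32, X33,
      smul_eq_mul, mul_zero, mul_one, add_zero, zero_add] at f1 f2 f3
    refine ⟨y₁, f1, y₂, f2, y₃, f3, ?_⟩
    rw [add_assoc, add_assoc, ← add_assoc (y₁ • D.j ζ₁), ← e]
    abel
  have i31 : ∀ c : F₀, ζ₃ ≠ c • ζ₁ := by
    intro c hc
    have := C.x33
    rw [hc, polar_smul_right, C.x31] at this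
    simp at this
  have i21 : ∀ c : F₀, ζ₂ ≠ c • ζ₁ := by
    intro c hc
    have := C.x22
    rw [hc, polar_smul_right, C.x21] at this
    simp at this
  obtain ⟨y₁, hy₁, y₂, hy₂, y₃, hy₃, e2⟩ := key ξ₂
    (hrat ξ₂ ζ₁ ζ₃ C.q2 C.z12.qu C.z13.qv C.x21 C.x23 hζ₁ hζ₃ i31 m1 m3)
  obtain ⟨w₁, hw₁, w₂, hw₂, w₃, hw₃, e3⟩ := key ξ₃
    (hrat ξ₃ ζ₁ ζ₂ C.q3 C.z12.qu C.z12.qv C.x31 C.x32 hζ₁ hζ₂ i21 m1 m2)
  have I2 := OG_polar D.Q m a (D.j ξ₂)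
  have I3 := OG_polar D.Q m a (D.j ξ₃)
  have J3 := OG_apply D.Q m (D.j ξ₃)
  rw [ma, e2] at I2
  rw [ma, e3] at I3
  rw [e3] at J3
  simp only [polar_add_left, polar_add_right, polar_smul_left, polar_smul_right, C.a1, C.a2, C.a3,
    E11, E12, E13, E21, E22, E23, E31, E32, E33, X21, X22, X23, X31, X32, X33, R1, R2, R3, S2, S3,
    smul_eq_mul, mul_zero, mul_one, add_zero, zero_add] at I2 I3
  have hw₃0 : w₃ = 0 := by
    have e : D.j ξ₃ + w₁ • D.j ζ₁ + w₂ • D.j ζ₂ + w₃ • D.j ζ₃ =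
        D.j ξ₃ + (w₁ • D.j ζ₁ + w₂ • D.j ζ₂ + w₃ • D.j ζ₃) := by abel
    rw [e, qmap_add, qmap_add, qmap_add] at J3
    simp only [QuadraticMap.map_smul, polar_add_left, polar_add_right, polar_smul_left,
      polar_smul_right, D.Q_j_zero C.z12.qu, D.Q_j_zero C.z12.qv, D.Q_j_zero C.z13.qv,
      D.Q_j_zero C.q3, E12, E13, E23, D.polar_j_zero C.x31, D.polar_j_zero C.x32,
      D.polar_j_one C.x33, smul_eq_mul, mul_zero, mul_one, add_zero, zero_add] at J3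
    exact J3
  refine ⟨-y₁, F₀.neg_mem hy₁, -y₃, F₀.neg_mem hy₃, -w₁, F₀.neg_mem hw₁, ?_⟩
  rw [hw₃0] at I3
  linear_combination I2 + β * I3

end Cfsg.Agent.Lib.Helper97.OSub
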