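import Mathlib
import Cfsg.Agent.Lib.Helper97.OSubGen
import Cfsg.Agent.Lib.Helper99.SpSubB

set_option autoImplicit false
set_option linter.unusedSimpArgs false
set_option linter.unusedSectionVars false
set_option linter.unusedVariables false
set_option linter.style.haveILetI false

/-! The generic case: the normalised configuration is impossible. -/

namespace Cfsg.Agent.Lib.Helper97.OSub

open QuadraticMap Module Matrix Cfsg.Agent.Lib.Helper95 Cfsg.Agent.Lib.Helper49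
  Cfsg.Agent.Lib.Helper46 Cfsg.Agent.Lib.Helper7

variable {F : Type*} [Field F] {F₀ : Subfield F} {V₀ V : Type*} [AddCommGroup V₀]
  [Module F₀ V₀] [AddCommGroup V] [Module F V] {D : QRS F₀ V₀ V} {M : Subgroup (OG D.Q)}

/-- linear independence of `1, α, β` over `F₀` in a generic configuration -/
theorem Cfg.lin {a b : V} {ζ₁ ζ₂ ζ₃ ξ₁ ξ₂ ξ₃ : V₀} {α β : F}
    (C : Cfg D a b ζ₁ ζ₂ ζ₃ ξ₁ ξ₂ ξ₃ α β)
    (hG : ∀ u v : V₀, SPair D.Q₀ u v → u ≠ 0 → (∀ k : F₀, v ≠ k • u) →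
      polar D.Q a (D.j u) * polar D.Q b (D.j v) - polar D.Q b (D.j u) * polar D.Q a (D.j v) ≠ 0)
    (k₀ k₁ k₂ : F₀) (h : (k₀ : F) + k₁ * α + k₂ * β = 0) : k₀ = 0 ∧ k₁ = 0 ∧ k₂ = 0 := by
  have T : ∀ x y z : F₀, D.Q₀ (x • ζ₁ + y • ζ₂ + z • ζ₃) = 0 := by
    intro x y z
    rw [qmap_add, qmap_add]
    simp only [QuadraticMap.map_smul, polar_add_left, polar_smul_left, polar_smul_right, C.z12.qu,
      C.z12.qv, C.z13.qv, C.z12.uv, C.z13.uv, C.z23.uv, smul_eq_mul, mul_zero, add_zero]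
  have TP : ∀ x y z x' y' z' : F₀,
      polar D.Q₀ (x • ζ₁ + y • ζ₂ + z • ζ₃) (x' • ζ₁ + y' • ζ₂ + z' • ζ₃) = 0 := by
    intro x y z x' y' z'
    simp only [polar_add_left, polar_add_right, polar_smul_left, polar_smul_right, C.z12.uu,
      C.z12.vv, C.z13.vv, C.z12.uv, C.z13.uv, C.z23.uv, C.z12.vu, C.z13.vu, C.z23.vu, smul_eq_mul,
      mul_zero, add_zero]
  have PA : ∀ x y z : F₀, polar D.Q a (D.j (x • ζ₁ + y • ζ₂ + z • ζ₃)) = x + z * α := by
    intro x y z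
    simp only [map_add, D.j_smul, polar_add_right, polar_smul_right, C.a1, C.a2, C.a3, smul_eq_mul,
      mul_zero, mul_one, add_zero]
  have PB : ∀ x y z : F₀, polar D.Q b (D.j (x • ζ₁ + y • ζ₂ + z • ζ₃)) = y + z * β := by
    intro x y z
    simp only [map_add, D.j_smul, polar_add_right, polar_smul_right, C.b1, C.b2, C.b3, smul_eq_mul,
      mul_zero, mul_one, add_zero, zero_add]
  have X1 : ∀ x y z : F₀, polar D.Q₀ ξ₁ (x • ζ₁ + y • ζ₂ + z • ζ₃) = x := by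
    intro x y z
    simp only [polar_add_right, polar_smul_right, C.x11, C.x12, C.x13, smul_eq_mul, mul_zero,
      mul_one, add_zero]
  have X2 : ∀ x y z : F₀, polar D.Q₀ ξ₂ (x • ζ₁ + y • ζ₂ + z • ζ₃) = y := by
    intro x y z
    simp only [polar_add_right, polar_smul_right, C.x21, C.x22, C.x23, smul_eq_mul, mul_zero,
      mul_one, add_zero, zero_add]
  have X3 : ∀ x y z : F₀, polar D.Q₀ ξ₃ (x • ζ₁ + y • ζ₂ + z • ζ₃) = z := by
    intro x y z
    simp only [polar_add_right, polar_smul_right, C.x31, C.x32, C.x33, smul_eq_mul, mul_zero,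
      mul_one, add_zero, zero_add]
  by_cases hk₀ : k₀ = 0
  · subst hk₀
    by_contra hcon
    have hu : k₂ • ζ₁ + (-k₁) • ζ₂ + (0 : F₀) • ζ₃ ≠ 0 := by
      intro h0
      apply hcon
      have e1 := X1 k₂ (-k₁) 0
      have e2 := X2 k₂ (-k₁) 0
      rw [h0, polar_zero_right] at e1 e2
      exact ⟨rfl, by simpa using e2.symm, e1.symm⟩
    apply hG (k₂ • ζ₁ + (-k₁) • ζ₂ + (0 : F₀) • ζ₃) ((0 : F₀) • ζ₁ + (0 : F₀) • ζ₂ + (1 : F₀) • ζ₃)
      ⟨T _ _ _, T _ _ _, TP _ _ _ _ _ _⟩ hu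
    · intro c hc
      have e1 := X3 0 0 1
      rw [hc, polar_smul_right, X3] at e1
      simp at e1
    · rw [PA, PA, PB, PB]
      push_cast
      push_cast at h
      linear_combination h
  · exfalso
    apply hG ((1 : F₀) • ζ₁ + (0 : F₀) • ζ₂ + (k₁ / k₀) • ζ₃) ((0 : F₀) • ζ₁ + k₀ • ζ₂ + k₂ • ζ₃)
      ⟨T _ _ _, T _ _ _, TP _ _ _ _ _ _⟩
    · intro h0
      have e1 := X1 1 0 (k₁ / k₀)
      rw [h0, polar_zero_right] at e1
      exact one_ne_zero e1.symm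
    · intro c hc
      have e1 := X1 0 k₀ k₂
      have e2 := X2 0 k₀ k₂
      rw [hc, polar_smul_right, X1] at e1
      rw [hc, polar_smul_right, X2] at e2
      simp at e1 e2
      exact hk₀ e2.symm
    · rw [PA, PA, PB, PB]
      have hk₀' : (k₀ : F) ≠ 0 := by exact_mod_cast hk₀
      push_cast
      field_simp
      linear_combination (k₀ : F) * h

/-- the normalised generic configuration is impossible -/
theorem cfg_false [Fintype F] [FiniteDimensional F₀ V₀] (hM : D.HasRat M)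
    (hK : ∀ δ, Sh D M δ → δ ∈ F₀) (hdich : ∀ K : Subfield F, F₀ ≤ K → K = F₀ ∨ K = ⊤)
    (hd : 13 ≤ finrank F₀ V₀) (h4 : 4 ≤ finrank F₀ F) {a b : V} {ζ₁ ζ₂ ζ₃ ξ₁ ξ₂ ξ₃ : V₀} {α β : F}
    (C : Cfg D a b ζ₁ ζ₂ ζ₃ ξ₁ ξ₂ ξ₃ α β)
    (hG : ∀ u v : V₀, SPair D.Q₀ u v → u ≠ 0 → (∀ k : F₀, v ≠ k • u) →
      polar D.Q a (D.j u) * polar D.Q b (D.j v) - polar D.Q b (D.j u) * polar D.Q a (D.j v) ≠ 0)
    {κ : F} (hκ : κ ≠ 0) (h : LR M (κ • a) b) : False := by
  obtain ⟨p, hp⟩ := CharP.exists F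
  haveI : Fact p.Prime := ⟨CharP.char_is_prime F p⟩
  have hlin := C.lin hG
  have E11 := polar_self_of_Q (D.Q_j_zero C.z12.qu)
  have E22 := polar_self_of_Q (D.Q_j_zero C.z12.qv)
  have E33 := polar_self_of_Q (D.Q_j_zero C.z13.qv)
  have E12 := D.polar_j_zero C.z12.uv
  have E21 := D.polar_j_zero C.z12.vu
  have E13 := D.polar_j_zero C.z13.uv
  have E31 := D.polar_j_zero C.z13.vu
  have E23 := D.polar_j_zero C.z23.uv
  have E32 := D.polar_j_zero C.z23.vu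
  have A1 : polar D.Q (D.j ζ₁) a = 1 := by rw [polar_comm]; exact C.a1
  have A2 : polar D.Q (D.j ζ₂) a = 0 := by rw [polar_comm]; exact C.a2
  have A3 : polar D.Q (D.j ζ₃) a = α := by rw [polar_comm]; exact C.a3
  have B1 : polar D.Q (D.j ζ₁) b = 0 := by rw [polar_comm]; exact C.b1
  have B2 : polar D.Q (D.j ζ₂) b = 1 := by rw [polar_comm]; exact C.b2
  have B3 : polar D.Q (D.j ζ₃) b = β := by rw [polar_comm]; exact C.b3
  set ρ := D.j ζ₃ - α • D.j ζ₁ - β • D.j ζ₂ with hρ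
  have Ra : polar D.Q a ρ = 0 := by
    simp only [hρ, polar_sub_right, polar_smul_right, C.a1, C.a2, C.a3, smul_eq_mul]; ring
  have Rb : polar D.Q b ρ = 0 := by
    simp only [hρ, polar_sub_right, polar_smul_right, C.b1, C.b2, C.b3, smul_eq_mul]; ring
  have R1 : polar D.Q (D.j ζ₁) ρ = 0 := by
    simp only [hρ, polar_sub_right, polar_smul_right, E11, E12, E13, smul_eq_mul]; ring
  have R2 : polar D.Q (D.j ζ₂) ρ = 0 := by
    simp only [hρ, polar_sub_right, polar_smul_right, E21, E22, E23, smul_eq_mul]; ring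
  have R3 : polar D.Q (D.j ζ₃) ρ = 0 := by
    simp only [hρ, polar_sub_right, polar_smul_right, E31, E32, E33, smul_eq_mul]; ring
  set L : Submodule F V := Submodule.span F (Set.range ![a, b, D.j ζ₁, D.j ζ₂, D.j ζ₃]) with hL
  have haL : a ∈ L := Submodule.subset_span ⟨0, rfl⟩
  have hbL : b ∈ L := Submodule.subset_span ⟨1, rfl⟩
  have h1L : D.j ζ₁ ∈ L := Submodule.subset_span ⟨2, rfl⟩
  have h2L : D.j ζ₂ ∈ L := Submodule.subset_span ⟨3, rfl⟩
  have h3L : D.j ζ₃ ∈ L := Submodule.subset_span ⟨4, rfl⟩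
  have hsgL : ∀ {u v : V} (hs : SPair D.Q u v), u ∈ L → v ∈ L → ∀ x, (sg hs).1 x - x ∈ L := by
    intro u v hs hu hv x
    rw [sg_apply]
    have e : x + polar D.Q u x • v - polar D.Q v x • u - x
        = polar D.Q u x • v - polar D.Q v x • u := by abel
    rw [e]
    exact L.sub_mem (L.smul_mem _ hv) (L.smul_mem _ hu)
  set G := quadGrp (M.map (OG D.Q).subtype) L (D.j ζ₂) a (-D.j ζ₁) b ρ with hGdef
  have hl : ll (-κ) ∈ G := by
    obtain ⟨hs, hm⟩ := h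
    refine ⟨(sg hs).1, ⟨sg hs, hm, rfl⟩, hsgL hs (L.smul_mem _ haL) hbL, ?_,
      ⟨⟨0, ?_⟩, ⟨0, ?_⟩⟩, ⟨⟨0, ?_⟩, ⟨0, ?_⟩⟩⟩
    · rw [sg_apply, polar_smul_left, Ra, Rb]; simp
    · rw [sg_apply, polar_smul_left, C.a2, C.b2]
      simp only [ll, mk2_00, mk2_10]
      module
    · rw [sg_apply, polar_smul_left, C.ab.uu, C.ab.vu]
      simp only [ll, mk2_01, mk2_11]
      module
    · rw [sg_apply, polar_smul_left, polar_neg_right, polar_neg_right, C.a1, C.b1]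
      simp only [ll, mk2_00, mk2_10, smul_eq_mul]
      module
    · rw [sg_apply, polar_smul_left, C.ab.uv, C.ab.vv]
      simp only [ll, mk2_01, mk2_11]
      module
  have hu : ∀ k : F₀, uu (k : F) ∈ G := by
    intro k
    obtain ⟨hs, hm⟩ := hM (k • ζ₁) ζ₂ ((C.z12.symm.smul_right k).symm)
    refine ⟨(sg hs).1, ⟨sg hs, hm, rfl⟩,
      hsgL hs (by rw [D.j_smul]; exact L.smul_mem _ h1L) h2L, ?_,
      ⟨⟨0, ?_⟩, ⟨0, ?_⟩⟩, ⟨⟨0, ?_⟩, ⟨0, ?_⟩⟩⟩
    · rw [sg_apply, D.j_smul, polar_smul_left, R1, R2]; simp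
    · rw [sg_apply, D.j_smul, polar_smul_left, E12, E22]
      simp only [uu, mk2_00, mk2_10]
      module
    · rw [sg_apply, D.j_smul, polar_smul_left, A1, A2]
      simp only [uu, mk2_01, mk2_11, smul_eq_mul]
      module
    · rw [sg_apply, D.j_smul, polar_smul_left, polar_neg_right, polar_neg_right, E11, E21]
      simp only [uu, mk2_00, mk2_10]
      module
    · rw [sg_apply, D.j_smul, polar_smul_left, B1, B2]
      simp only [uu, mk2_01, mk2_11, smul_eq_mul]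
      module
  have hb : uu β ∈ G := by
    obtain ⟨hs, hm⟩ := hM ζ₁ ζ₃ C.z13
    refine ⟨(sg hs).1, ⟨sg hs, hm, rfl⟩, hsgL hs h1L h3L, ?_,
      ⟨⟨0, ?_⟩, ⟨1, ?_⟩⟩, ⟨⟨0, ?_⟩, ⟨0, ?_⟩⟩⟩
    · rw [sg_apply, R1, R3]; simp
    · rw [sg_apply, E12, E32]
      simp only [uu, mk2_00, mk2_10]
      module
    · rw [sg_apply, A1, A3, hρ]
      simp only [uu, mk2_01, mk2_11]
      module
    · rw [sg_apply, polar_neg_right, polar_neg_right, E11, E31]
      simp only [uu, mk2_00, mk2_10]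
      module
    · rw [sg_apply, B1, B3]
      simp only [uu, mk2_01, mk2_11]
      module
  have hβ : β ∉ F₀ := by
    intro hmem
    have := (hlin (-⟨β, hmem⟩) 0 1 (by push_cast; ring)).2.2
    exact one_ne_zero this
  have hu1 : uu (1 : F) ∈ G := by simpa using hu 1
  have h4c : 4 ≤ Nat.card (addOf G) := by
    apply Cfsg.Agent.Lib.Helper99.SpSub.four_le_card hu1 hb one_ne_zero
    · intro h0; exact hβ (h0 ▸ F₀.zero_mem)
    · intro h0; exact hβ (h0 ▸ F₀.one_mem)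
    · intro h0
      apply hβ
      have : β = -1 := by linear_combination h0
      rw [this]; exact F₀.neg_mem F₀.one_mem
  obtain ⟨K, c₀, hc₀, hKiff⟩ := key_subfield p G one_ne_zero (neg_ne_zero.2 hκ) hu1 hl h4c
  have hx1 : 1 / c₀ ∈ K := by
    rw [← hKiff]
    have : c₀ * (1 / c₀) = 1 := by field_simp
    rw [this]; exact hu1
  have hx10 : 1 / c₀ ≠ 0 := div_ne_zero one_ne_zero hc₀
  have hmemK : ∀ x : F, uu x ∈ G → x ∈ K := by
    intro x hx
    have h1 : x * (1 / c₀) ∈ K := by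
      rw [← hKiff]
      have : c₀ * (x * (1 / c₀)) = x := by field_simp
      rw [this]; exact hx
    have := K.div_mem h1 hx1
    rwa [mul_div_cancel_right₀ _ hx10] at this
  have hF₀K : F₀ ≤ K := fun k hk => hmemK k (hu ⟨k, hk⟩)
  rcases hdich K hF₀K with rfl | rfl
  · exact hβ (hmemK β hb)
  · have hall : ∀ s : F, ∃ k₀ ∈ F₀, ∃ k₁ ∈ F₀, ∃ k₂ ∈ F₀, s = k₀ + k₁ * α + k₂ * β := by
      intro s
      have hs : uu s ∈ G := by
        have : c₀ * (s / c₀) = s := by field_simp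
        rw [← this]
        exact (hKiff _).2 (Subfield.mem_top _)
      obtain ⟨m', ⟨m, hm, rfl⟩, mL, mr, ⟨⟨ρ₁, e1⟩, ⟨ρ₂, e2⟩⟩, ⟨⟨ρ₃, e3⟩, -⟩⟩ := hs
      simp only [uu, mk2_00, mk2_01, mk2_10, mk2_11, one_smul, zero_smul, add_zero] at e1 e2 e3
      apply param_restricted hM hK hd C
        (fun k₀ h₀ k₁ h₁ k₂ h₂ e => by
          have := hlin ⟨k₀, h₀⟩ ⟨k₁, h₁⟩ ⟨k₂, h₂⟩ e
          exact ⟨congrArg Subtype.val this.2.1, congrArg Subtype.val this.2.2⟩)
        hm mL (σ₁ := -ρ₃) (σ₂ := ρ₁) (τ := ρ₂) (s := s) mr ?_ e1 e2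
      have : (OG D.Q).subtype m (D.j ζ₁) = -((OG D.Q).subtype m (-D.j ζ₁)) := by
        rw [map_neg, neg_neg]
      change (OG D.Q).subtype m (D.j ζ₁) = _
      rw [this, e3]
      module
    have htop : (⊤ : Submodule F₀ F) ≤ Submodule.span F₀ (Set.range ![(1 : F), α, β]) := by
      intro s _
      obtain ⟨k₀, h₀, k₁, h₁, k₂, h₂, e⟩ := hall s
      rw [mem_span3]
      refine ⟨⟨k₀, h₀⟩, ⟨k₁, h₁⟩, ⟨k₂, h₂⟩, ?_⟩
      rw [e]
      simp [Subfield.smul_def]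
    have h5 := Submodule.finrank_mono htop
    rw [finrank_top] at h5
    have h6 := finrank_range_le_card (R := F₀) ![(1 : F), α, β]
    rw [Fintype.card_fin] at h6
    have h7 : finrank F₀ (Submodule.span F₀ (Set.range ![(1 : F), α, β])) ≤ 3 := h6
    omega

end Cfsg.Agent.Lib.Helper97.OSub
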