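import Mathlib
import Cfsg.Agent.Lib.Helper97.OSubGen2

set_option autoImplicit false
set_option linter.unusedSimpArgs false
set_option linter.unusedSectionVars false
set_option linter.unusedVariables false
set_option linter.style.haveILetI false

/-! The generic case is impossible; all lines of `M` are rational. -/

namespace Cfsg.Agent.Lib.Helper97.OSub

open QuadraticMap Module Cfsg.Agent.Lib.Helper95 Cfsg.Agent.Lib.Helper49

section geo

variable {K W : Type*} [Field K] [AddCommGroup W] [Module K W] {q : QuadraticForm K W}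

lemma polar_sum_right {ι : Type*} (s : Finset ι) (x : W) (f : ι → W) :
    polar q x (∑ i ∈ s, f i) = ∑ i ∈ s, polar q x (f i) := by
  exact map_sum (polarBilin q x) f s

lemma q_sum_zero {ι : Type*} (s : Finset ι) (f : ι → W) (hq : ∀ i, q (f i) = 0)
    (hp : ∀ i j, polar q (f i) (f j) = 0) : q (∑ i ∈ s, f i) = 0 := by
  classical
  induction s using Finset.induction_on with
  | empty => simp
  | insert i s hi ih =>
    rw [Finset.sum_insert hi, qmap_add, hq, ih, polar_sum_right]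
    simp [hp]

variable [Fintype K] [FiniteDimensional K W]

/-- totally singular independent families -/
lemma exists_ts (hnd : (polarBilin q).Nondegenerate) : ∀ k : ℕ, 2 * (k + 1) < finrank K W →
    ∃ a : Fin k → W, LinearIndependent K a ∧ (∀ i, q (a i) = 0) ∧
      (∀ i j, polar q (a i) (a j) = 0)
  | 0, _ => ⟨![], linearIndependent_empty_type, fun i => i.elim0, fun i => i.elim0⟩
  | k + 1, h => by
    obtain ⟨a, hl, hq, hp⟩ := exists_ts hnd k (by omega)
    obtain ⟨u, hu, hup, hout⟩ := exists_sing_perp_out hnd a (by omega)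
    refine ⟨Fin.cons u a, ?_, ?_, ?_⟩
    · rw [linearIndependent_finCons]; exact ⟨hl, hout⟩
    · intro i
      refine Fin.cases ?_ (fun i => ?_) i
      · simpa using hu
      · simpa using hq i
    · intro i j
      refine Fin.cases ?_ (fun i => ?_) i <;> refine Fin.cases ?_ (fun j => ?_) j
      · simpa using polar_self_of_Q hu
      · simpa using hup j
      · simp only [Fin.cons_succ, Fin.cons_zero]
        rw [polar_comm]; exact hup i
      · simpa using hp i j

end geo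

variable {F : Type*} [Field F] {F₀ : Subfield F} {V₀ V : Type*} [AddCommGroup V₀]
  [Module F₀ V₀] [AddCommGroup V] [Module F V] {D : QRS F₀ V₀ V} {M : Subgroup (OG D.Q)}

/-- in the generic case the degree of `F` over `F₀` is at least `4` -/
theorem four_le_of_generic [Finite F] {a b : V} (ζ : Fin 5 → V₀) (hli : LinearIndependent F₀ ζ)
    (hq : ∀ i, D.Q₀ (ζ i) = 0) (hp : ∀ i j, polar D.Q₀ (ζ i) (ζ j) = 0)
    (hG : ∀ u v : V₀, SPair D.Q₀ u v → u ≠ 0 → (∀ k : F₀, v ≠ k • u) →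
      polar D.Q a (D.j u) * polar D.Q b (D.j v) - polar D.Q b (D.j u) * polar D.Q a (D.j v) ≠ 0) :
    4 ≤ finrank F₀ F := by
  let Φ : V₀ →ₗ[F₀] F :=
    { toFun := fun v => polar D.Q a (D.j (ζ 0)) * polar D.Q b (D.j v) -
        polar D.Q b (D.j (ζ 0)) * polar D.Q a (D.j v)
      map_add' := by
        intro x y
        simp only [map_add, polar_add_right]; ring
      map_smul' := by
        intro c x
        simp only [D.j_smul, polar_smul_right, smul_eq_mul, RingHom.id_apply, Subfield.smul_def]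
        ring }
  let T : (Fin 4 → F₀) →ₗ[F₀] V₀ := Fintype.linearCombination F₀ (fun i : Fin 4 => ζ i.succ)
  have hinj : Function.Injective (Φ.comp T) := by
    rw [← LinearMap.ker_eq_bot, LinearMap.ker_eq_bot']
    intro k hk
    have hT : T k = ∑ i, k i • ζ i.succ := Fintype.linearCombination_apply _ _ _
    have hs : SPair D.Q₀ (ζ 0) (T k) := by
      refine ⟨hq 0, ?_, ?_⟩
      · rw [hT]
        apply q_sum_zero
        · intro i
          rw [QuadraticMap.map_smul, hq]; simp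
        · intro i j
          rw [polar_smul_left, polar_smul_right, hp]; simp
      · rw [hT, polar_sum_right]
        apply Finset.sum_eq_zero
        intro i _
        rw [polar_smul_right, hp]; simp
    by_cases hdep : ∃ c : F₀, T k = c • ζ 0
    · obtain ⟨c, hc⟩ := hdep
      have h1 := Fintype.linearIndependent_iff.1 hli (Fin.cons (-c) k) (by
        rw [Fin.sum_univ_succ]
        simp only [Fin.cons_zero, Fin.cons_succ]
        rw [← hT, hc]; module)
      funext i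
      have := h1 i.succ
      simpa using this
    · push Not at hdep
      exact (hG (ζ 0) (T k) hs (hli.ne_zero 0) hdep hk).elim
  have h1 := LinearMap.finrank_le_finrank_of_injective hinj
  simpa using h1

/-- the generic case is impossible -/
theorem generic_false [Fintype F] [FiniteDimensional F₀ V₀] (hM : D.HasRat M)
    (hK : ∀ δ, Sh D M δ → δ ∈ F₀) (hdich : ∀ K : Subfield F, F₀ ≤ K → K = F₀ ∨ K = ⊤)
    (hd : 13 ≤ finrank F₀ V₀) {a b : V} (h : LR M a b)
    (hG : ∀ u v : V₀, SPair D.Q₀ u v → u ≠ 0 → (∀ k : F₀, v ≠ k • u) →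
      polar D.Q a (D.j u) * polar D.Q b (D.j v) - polar D.Q b (D.j u) * polar D.Q a (D.j v) ≠ 0) :
    False := by
  haveI : Fintype F₀ := Fintype.ofFinite F₀
  obtain ⟨ζ, hli, hq, hp⟩ := exists_ts D.nd₀ 5 (by omega)
  have h4 := four_le_of_generic ζ hli hq hp hG
  have hi : ∀ x y z : F₀, x • ζ 0 + y • ζ 1 + z • ζ 2 = 0 → x = 0 ∧ y = 0 ∧ z = 0 := by
    intro x y z e
    have := Fintype.linearIndependent_iff.1 hli ![x, y, z, 0, 0] (by
      simp [Fin.sum_univ_five]; exact e)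
    exact ⟨this 0, this 1, this 2⟩
  obtain ⟨ξ₁, q1, p1, x11⟩ := qsepS D.nd₀ ![ζ 1, ζ 2] (w := ζ 0) (by
    rw [mem_span2]
    rintro ⟨α, β, e⟩
    have := hi 1 (-α) (-β) (by rw [e]; module)
    exact one_ne_zero this.1) (by omega)
  obtain ⟨ξ₂, q2, p2, x22⟩ := qsepS D.nd₀ ![ζ 0, ζ 2] (w := ζ 1) (by
    rw [mem_span2]
    rintro ⟨α, β, e⟩
    have := hi (-α) 1 (-β) (by rw [e]; module)
    exact one_ne_zero this.2.1) (by omega)
  obtain ⟨ξ₃, q3, p3, x33⟩ := qsepS D.nd₀ ![ζ 0, ζ 1] (w := ζ 2) (by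
    rw [mem_span2]
    rintro ⟨α, β, e⟩
    have := hi (-α) (-β) 1 (by rw [e]; module)
    exact one_ne_zero this.2.2) (by omega)
  have x12 : polar D.Q₀ ξ₁ (ζ 1) = 0 := p1 0
  have x13 : polar D.Q₀ ξ₁ (ζ 2) = 0 := p1 1
  have x21 : polar D.Q₀ ξ₂ (ζ 0) = 0 := p2 0
  have x23 : polar D.Q₀ ξ₂ (ζ 2) = 0 := p2 1
  have x31 : polar D.Q₀ ξ₃ (ζ 0) = 0 := p3 0
  have x32 : polar D.Q₀ ξ₃ (ζ 1) = 0 := p3 1
  set α₁ := polar D.Q a (D.j (ζ 0)) with hα₁
  set α₂ := polar D.Q a (D.j (ζ 1)) with hα₂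
  set β₁ := polar D.Q b (D.j (ζ 0)) with hβ₁
  set β₂ := polar D.Q b (D.j (ζ 1)) with hβ₂
  have z12 : SPair D.Q₀ (ζ 0) (ζ 1) := ⟨hq 0, hq 1, hp 0 1⟩
  have hκ : α₁ * β₂ - β₁ * α₂ ≠ 0 := by
    apply hG (ζ 0) (ζ 1) z12 (hli.ne_zero 0)
    intro k hk
    have := hi (-k) 1 0 (by rw [hk]; module)
    exact one_ne_zero this.2.1
  set κ := α₁ * β₂ - β₁ * α₂ with hκdef
  have h' : LR M (β₂ • a + (-α₂) • b) ((-β₁ / κ) • a + (α₁ / κ) • b) :=
    LR_basis h (by field_simp; rw [hκdef]; ring)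
  set A := β₂ • a + (-α₂) • b with hA
  set B := (-β₁ / κ) • a + (α₁ / κ) • b with hB
  have ⟨hAB, _⟩ := h'
  have hPA : ∀ x : V, polar D.Q (κ⁻¹ • A) x = κ⁻¹ * (β₂ * polar D.Q a x - α₂ * polar D.Q b x) := by
    intro x
    rw [hA, polar_smul_left, polar_add_left, polar_smul_left, polar_smul_left]
    simp only [smul_eq_mul]; ring
  have hPB : ∀ x : V, polar D.Q B x = κ⁻¹ * (α₁ * polar D.Q b x - β₁ * polar D.Q a x) := by
    intro x
    rw [hB, polar_add_left, polar_smul_left, polar_smul_left]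
    simp only [smul_eq_mul]; field_simp; ring
  have C : Cfg D (κ⁻¹ • A) B (ζ 0) (ζ 1) (ζ 2) ξ₁ ξ₂ ξ₃ (polar D.Q (κ⁻¹ • A) (D.j (ζ 2)))
      (polar D.Q B (D.j (ζ 2))) :=
    { ab := (hAB.symm.smul_right κ⁻¹).symm
      z12 := z12
      z13 := ⟨hq 0, hq 2, hp 0 2⟩
      z23 := ⟨hq 1, hq 2, hp 1 2⟩
      a1 := by rw [hPA, ← hα₁, ← hβ₁]; field_simp; rw [hκdef]; ring
      a2 := by rw [hPA, ← hα₂, ← hβ₂]; ring
      a3 := rfl
      b1 := by rw [hPB, ← hα₁, ← hβ₁]; ring
      b2 := by rw [hPB, ← hα₂, ← hβ₂]; field_simp; rw [hκdef]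
      b3 := rfl
      q1 := q1
      q2 := q2
      q3 := q3
      x11 := x11
      x12 := x12
      x13 := x13
      x21 := x21
      x22 := x22
      x23 := x23
      x31 := x31
      x32 := x32
      x33 := x33 }
  apply cfg_false hM hK hdich hd h4 C _ hκ (by rw [smul_smul, mul_inv_cancel₀ hκ, one_smul]; exact h')
  intro u v huv hu0 hvu
  have := hG u v huv hu0 hvu
  rw [hPA, hPA, hPB, hPB]
  intro h0
  apply this
  have e : κ⁻¹ * (β₂ * polar D.Q a (D.j u) - α₂ * polar D.Q b (D.j u)) *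
      (κ⁻¹ * (α₁ * polar D.Q b (D.j v) - β₁ * polar D.Q a (D.j v))) -
      κ⁻¹ * (α₁ * polar D.Q b (D.j u) - β₁ * polar D.Q a (D.j u)) *
      (κ⁻¹ * (β₂ * polar D.Q a (D.j v) - α₂ * polar D.Q b (D.j v))) =
      κ⁻¹ * κ⁻¹ * κ * (polar D.Q a (D.j u) * polar D.Q b (D.j v) -
        polar D.Q b (D.j u) * polar D.Q a (D.j v)) := by
    rw [hκdef]; ring
  rw [e] at h0
  exact (mul_eq_zero.1 h0).resolve_left
    (mul_ne_zero (mul_ne_zero (inv_ne_zero hκ) (inv_ne_zero hκ)) hκ)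

/-- all lines of `M` are rational -/
theorem line_rat [Fintype F] [FiniteDimensional F₀ V₀] (hM : D.HasRat M)
    (hK : ∀ δ, Sh D M δ → δ ∈ F₀) (hdich : ∀ K : Subfield F, F₀ ≤ K → K = F₀ ∨ K = ⊤)
    (hd : 13 ≤ finrank F₀ V₀) {a b : V} (h : LR M a b)
    (hind : ∀ s t : F, s • a + t • b = 0 → s = 0 ∧ t = 0) : RatLine D a b := by
  by_cases hG : ∀ u v : V₀, SPair D.Q₀ u v → u ≠ 0 → (∀ k : F₀, v ≠ k • u) →
      polar D.Q a (D.j u) * polar D.Q b (D.j v) - polar D.Q b (D.j u) * polar D.Q a (D.j v) ≠ 0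
  · exact (generic_false hM hK hdich hd h hG).elim
  · push Not at hG
    obtain ⟨u, v, huv, hu0, hvu, hω⟩ := hG
    obtain ⟨w, hw, hw0, hwa, hwb⟩ := exists_perp_of_omega_zero hM hK hd h hind huv hu0 hvu hω
    exact ratLine_of_perp hM hK hd h hind hw hw0 hwa hwb

end Cfsg.Agent.Lib.Helper97.OSub
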