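import Mathlib
import Cfsg.Agent.Lib.Helper97.OSubGen3
import Cfsg.Agent.Lib.Helper97.OSubFull
import Cfsg.Agent.Lib.Helper95.OmGlue

set_option autoImplicit false
set_option linter.unusedSimpArgs false
set_option linter.unusedSectionVars false
set_option linter.unusedVariables false
set_option linter.style.haveILetI false

/-! Overgroups of the rational `Ω` in the `Ω` of an extension without intermediate fields. -/

namespace Cfsg.Agent.Lib.Helper97.OSub

open QuadraticMap Module Cfsg.Agent.Lib.Helper95 Cfsg.Agent.Lib.Helper49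

variable {F : Type*} [Field F] {F₀ : Subfield F} {V₀ V : Type*} [AddCommGroup V₀]
  [Module F₀ V₀] [AddCommGroup V] [Module F V] {D : QRS F₀ V₀ V} {M : Subgroup (OG D.Q)}

/-- `g` is a scalar multiple of a rational map -/
def IsScal (D : QRS F₀ V₀ V) (g : V ≃ₗ[F] V) : Prop :=
  ∃ c : F, c ≠ 0 ∧ ∀ x, ∃ x', g (D.j x) = c • D.j x'

/-- the elements of `M` map rational singular points to rational points -/
theorem point_rat [Fintype F] [FiniteDimensional F₀ V₀] (hM : D.HasRat M)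
    (hK : ∀ δ, Sh D M δ → δ ∈ F₀) (hdich : ∀ K : Subfield F, F₀ ≤ K → K = F₀ ∨ K = ⊤)
    (hd : 13 ≤ finrank F₀ V₀) {g : OG D.Q} (hg : g ∈ M) {x : V₀} (hx : D.Q₀ x = 0) (hx0 : x ≠ 0) :
    ∃ (l : F) (x' : V₀), g.1 (D.j x) = l • D.j x' := by
  haveI : Fintype F₀ := Fintype.ofFinite F₀
  obtain ⟨y, y', hy, hy', hyy, hp, hp'⟩ := qexists_hyp D.nd₀ ![x] (by omega)
  have hyx : polar D.Q₀ y x = 0 := hp 0
  have hy'x : polar D.Q₀ y' x = 0 := hp' 0
  have hxy : polar D.Q₀ x y = 0 := by rw [polar_comm]; exact hyx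
  have hxy' : polar D.Q₀ x y' = 0 := by rw [polar_comm]; exact hy'x
  have hind : ∀ z z' : V₀, polar D.Q₀ z z' = 1 → polar D.Q₀ x z' = 0 → ∀ s t : F,
      s • g.1 (D.j x) + t • g.1 (D.j z) = 0 → s = 0 ∧ t = 0 := by
    intro z z' hzz hxz s t e
    have e1 : s • D.j x + t • D.j z = 0 := by
      apply g.1.injective
      rw [map_add, map_smul, map_smul, e, map_zero]
    have e2 := congrArg (fun v => polar D.Q v (D.j z')) e1
    simp only [polar_add_left, polar_smul_left, D.polar_j_zero hxz, D.polar_j_one hzz,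
      smul_eq_mul, mul_zero, mul_one, zero_add, polar_zero_left] at e2
    rw [e2, zero_smul, add_zero] at e1
    exact ⟨(smul_eq_zero.1 e1).resolve_right (D.j_ne hx0), e2⟩
  obtain ⟨a₀, b₀, e₀⟩ := line_rat hM hK hdich hd ((hM x y ⟨hx, hy, hxy⟩).conj hg)
    (hind y y' hyy hxy')
  obtain ⟨a₁, b₁, e₁⟩ := line_rat hM hK hdich hd ((hM x y' ⟨hx, hy', hxy'⟩).conj hg)
    (hind y' y (by rw [polar_comm]; exact hyy) hxy)
  set u := g.1 (D.j x) with hu
  have hu0 : u ∈ Submodule.span F {D.j a₀, D.j b₀} := by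
    rw [← e₀]; exact Submodule.subset_span (by simp)
  have hgy0 : g.1 (D.j y) ∈ Submodule.span F {D.j a₀, D.j b₀} := by
    rw [← e₀]; exact Submodule.subset_span (by simp)
  have hgy1 : g.1 (D.j y') ∈ Submodule.span F {D.j a₁, D.j b₁} := by
    rw [← e₁]; exact Submodule.subset_span (by simp)
  have hperp : ∀ v ∈ Submodule.span F {u, g.1 (D.j y')}, polar D.Q u v = 0 := by
    intro v hv
    obtain ⟨s, t, rfl⟩ := Submodule.mem_span_pair.1 hv
    rw [polar_add_right, polar_smul_right, polar_smul_right, hu, OG_polar, OG_polar,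
      polar_self_of_Q (D.Q_j_zero hx), D.polar_j_zero hxy']
    simp
  have hua₁ : polar D.Q u (D.j a₁) = 0 := by
    apply hperp; rw [e₁]; exact Submodule.subset_span (by simp)
  have hub₁ : polar D.Q u (D.j b₁) = 0 := by
    apply hperp; rw [e₁]; exact Submodule.subset_span (by simp)
  obtain ⟨s₁, t₁, f₁⟩ := Submodule.mem_span_pair.1 hgy1
  have hone : s₁ * polar D.Q (g.1 (D.j y)) (D.j a₁) + t₁ * polar D.Q (g.1 (D.j y)) (D.j b₁) = 1 := by
    have : polar D.Q (g.1 (D.j y)) (g.1 (D.j y')) = 1 := by rw [OG_polar, D.polar_j_one hyy]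
    rw [← f₁, polar_add_right, polar_smul_right, polar_smul_right] at this
    simpa using this
  obtain ⟨c₁, huc, hyc⟩ : ∃ c₁ : V₀, polar D.Q u (D.j c₁) = 0 ∧
      polar D.Q (g.1 (D.j y)) (D.j c₁) ≠ 0 := by
    by_cases h1 : polar D.Q (g.1 (D.j y)) (D.j a₁) = 0
    · refine ⟨b₁, hub₁, fun h2 => ?_⟩
      rw [h1, h2] at hone
      simp at hone
    · exact ⟨a₁, hua₁, h1⟩
  obtain ⟨s, t, f⟩ := Submodule.mem_span_pair.1 hu0
  obtain ⟨s', t', f'⟩ := Submodule.mem_span_pair.1 hgy0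
  have hrel : s * (polar D.Q₀ a₀ c₁ : F₀) + t * (polar D.Q₀ b₀ c₁ : F₀) = 0 := by
    rw [← f, polar_add_left, polar_smul_left, polar_smul_left, D.polar_j, D.polar_j] at huc
    simpa using huc
  by_cases hk₂ : polar D.Q₀ b₀ c₁ = 0
  · have hk₁ : polar D.Q₀ a₀ c₁ ≠ 0 := by
      intro hk₁
      apply hyc
      rw [← f', polar_add_left, polar_smul_left, polar_smul_left, D.polar_j, D.polar_j, hk₁, hk₂]
      simp
    rw [hk₂] at hrel
    have hs : s = 0 := by
      have hk₁' : ((polar D.Q₀ a₀ c₁ : F₀) : F) ≠ 0 := by exact_mod_cast hk₁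
      simpa [hk₁'] using hrel
    exact ⟨t, b₀, by rw [← f, hs]; simp⟩
  · have hk₂' : ((polar D.Q₀ b₀ c₁ : F₀) : F) ≠ 0 := by exact_mod_cast hk₂
    refine ⟨s / (polar D.Q₀ b₀ c₁ : F₀), polar D.Q₀ b₀ c₁ • a₀ - polar D.Q₀ a₀ c₁ • b₀, ?_⟩
    rw [← f, map_sub, D.j_smul, D.j_smul]
    have ht : t = -(s * (polar D.Q₀ a₀ c₁ : F₀)) / (polar D.Q₀ b₀ c₁ : F₀) := by
      field_simp
      linear_combination hrel
    rw [ht, smul_sub, smul_smul, smul_smul, div_mul_cancel₀ _ hk₂']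
    module

/-- a singular rational vector not orthogonal to two given orthogonal singular vectors -/
theorem exists_sing_nonperp (D : QRS F₀ V₀ V) {x z : V₀} (hxz : SPair D.Q₀ x z) (hx0 : x ≠ 0)
    (hz0 : z ≠ 0) : ∃ w, D.Q₀ w = 0 ∧ polar D.Q₀ x w ≠ 0 ∧ polar D.Q₀ z w ≠ 0 := by
  obtain ⟨v, hv1, hv2⟩ : ∃ v, polar D.Q₀ x v ≠ 0 ∧ polar D.Q₀ z v ≠ 0 := by
    obtain ⟨t₁, ht₁⟩ := qexists_dual D.Q₀ D.nd₀ hx0
    obtain ⟨t₂, ht₂⟩ := qexists_dual D.Q₀ D.nd₀ hz0
    by_cases h1 : polar D.Q₀ z t₁ = 0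
    · by_cases h2 : polar D.Q₀ x t₂ = 0
      · refine ⟨t₁ + t₂, ?_, ?_⟩
        · rw [polar_add_right, ht₁, h2]; simp
        · rw [polar_add_right, ht₂, h1]; simp
      · exact ⟨t₂, h2, by rw [ht₂]; exact one_ne_zero⟩
    · exact ⟨t₁, by rw [ht₁]; exact one_ne_zero, h1⟩
  refine ⟨v - (D.Q₀ v / polar D.Q₀ x v) • x, ?_, ?_, ?_⟩
  · rw [qmap_sub, QuadraticMap.map_smul, hxz.qu, polar_smul_right, polar_comm D.Q₀ v x]
    simp only [smul_eq_mul]
    field_simp
    ring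
  · rw [polar_sub_right, polar_smul_right, hxz.uu]; simpa using hv1
  · rw [polar_sub_right, polar_smul_right, hxz.vu]; simpa using hv2

/-- an isometry mapping rational singular points to rational points is a scalar multiple of a
rational map -/
theorem isScal_of_points [Finite F] [FiniteDimensional F₀ V₀] (hd : 13 ≤ finrank F₀ V₀)
    {g : OG D.Q}
    (h : ∀ x, D.Q₀ x = 0 → x ≠ 0 → ∃ (l : F) (x' : V₀), g.1 (D.j x) = l • D.j x') :
    IsScal D g.1 := by
  haveI : Fintype F₀ := Fintype.ofFinite F₀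
  have hne : ∀ {x : V₀} {l : F} {x' : V₀}, x ≠ 0 → g.1 (D.j x) = l • D.j x' → l ≠ 0 := by
    intro x l x' hx hg
    rintro rfl
    rw [zero_smul] at hg
    exact D.j_ne hx (g.1.injective (by rw [hg, map_zero]))
  -- products for non-orthogonal vectors
  have hprod : ∀ {x w x' w' : V₀} {l l' : F}, polar D.Q₀ x w ≠ 0 → g.1 (D.j x) = l • D.j x' →
      g.1 (D.j w) = l' • D.j w' → l * l' ∈ F₀ := by
    intro x w x' w' l l' hxw e e'
    have h1 : polar D.Q (g.1 (D.j x)) (g.1 (D.j w)) = ((polar D.Q₀ x w : F₀) : F) := by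
      rw [OG_polar, D.polar_j]
    rw [e, e', polar_smul_left, polar_smul_right, D.polar_j] at h1
    simp only [smul_eq_mul] at h1
    have hxw' : ((polar D.Q₀ x w : F₀) : F) ≠ 0 := by exact_mod_cast hxw
    have hk : ((polar D.Q₀ x' w' : F₀) : F) ≠ 0 := by
      intro h0
      rw [h0] at h1
      simp at h1
      exact hxw' h1.symm
    have : l * l' = ((polar D.Q₀ x w : F₀) : F) / ((polar D.Q₀ x' w' : F₀) : F) := by
      rw [eq_div_iff hk, ← h1]; ring
    rw [this]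
    exact F₀.div_mem (polar D.Q₀ x w).2 (polar D.Q₀ x' w').2
  have hratio : ∀ {x z x' z' : V₀} {l l' : F}, SPair D.Q₀ x z → x ≠ 0 → z ≠ 0 →
      g.1 (D.j x) = l • D.j x' → g.1 (D.j z) = l' • D.j z' → l / l' ∈ F₀ := by
    intro x z x' z' l l' hxz hx0 hz0 e e'
    obtain ⟨w, hw, hxw, hzw⟩ := exists_sing_nonperp D hxz hx0 hz0
    have hw0 : w ≠ 0 := by
      rintro rfl
      simp at hxw
    obtain ⟨lw, w', ew⟩ := h w hw hw0
    have h1 := hprod hxw e ew
    have h2 := hprod hzw e' ew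
    have hlw := hne hw0 ew
    have hl' := hne hz0 e'
    have : l / l' = (l * lw) / (l' * lw) := by field_simp
    rw [this]
    exact F₀.div_mem h1 h2
  obtain ⟨x₁, hx₁, -, ho⟩ := exists_sing_perp_out D.nd₀ ![] (by omega)
  have hx₁0 : x₁ ≠ 0 := by
    rintro rfl
    exact ho (Submodule.zero_mem _)
  obtain ⟨l₁, x₁', e₁⟩ := h x₁ hx₁ hx₁0
  have hl₁ := hne hx₁0 e₁
  have hsing : ∀ x, D.Q₀ x = 0 → ∃ x', g.1 (D.j x) = l₁ • D.j x' := by
    intro x hx
    by_cases hx0 : x = 0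
    · exact ⟨0, by rw [hx0]; simp⟩
    obtain ⟨z, hz, hzp, hzo⟩ := exists_sing_perp_out D.nd₀ ![x, x₁] (by omega)
    have hz0 : z ≠ 0 := by
      rintro rfl
      exact hzo (Submodule.zero_mem _)
    have hzx : polar D.Q₀ z x = 0 := hzp 0
    have hzx₁ : polar D.Q₀ z x₁ = 0 := hzp 1
    obtain ⟨l, x', e⟩ := h x hx hx0
    obtain ⟨lz, z', ez⟩ := h z hz hz0
    have r1 := hratio ⟨hx, hz, by rw [polar_comm]; exact hzx⟩ hx0 hz0 e ez
    have r2 := hratio ⟨hx₁, hz, by rw [polar_comm]; exact hzx₁⟩ hx₁0 hz0 e₁ ez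
    have hlz := hne hz0 ez
    have r3 : l / l₁ ∈ F₀ := by
      have : l / l₁ = (l / lz) / (l₁ / lz) := by field_simp
      rw [this]
      exact F₀.div_mem r1 r2
    refine ⟨(⟨_, r3⟩ : F₀) • x', ?_⟩
    rw [D.j_smul, e, smul_smul, mul_div_cancel₀ _ hl₁]
  refine ⟨l₁, hl₁, fun v => ?_⟩
  obtain ⟨s₁, s₂, s₃, h1, h2, h3, -, -, -, rfl⟩ := sum_sing D.nd₀ ![] (by omega) (w := v)
    (fun i => i.elim0)
  obtain ⟨y₁, f₁⟩ := hsing s₁ h1
  obtain ⟨y₂, f₂⟩ := hsing s₂ h2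
  obtain ⟨y₃, f₃⟩ := hsing s₃ h3
  refine ⟨y₁ + y₂ + y₃, ?_⟩
  rw [map_add, map_add, map_add, map_add, f₁, f₂, f₃, map_add, map_add, smul_add, smul_add]

/-- **Main dichotomy.** -/
theorem main_dichotomy [Fintype F] [FiniteDimensional F₀ V₀] [FiniteDimensional F V]
    (hM : D.HasRat M) (hdich : ∀ K : Subfield F, F₀ ≤ K → K = F₀ ∨ K = ⊤)
    (hd : 13 ≤ finrank F₀ V₀) (hd' : 13 ≤ finrank F V) :
    commutator (OG D.Q) ≤ M ∨ ∀ g ∈ M, IsScal D g.1 := by
  by_cases hK : ∀ δ, Sh D M δ → δ ∈ F₀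
  · right
    intro g hg
    apply isScal_of_points hd
    intro x hx hx0
    exact point_rat hM hK hdich hd hg hx hx0
  · left
    apply commutator_le_of_Sh _ hd hd'
    have hle : F₀ ≤ ShField hM hd := fun c hc => Sh_rat hM hc
    rcases hdich _ hle with h | h
    · exfalso
      apply hK
      intro c hc
      have : c ∈ ShField hM hd := hc
      rwa [h] at this
    · intro c
      have : c ∈ ShField hM hd := by rw [h]; exact Subfield.mem_top c
      exact this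

/-- rational long root elements are rational maps -/
theorem isScal_sg {x y : V₀} (h : SPair D.Q₀ x y) : IsScal D (sg (D.spair_j h)).1 := by
  refine ⟨1, one_ne_zero, fun v => ⟨v + polar D.Q₀ x v • y - polar D.Q₀ y v • x, ?_⟩⟩
  rw [sg_apply, one_smul, map_sub, map_add, D.j_smul, D.j_smul, D.polar_j, D.polar_j]

/-- a long root element on a rational line with a non-rational coefficient is not rational -/
theorem exists_not_isScal [Finite F] [FiniteDimensional F₀ V₀] [FiniteDimensional F V]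
    (D : QRS F₀ V₀ V) (hd : 13 ≤ finrank F₀ V₀) (hd' : 13 ≤ finrank F V) {lam : F}
    (hlam : lam ∉ F₀) : ∃ g ∈ commutator (OG D.Q), ¬ IsScal D g.1 := by
  haveI : Fintype F₀ := Fintype.ofFinite F₀
  haveI : Fintype F := Fintype.ofFinite F
  obtain ⟨e₁, f₁, he₁, hf₁, hef₁, -, -⟩ := qexists_hyp D.nd₀ ![] (by omega)
  obtain ⟨e₂, f₂, he₂, hf₂, hef₂, hp, hp'⟩ := qexists_hyp D.nd₀ ![e₁, f₁] (by omega)
  have a1 : polar D.Q₀ e₂ e₁ = 0 := hp 0
  have a2 : polar D.Q₀ e₂ f₁ = 0 := hp 1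
  have a3 : polar D.Q₀ f₂ e₁ = 0 := hp' 0
  have a4 : polar D.Q₀ f₂ f₁ = 0 := hp' 1
  have hs : SPair D.Q (D.j e₁) (lam • D.j e₂) :=
    (D.spair_j ⟨he₁, he₂, by rw [polar_comm]; exact a1⟩).smul_right lam
  refine ⟨sg hs, sg_mem_commutator D.nd (by omega) hs, ?_⟩
  rintro ⟨c, hc, h⟩
  obtain ⟨x, hx⟩ := h e₁
  obtain ⟨x', hx'⟩ := h f₁
  rw [sg_apply, polar_self_of_Q (D.Q_j_zero he₁), polar_smul_left, D.polar_j_zero a1] at hx
  rw [sg_apply, D.polar_j_one hef₁, polar_smul_left, D.polar_j_zero a2] at hx'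
  simp only [smul_eq_mul, mul_zero, zero_smul, add_zero, sub_zero, one_smul] at hx hx'
  have c1 := congrArg (fun v => polar D.Q v (D.j f₁)) hx
  have c2 := congrArg (fun v => polar D.Q v (D.j f₂)) hx'
  simp only [polar_smul_left, polar_add_left, D.polar_j_one hef₁, D.polar_j_one hef₂,
    D.polar_j_zero (show polar D.Q₀ f₁ f₂ = 0 by rw [polar_comm]; exact a4), smul_eq_mul, mul_one,
    zero_add] at c1 c2
  have hk : polar D.Q (D.j x) (D.j f₁) ≠ 0 := by
    intro h0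
    rw [h0, mul_zero] at c1
    exact one_ne_zero c1
  have hcm : c ∈ F₀ := by
    have : c = 1 / polar D.Q (D.j x) (D.j f₁) := by
      rw [eq_div_iff hk, ← c1]
    rw [this]
    exact F₀.div_mem F₀.one_mem (D.polar_j_mem _ _)
  apply hlam
  rw [c2]
  exact F₀.mul_mem hcm (D.polar_j_mem _ _)

/-- the abstract maximality statement -/
theorem abstract_max [Fintype F] [FiniteDimensional F₀ V₀] [FiniteDimensional F V]
    (D : QRS F₀ V₀ V) (hdich : ∀ K : Subfield F, F₀ ≤ K → K = F₀ ∨ K = ⊤)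
    (hd : 13 ≤ finrank F₀ V₀) (hd' : 13 ≤ finrank F V) (M' : Subgroup (V ≃ₗ[F] V))
    (h1 : ∀ g ∈ omG D.Q, IsScal D g → g ∈ M') (h2 : M' ≤ omG D.Q) {g : V ≃ₗ[F] V} (hg : g ∈ M')
    (hgs : ¬ IsScal D g) : omG D.Q ≤ M' := by
  have hM : D.HasRat (M'.comap (OG D.Q).subtype) := by
    intro x y hxy
    refine ⟨D.spair_j hxy, ?_⟩
    apply h1 _ ⟨_, sg_mem_commutator D.nd (by omega) (D.spair_j hxy), rfl⟩
    exact isScal_sg hxy
  rcases main_dichotomy hM hdich hd hd' with h | h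
  · rintro _ ⟨y, hy, rfl⟩
    exact h hy
  · exfalso
    obtain ⟨x, -, rfl⟩ := h2 hg
    exact hgs (h x hg)

end Cfsg.Agent.Lib.Helper97.OSub
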