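import Cfsg.Agent.Lib.Helper95.Glue4

set_option autoImplicit false
open scoped MatrixGroups

/-! Glue for the subfield subgroups `Cfsg.Geo.subfieldSubgroup F₀ P`. -/

namespace Cfsg.Agent.Lib.Helper97

open Cfsg.Agent.Lib.Helper95 Matrix

section

variable {F : Type*} [Field F] {ι : Type} [Fintype ι] [DecidableEq ι]

/-- A matrix all of whose entries are `c` times an element of `F₀` lies in the subfield group. -/
theorem mem_subfield_one_of_entries (F₀ : Subfield F) (g : GL ι F) (c : F) (hc : c ≠ 0)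
    (h : ∀ i j, ∃ a ∈ F₀, (g : Matrix ι ι F) i j = c * a) : g ∈ Cfsg.Geo.subfieldSubgroup F₀ 1 := by
  choose a ha hg using h
  set N : Matrix ι ι F₀ := Matrix.of fun i j => ⟨a i j, ha i j⟩ with hN
  have hgN : (g : Matrix ι ι F) = c • (F₀.subtype.mapMatrix N) := by
    ext i j
    rw [hg]
    rfl
  have hdet : N.det ≠ 0 := by
    intro h0
    have h1 : (F₀.subtype.mapMatrix N).det = 0 := by
      rw [← RingHom.map_det, h0, map_zero]
    have h2 : (g : Matrix ι ι F).det = 0 := by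
      rw [hgN, Matrix.det_smul, h1, mul_zero]
    have h3 := (Matrix.GeneralLinearGroup.det g).ne_zero
    rw [Matrix.GeneralLinearGroup.val_det_apply] at h3
    exact h3 h2
  refine ⟨g, ?_, by simp⟩
  have hs : Units.map (Matrix.scalar ι : F →+* Matrix ι ι F).toMonoidHom (Units.mk0 c hc) ∈
      Cfsg.Geo.scalars ι F := ⟨_, rfl⟩
  have hr : Matrix.GeneralLinearGroup.map (F₀.subtype : F₀ →+* F)
      (Matrix.GeneralLinearGroup.mkOfDetNeZero N hdet) ∈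
      (Matrix.GeneralLinearGroup.map (n := ι) (F₀.subtype : F₀ →+* F)).range := ⟨_, rfl⟩
  have := Subgroup.mul_mem_sup hr hs
  have heq : g = Matrix.GeneralLinearGroup.map (F₀.subtype : F₀ →+* F)
      (Matrix.GeneralLinearGroup.mkOfDetNeZero N hdet) *
      Units.map (Matrix.scalar ι : F →+* Matrix ι ι F).toMonoidHom (Units.mk0 c hc) := by
    apply Units.ext
    rw [Units.val_mul, hgN]
    show _ = (F₀.subtype.mapMatrix N) * Matrix.scalar ι c
    rw [Matrix.scalar_apply, ← Matrix.smul_one_eq_diagonal, Matrix.mul_smul, Matrix.mul_one]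
  rw [heq]
  exact this

/-- Elements of the subfield group are scalar multiples of matrices over `F₀`. -/
theorem exists_entries_of_mem_subfield_one (F₀ : Subfield F) (g : GL ι F)
    (h : g ∈ Cfsg.Geo.subfieldSubgroup F₀ 1) :
    ∃ (c : F) (N : Matrix ι ι F₀), c ≠ 0 ∧ (g : Matrix ι ι F) = c • (F₀.subtype.mapMatrix N) := by
  obtain ⟨y, hy, hyg⟩ := h
  have hyg' : y = g := by simpa using hyg
  subst hyg'
  obtain ⟨r, ⟨N, rfl⟩, s, hs, rfl⟩ := Subgroup.mem_sup_of_normal_right.1 hy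
  obtain ⟨c, hc⟩ := (Cfsg.Geo.mem_scalars_iff s).1 hs
  refine ⟨c, (N : Matrix ι ι F₀), c.ne_zero, ?_⟩
  rw [Units.val_mul, hc, Matrix.mul_smul, Matrix.mul_one]
  rfl

lemma mem_subfieldSubgroup_iff (F₀ : Subfield F) (P g : GL ι F) :
    g ∈ Cfsg.Geo.subfieldSubgroup F₀ P ↔ P⁻¹ * g * P ∈ Cfsg.Geo.subfieldSubgroup F₀ 1 := by
  constructor
  · rintro ⟨x, hx, rfl⟩
    refine ⟨x, hx, ?_⟩
    simp [MulAut.conj_apply, mul_assoc]
  · rintro ⟨x, hx, hxg⟩
    refine ⟨x, hx, ?_⟩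
    have : x = P⁻¹ * g * P := by simpa using hxg
    rw [this]
    simp [MulAut.conj_apply, mul_assoc]

/-- The `F₀`-span of the columns of `P`. -/
def ratVec (F₀ : Subfield F) (P : GL ι F) : AddSubgroup (ι → F) where
  carrier := {v | ∃ u : ι → F, (∀ i, u i ∈ F₀) ∧ v = (P : Matrix ι ι F) *ᵥ u}
  add_mem' := by
    rintro _ _ ⟨u, hu, rfl⟩ ⟨u', hu', rfl⟩
    exact ⟨u + u', fun i => F₀.add_mem (hu i) (hu' i), by rw [Matrix.mulVec_add]⟩
  zero_mem' := ⟨0, fun i => F₀.zero_mem, by simp⟩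
  neg_mem' := by
    rintro _ ⟨u, hu, rfl⟩
    exact ⟨-u, fun i => F₀.neg_mem (hu i), by rw [Matrix.mulVec_neg]⟩

lemma mem_ratVec {F₀ : Subfield F} {P : GL ι F} {v : ι → F} :
    v ∈ ratVec F₀ P ↔ ∃ u : ι → F, (∀ i, u i ∈ F₀) ∧ v = (P : Matrix ι ι F) *ᵥ u := Iff.rfl

lemma inv_mulVec_mulVec (P : GL ι F) (u : ι → F) :
    ((P⁻¹ : GL ι F) : Matrix ι ι F) *ᵥ ((P : Matrix ι ι F) *ᵥ u) = u := by
  rw [Matrix.mulVec_mulVec, ← Units.val_mul, inv_mul_cancel, Units.val_one, Matrix.one_mulVec]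

lemma mulVec_inv_mulVec (P : GL ι F) (u : ι → F) :
    (P : Matrix ι ι F) *ᵥ (((P⁻¹ : GL ι F) : Matrix ι ι F) *ᵥ u) = u := by
  rw [Matrix.mulVec_mulVec, ← Units.val_mul, mul_inv_cancel, Units.val_one, Matrix.one_mulVec]

lemma mem_toLinGrp_subfield_of {F₀ : Subfield F} {P : GL ι F} (e : (ι → F) ≃ₗ[F] (ι → F)) (c : F)
    (hc : c ≠ 0) (h : ∀ v ∈ ratVec F₀ P, ∃ v' ∈ ratVec F₀ P, e v = c • v') :
    e ∈ toLinGrp (Cfsg.Geo.subfieldSubgroup F₀ P) := by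
  rw [mem_toLinGrp, mem_subfieldSubgroup_iff]
  apply mem_subfield_one_of_entries F₀ _ c hc
  intro i j
  obtain ⟨v', ⟨u', hu', rfl⟩, hv'⟩ := h ((P : Matrix ι ι F) *ᵥ Pi.single j 1)
    ⟨Pi.single j 1, fun k => by
      by_cases hk : k = j
      · subst hk; simpa using F₀.one_mem
      · simpa [Pi.single_apply, hk] using F₀.zero_mem, rfl⟩
  refine ⟨u' i, hu' i, ?_⟩
  have h1 : ((P⁻¹ * glEquiv.symm e * P : GL ι F) : Matrix ι ι F) *ᵥ Pi.single j 1 = c • u' := by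
    rw [Units.val_mul, Units.val_mul, ← Matrix.mulVec_mulVec, ← Matrix.mulVec_mulVec,
      glEquiv_symm_mulVec, hv', Matrix.mulVec_smul, inv_mulVec_mulVec]
  have h2 := congrFun h1 i
  rw [Matrix.mulVec_single_one] at h2
  simpa using h2

lemma exists_of_mem_toLinGrp_subfield {F₀ : Subfield F} {P : GL ι F} {e : (ι → F) ≃ₗ[F] (ι → F)}
    (he : e ∈ toLinGrp (Cfsg.Geo.subfieldSubgroup F₀ P)) :
    ∃ c : F, c ≠ 0 ∧ ∀ v ∈ ratVec F₀ P, ∃ v' ∈ ratVec F₀ P, e v = c • v' := by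
  rw [mem_toLinGrp, mem_subfieldSubgroup_iff] at he
  obtain ⟨c, N, hc, hN⟩ := exists_entries_of_mem_subfield_one F₀ _ he
  refine ⟨c, hc, ?_⟩
  rintro _ ⟨u, hu, rfl⟩
  refine ⟨(P : Matrix ι ι F) *ᵥ ((F₀.subtype.mapMatrix N) *ᵥ u), ⟨_, fun i => ?_, rfl⟩, ?_⟩
  · rw [Matrix.mulVec, dotProduct]
    exact F₀.sum_mem (fun j _ => F₀.mul_mem (N i j).2 (hu j))
  · have h1 : ((P⁻¹ * glEquiv.symm e * P : GL ι F) : Matrix ι ι F) *ᵥ u =
        ((P⁻¹ : GL ι F) : Matrix ι ι F) *ᵥ (e ((P : Matrix ι ι F) *ᵥ u)) := by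
      rw [Units.val_mul, Units.val_mul, ← Matrix.mulVec_mulVec, ← Matrix.mulVec_mulVec,
        glEquiv_symm_mulVec]
    rw [hN, Matrix.smul_mulVec] at h1
    have h2 := congrArg (fun w => (P : Matrix ι ι F) *ᵥ w) h1
    simp only [mulVec_inv_mulVec, Matrix.mulVec_smul] at h2
    exact h2.symm

end

end Cfsg.Agent.Lib.Helper97
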