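import Mathlib
import Cfsg.Prelude.Def_GeometricClasses
import Cfsg.Agent.Lib.Helper97.OSubMain
import Cfsg.Agent.Lib.Helper99.SpSubGlue

set_option autoImplicit false
set_option linter.unusedSimpArgs false
set_option linter.unusedSectionVars false
set_option linter.unusedVariables false
set_option linter.style.haveILetI false

/-! Glue: the subfield subgroups of the groups `Ω` are maximal. -/

namespace Cfsg.Agent.Lib.Helper97.OSub

open QuadraticMap Module Matrix Cfsg.Agent.Lib.Helper95 Cfsg.Agent.Lib.Helper97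
open Cfsg.Agent.Lib.Helper49 (OG mem_OG nondegenerate_of_separatingLeft)
open Cfsg.Agent.Lib.Helper99.SpSub (jMap jMap_apply jMap_smul jMap_inj span_jMap mem_ratVec_iff)

variable {F : Type*} [Field F] {ι : Type} [Fintype ι] [DecidableEq ι] {F₀ : Subfield F}
  {P : GL ι F}

theorem polar_jMap_mem (Qf : QuadraticForm F (ι → F)) (hrat : ∀ x, Qf (jMap F₀ P x) ∈ F₀)
    (x y : ι → F₀) : polar Qf (jMap F₀ P x) (jMap F₀ P y) ∈ F₀ := by
  simp only [polar, ← map_add]
  exact F₀.sub_mem (F₀.sub_mem (hrat _) (hrat _)) (hrat _)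

/-- the restriction of a quadratic form to a rational structure -/
def ratQF (Qf : QuadraticForm F (ι → F)) (hrat : ∀ x, Qf (jMap F₀ P x) ∈ F₀) :
    QuadraticForm F₀ (ι → F₀) where
  toFun x := ⟨Qf (jMap F₀ P x), hrat x⟩
  toFun_smul c x := by
    apply Subtype.ext
    simp [jMap_smul, QuadraticMap.map_smul]
  exists_companion' :=
    ⟨LinearMap.mk₂ F₀
      (fun x y => (⟨polar Qf (jMap F₀ P x) (jMap F₀ P y), polar_jMap_mem Qf hrat x y⟩ : F₀))
      (by intro x x' y; apply Subtype.ext; simp [polar_add_left])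
      (by intro c x y; apply Subtype.ext; simp [jMap_smul, polar_smul_left])
      (by intro x y y'; apply Subtype.ext; simp [polar_add_right])
      (by intro c x y; apply Subtype.ext; simp [jMap_smul, polar_smul_right]),
     fun x y => by
      apply Subtype.ext
      simp [polar]⟩

theorem ratQF_apply (Qf : QuadraticForm F (ι → F)) (hrat : ∀ x, Qf (jMap F₀ P x) ∈ F₀)
    (x : ι → F₀) : ((ratQF Qf hrat x : F₀) : F) = Qf (jMap F₀ P x) := rfl

theorem polar_ratQF (Qf : QuadraticForm F (ι → F)) (hrat : ∀ x, Qf (jMap F₀ P x) ∈ F₀)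
    (x y : ι → F₀) :
    ((polar (ratQF Qf hrat) x y : F₀) : F) = polar Qf (jMap F₀ P x) (jMap F₀ P y) := by
  simp only [polar, ← map_add]
  push_cast
  rw [ratQF_apply, ratQF_apply, ratQF_apply]

/-- the rational quadratic space attached to a compatible form -/
def mkQRS (Qf : QuadraticForm F (ι → F)) (hnd : (polarBilin Qf).Nondegenerate)
    (hrat : ∀ x, Qf (jMap F₀ P x) ∈ F₀) : QRS F₀ (ι → F₀) (ι → F) where
  Q₀ := ratQF Qf hrat
  Q := Qf
  j := jMap F₀ P
  j_smul := jMap_smul F₀ P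
  Q_j := fun x => rfl
  nd₀ := by
    apply nondegenerate_of_separatingLeft
    intro x h
    apply jMap_inj F₀ P
    apply hnd.1
    have : polarBilin Qf (jMap F₀ P x) = 0 := by
      apply LinearMap.ext_on (span_jMap F₀ P)
      rintro _ ⟨y, rfl⟩
      rw [polarBilin_apply_apply, ← polar_ratQF Qf hrat, h y]
      simp
    intro y
    rw [this]; rfl
  nd := hnd
  span := span_jMap F₀ P

theorem mem_toLinGrp_iff_isScal (D : QRS F₀ (ι → F₀) (ι → F)) (hj : D.j = jMap F₀ P)
    (e : (ι → F) ≃ₗ[F] (ι → F)) :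
    e ∈ toLinGrp (Cfsg.Geo.subfieldSubgroup F₀ P) ↔ IsScal D e := by
  constructor
  · intro h
    obtain ⟨c, hc, h1⟩ := exists_of_mem_toLinGrp_subfield h
    refine ⟨c, hc, fun x => ?_⟩
    obtain ⟨v', hv', hv⟩ := h1 (D.j x) ((mem_ratVec_iff F₀ P).2 ⟨x, by rw [hj]⟩)
    obtain ⟨x', rfl⟩ := (mem_ratVec_iff F₀ P).1 hv'
    exact ⟨x', by rw [hv, hj]⟩
  · rintro ⟨c, hc, h1⟩
    apply mem_toLinGrp_subfield_of e c hc
    intro v hv
    obtain ⟨x, rfl⟩ := (mem_ratVec_iff F₀ P).1 hv
    obtain ⟨x', hx'⟩ := h1 x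
    refine ⟨jMap F₀ P x', (mem_ratVec_iff F₀ P).2 ⟨x', rfl⟩, ?_⟩
    rw [← hj]; exact hx'

section scale

variable {V : Type*} [AddCommGroup V] [Module F V]

theorem OG_smul (Q : QuadraticForm F V) {ζ : F} (hζ : ζ ≠ 0) : OG (ζ • Q) = OG Q := by
  ext g
  simp only [mem_OG, QuadraticMap.smul_apply, smul_eq_mul]
  constructor
  · intro h x
    exact mul_left_cancel₀ hζ (h x)
  · intro h x
    rw [h]

theorem map_commutator_congr {G : Type*} [Group G] {H₁ H₂ : Subgroup G} (h : H₁ = H₂) :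
    (commutator H₁).map H₁.subtype = (commutator H₂).map H₂.subtype := by
  subst h; rfl

theorem omG_smul (Q : QuadraticForm F V) {ζ : F} (hζ : ζ ≠ 0) : omG (ζ • Q) = omG Q :=
  map_commutator_congr (OG_smul Q hζ)

theorem smul_nondeg {Q : QuadraticForm F V} (h : (polarBilin Q).Nondegenerate) {ζ : F}
    (hζ : ζ ≠ 0) : (polarBilin (ζ • Q)).Nondegenerate := by
  apply nondegenerate_of_separatingLeft
  intro x hx
  apply h.1
  intro y
  have := hx y
  rw [QuadraticMap.coeFn_smul, polar_smul, smul_eq_mul] at this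
  exact (mul_eq_zero.1 this).resolve_left hζ

end scale

/-- the subfield subgroups of `Ω(Q)` are maximal -/
theorem orth_subfield_maximal [Fintype F] (Q : QuadraticForm F (ι → F))
    (hnd : (polarBilin Q).Nondegenerate) (hι : 13 ≤ Fintype.card ι) (F₀ : Subfield F) (r : ℕ)
    (hr : r.Prime) (hcard : Fintype.card F = Nat.card F₀ ^ r) (P : GL ι F) (ζ : F) (hζ : ζ ≠ 0)
    (hP : Cfsg.Geo.IsQuadFormRationalStructure (fun v : ι → F => ζ * Q v) F₀ P) :
    Cfsg.Geo.IsMaximalIn (Cfsg.Geo.omegaGL ⇑Q)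
      (Cfsg.Geo.subfieldSubgroup F₀ P ⊓ Cfsg.Geo.omegaGL ⇑Q) := by
  have hdich := Cfsg.Agent.Lib.Helper7.SubF.subfield_dich F₀ hr hcard
  set D : QRS F₀ (ι → F₀) (ι → F) :=
    mkQRS (F₀ := F₀) (P := P) (ζ • Q) (smul_nondeg hnd hζ) (by
      intro x
      rw [QuadraticMap.smul_apply, smul_eq_mul]
      exact hP _ (fun i => (x i).2)) with hD
  have hDQ : D.Q = ζ • Q := rfl
  have hDj : D.j = jMap F₀ P := rfl
  have hom : omG D.Q = omG Q := by rw [hDQ, omG_smul _ hζ]
  have hdim : finrank F₀ (ι → F₀) = Fintype.card ι := by simp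
  have hdim' : finrank F (ι → F) = Fintype.card ι := by simp
  have hiff := mem_toLinGrp_iff_isScal D hDj
  refine isMaximalIn_transfer (K' := omG Q) (S' := toLinGrp (Cfsg.Geo.subfieldSubgroup F₀ P))
    (mem_omegaGL_iff Q) (fun g => glEquiv_mem_toLinGrp.symm) ?_ ?_
  · obtain ⟨lam, hlam⟩ : ∃ lam : F, lam ∉ F₀ := by
      by_contra hcon
      push Not at hcon
      have htop : F₀ = ⊤ := eq_top_iff.2 (fun x _ => hcon x)
      have h1 : Nat.card F₀ = Fintype.card F := by
        rw [htop, ← Nat.card_eq_fintype_card]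
        exact Nat.card_congr Subfield.topEquiv.toEquiv
      rw [h1] at hcard
      have h2 : 1 < Fintype.card F := Fintype.one_lt_card
      have h4 : Fintype.card F ^ 1 = Fintype.card F ^ r := by rw [pow_one]; exact hcard
      have := Nat.pow_right_injective h2 h4
      exact hr.one_lt.ne this
    obtain ⟨g, hg, hgs⟩ := exists_not_isScal D (by omega) (by omega) hlam
    refine ⟨g.1, ?_, fun h => hgs ((hiff _).1 h)⟩
    rw [← hom]
    exact ⟨g, hg, rfl⟩
  · intro M' h1 h2 g hg hgS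
    rw [← hom] at h1 h2 ⊢
    exact abstract_max D hdich (by omega) (by omega) M'
      (fun x hx hxs => h1 (Subgroup.mem_inf.2 ⟨hx, (hiff x).2 hxs⟩)) h2 hg
      (fun h => hgS ((hiff g).2 h))

end Cfsg.Agent.Lib.Helper97.OSub
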