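import Mathlib
import Cfsg.Agent.Lib.Helper95.Glue2
import Cfsg.Agent.Lib.Helper97.QExt

set_option autoImplicit false

namespace Cfsg.Agent.Lib.Helper97

open Cfsg.Agent.Lib.Helper95 Matrix Module

variable {ι : Type} [Fintype ι] [DecidableEq ι] {F : Type*} [Field F]

lemma mem_iff_of_finrank_two (K : Subalgebra F (Matrix ι ι F)) (hfin : finrank F K = 2)
    {θ : Matrix ι ι F} (hθ : θ ∈ K) (hθ' : ∀ c : F, θ ≠ c • 1) (k : Matrix ι ι F) :
    k ∈ K ↔ ∃ x y : F, k = x • 1 + y • θ := by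
  have hli : LinearIndependent F ![(1 : Matrix ι ι F), θ] := by
    rw [LinearIndependent.pair_iff]
    intro s t hst
    have ht : t = 0 := by
      by_contra ht
      apply hθ' (-s / t)
      have : t • θ = -(s • (1 : Matrix ι ι F)) := by
        rw [eq_neg_iff_add_eq_zero, add_comm]; exact hst
      calc θ = t⁻¹ • (t • θ) := by rw [smul_smul, inv_mul_cancel₀ ht, one_smul]
        _ = (-s / t) • 1 := by rw [this, ← neg_smul, smul_smul]; congr 1; field_simp
    refine ⟨?_, ht⟩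
    by_contra hs
    rw [ht, zero_smul, add_zero] at hst
    have h1 : (1 : Matrix ι ι F) = 0 := by
      calc (1 : Matrix ι ι F) = s⁻¹ • (s • 1) := by rw [smul_smul, inv_mul_cancel₀ hs, one_smul]
        _ = 0 := by rw [hst, smul_zero]
    apply hθ' 0
    rw [zero_smul, ← mul_one θ, h1, mul_zero]
  have hle : Submodule.span F (Set.range ![(1 : Matrix ι ι F), θ]) ≤ Subalgebra.toSubmodule K := by
    rw [Submodule.span_le]
    rintro _ ⟨i, rfl⟩
    fin_cases i
    · exact K.one_mem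
    · exact hθ
  have hfin' : finrank F (Subalgebra.toSubmodule K) = 2 := hfin
  have heq : Submodule.span F (Set.range ![(1 : Matrix ι ι F), θ]) = Subalgebra.toSubmodule K := by
    apply Submodule.eq_of_le_of_finrank_eq hle
    rw [finrank_span_eq_card hli, hfin']
    simp
  rw [← Subalgebra.mem_toSubmodule, ← heq, Submodule.mem_span_range_iff_exists_fun]
  constructor
  · rintro ⟨c, rfl⟩
    exact ⟨c 0, c 1, by simp [Fin.sum_univ_two]⟩
  · rintro ⟨x, y, rfl⟩
    exact ⟨![x, y], by simp [Fin.sum_univ_two]⟩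

lemma mem_normalizer_iff (K : Subalgebra F (Matrix ι ι F)) (hfin : finrank F K = 2)
    {θ : Matrix ι ι F} (hθ : θ ∈ K) (hθ' : ∀ c : F, θ ≠ c • 1) (g : GL ι F) :
    g ∈ Cfsg.Geo.subalgebraNormalizer K ↔
      (g : Matrix ι ι F) * θ * ((g⁻¹ : GL ι F) : Matrix ι ι F) ∈ K := by
  constructor
  · intro hg
    exact (hg θ).1 hθ
  · intro hg
    have hgg : (g : Matrix ι ι F) * ((g⁻¹ : GL ι F) : Matrix ι ι F) = 1 := by
      rw [← Units.val_mul, mul_inv_cancel, Units.val_one]
    have hgg' : ((g⁻¹ : GL ι F) : Matrix ι ι F) * (g : Matrix ι ι F) = 1 := by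
      rw [← Units.val_mul, inv_mul_cancel, Units.val_one]
    have hfwd : ∀ k ∈ K, (g : Matrix ι ι F) * k * ((g⁻¹ : GL ι F) : Matrix ι ι F) ∈ K := by
      intro k hk
      obtain ⟨x, y, rfl⟩ := (mem_iff_of_finrank_two K hfin hθ hθ' k).1 hk
      have : (g : Matrix ι ι F) * (x • 1 + y • θ) * ((g⁻¹ : GL ι F) : Matrix ι ι F) =
          x • 1 + y • ((g : Matrix ι ι F) * θ * ((g⁻¹ : GL ι F) : Matrix ι ι F)) := by
        rw [mul_add, add_mul, mul_smul_comm, smul_mul_assoc, mul_one, hgg, mul_smul_comm,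
          smul_mul_assoc]
      rw [this]
      exact K.add_mem (K.smul_mem K.one_mem x) (K.smul_mem hg y)
    let c : Matrix ι ι F →ₗ[F] Matrix ι ι F :=
      (LinearMap.mulRight F ((g⁻¹ : GL ι F) : Matrix ι ι F)).comp
        (LinearMap.mulLeft F (g : Matrix ι ι F))
    have hc : ∀ k, c k = (g : Matrix ι ι F) * k * ((g⁻¹ : GL ι F) : Matrix ι ι F) := fun k => rfl
    have hcinj : Function.Injective c := by
      intro k k' hkk
      rw [hc, hc] at hkk
      have := congrArg (fun M => ((g⁻¹ : GL ι F) : Matrix ι ι F) * M * (g : Matrix ι ι F)) hkk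
      simpa [mul_assoc, hgg', ← mul_assoc ((g⁻¹ : GL ι F) : Matrix ι ι F) (g : Matrix ι ι F)] using this
    have hmap : (Subalgebra.toSubmodule K).map c = Subalgebra.toSubmodule K := by
      apply Submodule.eq_of_le_of_finrank_eq
      · rintro _ ⟨k, hk, rfl⟩
        exact hfwd k hk
      · exact (LinearEquiv.finrank_eq (Submodule.equivMapOfInjective c hcinj _)).symm
    intro k
    refine ⟨hfwd k, fun hk => ?_⟩
    have : c k ∈ (Subalgebra.toSubmodule K).map c := by rw [hmap]; exact hk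
    obtain ⟨k', hk', hkk'⟩ := this
    rw [← hcinj hkk']
    exact hk'

lemma mem_toLinGrp_normalizer_iff (K : Subalgebra F (Matrix ι ι F)) (hfin : finrank F K = 2)
    {θ : Matrix ι ι F} (hθ : θ ∈ K) (hθ' : ∀ c : F, θ ≠ c • 1) (e : (ι → F) ≃ₗ[F] (ι → F)) :
    e ∈ toLinGrp (Cfsg.Geo.subalgebraNormalizer K) ↔
      ∃ x y : F, ∀ v, e (θ *ᵥ v) = x • e v + y • (θ *ᵥ e v) := by
  rw [mem_toLinGrp, mem_normalizer_iff K hfin hθ hθ', mem_iff_of_finrank_two K hfin hθ hθ']
  set g := glEquiv.symm e with hg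
  have hgv : ∀ v, (g : Matrix ι ι F) *ᵥ v = e v := fun v => glEquiv_symm_mulVec e v
  have hgg' : ((g⁻¹ : GL ι F) : Matrix ι ι F) * (g : Matrix ι ι F) = 1 := by
    rw [← Units.val_mul, inv_mul_cancel, Units.val_one]
  have hgg : (g : Matrix ι ι F) * ((g⁻¹ : GL ι F) : Matrix ι ι F) = 1 := by
    rw [← Units.val_mul, mul_inv_cancel, Units.val_one]
  constructor
  · rintro ⟨x, y, hxy⟩
    refine ⟨x, y, fun v => ?_⟩
    have h1 : (g : Matrix ι ι F) * θ = (x • 1 + y • θ) * (g : Matrix ι ι F) := by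
      rw [← hxy, mul_assoc, hgg', mul_one]
    have h2 := congrArg (fun M => M *ᵥ v) h1
    simp only [← Matrix.mulVec_mulVec, hgv, Matrix.add_mulVec, Matrix.smul_mulVec,
      Matrix.one_mulVec] at h2
    exact h2
  · rintro ⟨x, y, hxy⟩
    refine ⟨x, y, ?_⟩
    have h1 : (g : Matrix ι ι F) * θ = (x • 1 + y • θ) * (g : Matrix ι ι F) := by
      apply Matrix.ext_of_mulVec_single
      intro i
      simp only [← Matrix.mulVec_mulVec, hgv, Matrix.add_mulVec, Matrix.smul_mulVec,
        Matrix.one_mulVec]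
      exact hxy _
    rw [h1, mul_assoc, hgg, mul_one]

end Cfsg.Agent.Lib.Helper97
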