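import Cfsg.Agent.Lib.Helper97.SUParab

set_option autoImplicit false

/-! The stabiliser of a pair of complementary totally singular subspaces is maximal in the special
unitary group. -/

namespace Cfsg.Agent.Lib.Helper97

open Module Cfsg.Agent.Lib.Helper95

section sieg

variable {F V : Type*} [Field F] [AddCommGroup V] [Module F V]
variable {σ : F ≃+* F} {f : V → V → F}

/-- `S` is the Siegel element with parameters `e`, `w`, `c`. -/
def IsSieg (f : V → V → F) (S : V ≃ₗ[F] V) (e w : V) (c : F) : Prop :=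
  ∀ x, S x = x + (-f x e) • w + (f x w + c * f x e) • e

lemma IsSieg.conj {S : V ≃ₗ[F] V} {e w : V} {c : F} (hS : IsSieg f S e w c) {m : V ≃ₗ[F] V}
    (hm : m ∈ UGrp f) : IsSieg f (m * S * m⁻¹) (m e) (m w) c := by
  intro x
  rw [LinearEquiv.mul_apply, LinearEquiv.mul_apply, hS, map_add, map_add, map_smul, map_smul,
    ← LinearEquiv.mul_apply, mul_inv_cancel, UGrp_inv_left hm, UGrp_inv_left hm]
  rfl

variable (h : UF σ f)
include h

lemma IsSieg.mem [FiniteDimensional F V] {S : V ≃ₗ[F] V} {e w : V} {c : F} (hS : IsSieg f S e w c)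
    (he : f e e = 0) (hwe : f w e = 0) (hc : c + σ c + f w w = 0) : S ∈ UGrp f ⊓ slGrp F V := by
  obtain ⟨S', hS', hS'f⟩ := exists_siegel h he hwe hc
  have : S = S' := by
    ext x
    rw [hS, hS'f]
  rw [this]; exact hS'

/-- A Weyl-type element for a hyperbolic pair. -/
lemma exists_weyl {a a' : V} (ha : f a a = 0) (ha' : f a' a' = 0) (haa : f a a' = 1) :
    ∃ w ∈ TGrp σ f, (∃ c : F, w a = c • a') ∧ (∃ c : F, w a' = c • a) ∧
      ∀ x, f x a = 0 → f x a' = 0 → w x = x := by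
  obtain ⟨s, hs0, hs⟩ := exists_skew σ h.ne_refl h.involutive
  have hs' : σ (-s⁻¹) = -(-s⁻¹) := by rw [map_neg, map_inv₀, hs, inv_neg]
  have haa' : f a' a = 1 := by rw [h.herm, haa, map_one]
  obtain ⟨t₁, ht₁⟩ := exists_sim h (z := a) (l := s) (by rw [hs, ha]; ring)
  obtain ⟨t₂, ht₂⟩ := exists_sim h (z := a') (l := -s⁻¹) (by rw [hs', ha']; ring)
  have h1 : t₁ ∈ TGrp σ f := Subgroup.subset_closure ⟨a, s, ha, hs, ht₁⟩
  have h2 : t₂ ∈ TGrp σ f := Subgroup.subset_closure ⟨a', -s⁻¹, ha', hs', ht₂⟩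
  refine ⟨t₁ * t₂ * t₁, mul_mem (mul_mem h1 h2) h1, ⟨-s⁻¹, ?_⟩, ⟨s, ?_⟩, ?_⟩
  · simp only [LinearEquiv.mul_apply, ht₁, ht₂, h.add_left, h.smul_left, ha, ha', haa, haa']
    match_scalars <;> field_simp <;> ring
  · simp only [LinearEquiv.mul_apply, ht₁, ht₂, h.add_left, h.smul_left, ha, ha', haa, haa']
    match_scalars <;> field_simp <;> ring
  · intro x hx hx'
    simp only [LinearEquiv.mul_apply, ht₁, ht₂, hx, hx', mul_zero, zero_smul, add_zero]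

lemma sub_smul_left (x y z : V) (c : F) : f (x - c • y) z = f x z - c * f y z := by
  have e : x - c • y = x + (-c) • y := by module
  rw [e, h.add_left, h.smul_left]; ring

lemma sub_smul_right (x y z : V) (c : F) : f z (x - c • y) = f z x - σ c * f z y := by
  have e : x - c • y = x + (-c) • y := by module
  rw [e, h.add_right, h.smul_right, map_neg]; ring

lemma sub_left' (x y z : V) : f (x - y) z = f x z - f y z := by
  have := sub_smul_left h x y z 1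
  simpa using this

lemma sub_right' (x y z : V) : f z (x - y) = f z x - f z y := by
  have := sub_smul_right h x y z 1
  simpa using this

/-- Two totally singular subspaces in perfect duality are exchanged by a product of unitary
transvections fixing every vector orthogonal to both. -/
theorem exists_lagr_swap [FiniteDimensional F V] (n : ℕ) : ∀ (A A' : Submodule F V),
    finrank F A = n → (∀ x ∈ A, ∀ y ∈ A, f x y = 0) → (∀ x ∈ A', ∀ y ∈ A', f x y = 0) →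
    (∀ x ∈ A, x ≠ 0 → ∃ y ∈ A', f x y ≠ 0) → (∀ y ∈ A', y ≠ 0 → ∃ x ∈ A, f x y ≠ 0) →
    ∃ J ∈ TGrp σ f, (∀ x ∈ A, J x ∈ A') ∧ (∀ x ∈ A', J x ∈ A) ∧
      (∀ x, (∀ y ∈ A, f x y = 0) → (∀ y ∈ A', f x y = 0) → J x = x) := by
  induction n using Nat.strong_induction_on with
  | _ n ih =>
  intro A A' hn hA hA' hp hp'
  by_cases hA0 : A = ⊥
  · have hA0' : A' = ⊥ := by
      rw [Submodule.eq_bot_iff]
      intro y hy
      by_contra hy0
      obtain ⟨x, hx, hxy⟩ := hp' y hy hy0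
      rw [hA0, Submodule.mem_bot] at hx
      rw [hx, h.zero_left] at hxy
      exact hxy rfl
    refine ⟨1, one_mem _, ?_, ?_, fun x _ _ => rfl⟩
    · intro x hx; rw [hA0] at hx; rw [hA0']; simpa using hx
    · intro x hx; rw [hA0'] at hx; rw [hA0]; simpa using hx
  obtain ⟨a, ha, ha0⟩ := Submodule.exists_mem_ne_zero_of_ne_bot hA0
  obtain ⟨a₀, ha₀, haa₀⟩ := hp a ha ha0
  obtain ⟨a', ha'def⟩ : ∃ a', a' = (σ (f a a₀)⁻¹) • a₀ := ⟨_, rfl⟩
  have ha' : a' ∈ A' := by rw [ha'def]; exact A'.smul_mem _ ha₀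
  have haa : f a a' = 1 := by rw [ha'def, h.smul_right, h.involutive, inv_mul_cancel₀ haa₀]
  have haa' : f a' a = 1 := by rw [h.herm, haa, map_one]
  set A₁ : Submodule F V := A ⊓ LinearMap.ker (h.hat a') with hA₁
  set A₁' : Submodule F V := A' ⊓ LinearMap.ker (h.hat a) with hA₁'
  have m1 : ∀ x, x ∈ A₁ ↔ x ∈ A ∧ f x a' = 0 := by intro x; simp [hA₁]
  have m1' : ∀ x, x ∈ A₁' ↔ x ∈ A' ∧ f x a = 0 := by intro x; simp [hA₁']
  have hlt : A₁ < A := by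
    refine lt_of_le_of_ne inf_le_left ?_
    intro heq
    have : a ∈ A₁ := by rw [heq]; exact ha
    rw [m1, haa] at this
    exact one_ne_zero this.2
  have hfr : finrank F A₁ < n := by rw [← hn]; exact Submodule.finrank_lt_finrank_of_lt hlt
  have d1 : ∀ x ∈ A, x - f x a' • a ∈ A₁ := by
    intro x hx
    rw [m1]
    refine ⟨A.sub_mem hx (A.smul_mem _ ha), ?_⟩
    rw [sub_smul_left h, haa]; ring
  have d1' : ∀ y ∈ A', y - f y a • a' ∈ A₁' := by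
    intro y hy
    rw [m1']
    refine ⟨A'.sub_mem hy (A'.smul_mem _ ha'), ?_⟩
    rw [sub_smul_left h, haa']; ring
  obtain ⟨J₁, hJ₁, J₁a, J₁b, J₁c⟩ := ih (finrank F A₁) hfr A₁ A₁' rfl
    (fun x hx y hy => hA x hx.1 y hy.1) (fun x hx y hy => hA' x hx.1 y hy.1)
    (by
      intro x hx hx0
      obtain ⟨y, hy, hxy⟩ := hp x hx.1 hx0
      refine ⟨_, d1' y hy, ?_⟩
      rw [sub_smul_right h, ((m1 x).1 hx).2]
      simpa using hxy)
    (by
      intro y hy hy0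
      obtain ⟨x, hx, hxy⟩ := hp' y hy.1 hy0
      refine ⟨_, d1 x hx, ?_⟩
      rw [sub_smul_left h, eq_zero_comm' h ((m1' y).1 hy).2]
      simpa using hxy)
  have e1 : J₁ a = a := J₁c a (fun y hy => hA a ha y hy.1)
    (fun y hy => eq_zero_comm' h ((m1' y).1 hy).2)
  have e2 : J₁ a' = a' := J₁c a'
    (fun y hy => eq_zero_comm' h ((m1 y).1 hy).2) (fun y hy => hA' a' ha' y hy.1)
  obtain ⟨w, hw, ⟨c₁, hw1⟩, ⟨c₂, hw2⟩, hw3⟩ := exists_weyl h (hA a ha a ha) (hA' a' ha' a' ha') haa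
  refine ⟨w * J₁, mul_mem hw hJ₁, ?_, ?_, ?_⟩
  · intro x hx
    have hy := J₁a _ (d1 x hx)
    have hx' : x = f x a' • a + (x - f x a' • a) := by abel
    rw [hx', LinearEquiv.mul_apply, map_add, map_add, map_smul, map_smul, e1, hw1,
      hw3 _ ((m1' _).1 hy).2 (hA' _ hy.1 a' ha')]
    exact A'.add_mem (A'.smul_mem _ (A'.smul_mem _ ha')) hy.1
  · intro y hy
    have hx := J₁b _ (d1' y hy)
    have hy' : y = f y a • a' + (y - f y a • a') := by abel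
    rw [hy', LinearEquiv.mul_apply, map_add, map_add, map_smul, map_smul, e2, hw2,
      hw3 _ (hA _ hx.1 a ha) ((m1 _).1 hx).2]
    exact A.add_mem (A.smul_mem _ (A.smul_mem _ ha)) hx.1
  · intro x h1 h2
    rw [LinearEquiv.mul_apply, J₁c x (fun y hy => h1 y hy.1) (fun y hy => h2 y hy.1)]
    exact hw3 x (h1 a ha) (h2 a' ha')

end sieg

section lagr

variable {F V : Type*} [Field F] [Finite F] [AddCommGroup V] [Module F V] [FiniteDimensional F V]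
variable {σ : F ≃+* F} {f : V → V → F} (h : UF σ f)
variable {A B : Submodule F V} {M : Subgroup (V ≃ₗ[F] V)}
include h

lemma exists_good_of_pair (hAA : ∀ x ∈ A, ∀ y ∈ A, f x y = 0) (hBB : ∀ x ∈ B, ∀ y ∈ B, f x y = 0)
    (hdec : ∀ x : V, ∃ x₁ ∈ A, ∃ x₂ ∈ B, x = x₁ + x₂) (hdim : 4 ≤ finrank F A)
    (hs : ∀ a ∈ A, ∀ b ∈ B, f b a = 0 → ∀ S, IsSieg f S a b 0 → S ∈ M)
    {u v u₁ u₂ v₁ v₂ : V} (hu : u = u₁ + u₂) (hv : v = v₁ + v₂) (hu₁ : u₁ ∈ A) (hu₂ : u₂ ∈ B)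
    (hv₁ : v₁ ∈ A) (hv₂ : v₂ ∈ B) (hu₁0 : u₁ ≠ 0) (hind : v₁ ∉ Submodule.span F {u₁})
    (huu : f u u = 0) (hvv : f v v = 0) (hvu : f v u = 0)
    {g' : V ≃ₗ[F] V} (hg'M : g' ∈ M) (hg' : IsSieg f g' u v 0) :
    ∃ a' ∈ A, a' ≠ 0 ∧ GoodV σ f M a' := by
  obtain ⟨ω, hω⟩ := h.hform.ne_id
  have hind' : u₁ ∉ Submodule.span F {v₁} := by
    intro hc
    obtain ⟨c, hc⟩ := Submodule.mem_span_singleton.1 hc
    have hc0 : c ≠ 0 := by
      rintro rfl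
      rw [zero_smul] at hc
      exact hu₁0 hc.symm
    apply hind
    rw [Submodule.mem_span_singleton]
    exact ⟨c⁻¹, by rw [← hc, smul_smul, inv_mul_cancel₀ hc0, one_smul]⟩
  obtain ⟨φ, hφu, hφv⟩ := exists_dual_pair hind' hind 1 (σ ω)
  obtain ⟨w, hw⟩ := h.exists_hat_eq φ
  obtain ⟨w₁, hw₁, b', hb', hwdec⟩ := hdec w
  have hub : f u₁ b' = 1 := by
    have : f u₁ w = 1 := by rw [← hφu, ← hw]; rfl
    rwa [hwdec, h.add_right, hAA u₁ hu₁ w₁ hw₁, zero_add] at this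
  have hvb : f v₁ b' = σ ω := by
    have : f v₁ w = σ ω := by rw [← hφv, ← hw]; rfl
    rwa [hwdec, h.add_right, hAA v₁ hv₁ w₁ hw₁, zero_add] at this
  have hub' : f u b' = 1 := by rw [hu, h.add_left, hub, hBB u₂ hu₂ b' hb', add_zero]
  have hvb' : f v b' = σ ω := by rw [hv, h.add_left, hvb, hBB v₂ hv₂ b' hb', add_zero]
  have hbu : f b' u = 1 := by rw [h.herm, hub', map_one]
  have hbv : f b' v = ω := by rw [h.herm, hvb', h.involutive]
  have hne : A ⊓ LinearMap.ker (h.hat u) ⊓ LinearMap.ker (h.hat v) ⊓ LinearMap.ker (h.hat b') ≠ ⊥ := by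
    intro h0
    have h1 := UF.finrank_inf_ker A (h.hat u)
    have h2 := UF.finrank_inf_ker (A ⊓ LinearMap.ker (h.hat u)) (h.hat v)
    have h3 := UF.finrank_inf_ker (A ⊓ LinearMap.ker (h.hat u) ⊓ LinearMap.ker (h.hat v)) (h.hat b')
    rw [h0, finrank_bot] at h3
    omega
  obtain ⟨a', ha', ha'0⟩ := Submodule.exists_mem_ne_zero_of_ne_bot hne
  obtain ⟨⟨⟨ha'A, hau⟩, hav⟩, hab⟩ := ha'
  have hau : f a' u = 0 := hau
  have hav : f a' v = 0 := hav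
  have hab : f a' b' = 0 := hab
  have hba : f b' a' = 0 := eq_zero_comm' h hab
  have hg'U : g' ∈ UGrp f := (hg'.mem h huu hvu (by simp [hvv])).1
  have hg'a : g' a' = a' := by rw [hg', hau, hav]; simp
  have hy' : f (g' b') b' = ω - σ ω := by
    rw [hg', hbu, hbv, h.add_left, h.add_left, h.smul_left, h.smul_left, hBB b' hb' b' hb', hvb',
      hub']
    ring
  have hy'0 : f (g' b') b' ≠ 0 := by
    rw [hy']
    exact fun h0 => hω (sub_eq_zero.1 h0).symm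
  refine ⟨a', ha'A, ha'0, ?_⟩
  intro a ha t ht
  obtain ⟨c, hc⟩ := exists_mul_sub_eq h hy'0 (κ := -a) (by rw [map_neg, ha])
  have haa' : f a' a' = 0 := hAA a' ha'A a' ha'A
  obtain ⟨E₁, -, hE₁⟩ := exists_siegel h (e := a') (w := b') (c := 0) haa' hba
    (by simp [hBB b' hb' b' hb'])
  have hcb : f (c • b') a' = 0 := by rw [h.smul_left, hba, mul_zero]
  obtain ⟨E₂, -, hE₂⟩ := exists_siegel h (e := a') (w := c • b') (c := 0) haa' hcb
    (by simp [hBB _ (B.smul_mem c hb') _ (B.smul_mem c hb')])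
  have hE₁M : E₁ ∈ M := hs a' ha'A b' hb' hba E₁ hE₁
  have hE₂M : E₂ ∈ M := hs a' ha'A _ (B.smul_mem c hb') hcb E₂ hE₂
  have hE₃ : IsSieg f (g' * E₂ * g'⁻¹) a' (g' (c • b')) 0 := by
    have := IsSieg.conj (f := f) hE₂ hg'U
    rwa [hg'a] at this
  have hE₃M : g' * E₂ * g'⁻¹ ∈ M := mul_mem (mul_mem hg'M hE₂M) (inv_mem hg'M)
  refine tv_of_comm h haa' hba ?_ hE₁ hE₃ hE₁M hE₃M ?_
  · conv_lhs => rw [← hg'a]
    rw [hg'U, hcb]
  · intro x
    rw [ht]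
    have e1 : f (g' (c • b')) b' = c * f (g' b') b' := by rw [map_smul, h.smul_left]
    have e2 : f b' (g' (c • b')) = σ (c * f (g' b') b') := by rw [h.herm, e1]
    rw [e1, e2]
    have : σ (c * f (g' b') b') - c * f (g' b') b' = a := by linear_combination -hc
    rw [this]

omit [Finite F] in
lemma good_spread (hAA : ∀ x ∈ A, ∀ y ∈ A, f x y = 0) (hBB : ∀ x ∈ B, ∀ y ∈ B, f x y = 0)
    (hp : ∀ x ∈ A, x ≠ 0 → ∃ y ∈ B, f y x ≠ 0)
    (hs : ∀ a ∈ A, ∀ b ∈ B, f b a = 0 → ∀ S, IsSieg f S a b 0 → S ∈ M)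
    {a' : V} (ha' : a' ∈ A) (ha'0 : a' ≠ 0) (hG : GoodV σ f M a') :
    ∀ a'' ∈ A, GoodV σ f M a'' := by
  intro a'' ha''
  by_cases h0 : a'' = 0
  · subst h0; exact goodV_zero
  obtain ⟨b, hb, hb1, hb2⟩ := exists_mem_ne_zero_both B (h.hat a') (h.hat a'') (hp a' ha' ha'0)
    (hp a'' ha'' h0)
  rw [UF.hat_apply] at hb1 hb2
  have hb1' : f a' b ≠ 0 := ne_zero_comm' h hb1
  have hb2' : f a'' b ≠ 0 := ne_zero_comm' h hb2
  obtain ⟨l, hl⟩ : ∃ l, l = f a' b / f a'' b := ⟨_, rfl⟩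
  have hl0 : l ≠ 0 := by rw [hl]; exact div_ne_zero hb1' hb2'
  suffices hh : GoodV σ f M (l • a'') by
    have := hh.smul h l⁻¹
    rwa [smul_smul, inv_mul_cancel₀ hl0, one_smul] at this
  obtain ⟨d, hd⟩ : ∃ d, d = (f a' b)⁻¹ • (l • a'' - a') := ⟨_, rfl⟩
  have hdA : d ∈ A := by
    rw [hd]; exact A.smul_mem _ (A.sub_mem (A.smul_mem _ ha'') ha')
  have hdb : f d b = 0 := by
    rw [hd, h.smul_left, sub_left' h, h.smul_left, hl, div_mul_cancel₀ _ hb2', sub_self, mul_zero]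
  have hbd : f b d = 0 := eq_zero_comm' h hdb
  obtain ⟨S, hS, hSf⟩ := exists_siegel h (e := d) (w := b) (c := 0) (hAA d hdA d hdA) hbd
    (by simp [hBB b hb b hb])
  have := hG.map (hs d hdA b hb hbd S hSf) hS.1
  rw [hSf, hAA a' ha' d hdA, hd, smul_smul] at this
  have e : a' + (-(0 : F)) • b + ((f a' b + 0 * 0) * (f a' b)⁻¹) • (l • a'' - a') = l • a'' := by
    have : (f a' b + 0 * 0) * (f a' b)⁻¹ = 1 := by
      rw [mul_zero, add_zero, mul_inv_cancel₀ hb1']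
    rw [this]; module
  rwa [e] at this

lemma exists_good_aux (hAA : ∀ x ∈ A, ∀ y ∈ A, f x y = 0) (hBB : ∀ x ∈ B, ∀ y ∈ B, f x y = 0)
    (hdec : ∀ x : V, ∃ x₁ ∈ A, ∃ x₂ ∈ B, x = x₁ + x₂) (hdA : 4 ≤ finrank F A)
    (hdB : 4 ≤ finrank F B)
    (hs : ∀ a ∈ A, ∀ b ∈ B, f b a = 0 → ∀ S, IsSieg f S a b 0 → S ∈ M)
    (hs' : ∀ b ∈ B, ∀ a ∈ A, f a b = 0 → ∀ S, IsSieg f S b a 0 → S ∈ M)
    {g : V ≃ₗ[F] V} (hgM : g ∈ M) (hg : g ∈ UGrp f) {x : V} (hx : x ∈ A) (hx1 : g x ∉ A)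
    (hx2 : g x ∉ B) :
    (∃ a' ∈ A, a' ≠ 0 ∧ GoodV σ f M a') ∨ (∃ b' ∈ B, b' ≠ 0 ∧ GoodV σ f M b') := by
  classical
  obtain ⟨u₁, hu₁, u₂, hu₂, hu⟩ := hdec (g x)
  have hu₁0 : u₁ ≠ 0 := by
    rintro rfl
    apply hx2
    rw [hu, zero_add]; exact hu₂
  have hu₂0 : u₂ ≠ 0 := by
    rintro rfl
    apply hx1
    rw [hu, add_zero]; exact hu₁
  set P : Submodule F V := Submodule.span F (({u₁, u₂} : Finset V) : Set V) with hP
  have hP2 : finrank F P ≤ 2 :=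
    (finrank_span_finset_le_card ({u₁, u₂} : Finset V)).trans Finset.card_le_two
  have hQ2 : finrank F (P.map (g.symm : V →ₗ[F] V)) ≤ 2 := by
    rw [LinearEquiv.finrank_map_eq]; exact hP2
  obtain ⟨b, hbm, hbQ⟩ : ∃ b ∈ B ⊓ LinearMap.ker (h.hat x), b ∉ P.map (g.symm : V →ₗ[F] V) := by
    by_contra hcon
    push Not at hcon
    have h1 : B ⊓ LinearMap.ker (h.hat x) ≤ P.map (g.symm : V →ₗ[F] V) := hcon
    have h2 := Submodule.finrank_mono h1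
    have h3 := UF.finrank_inf_ker B (h.hat x)
    omega
  obtain ⟨hb, hbx⟩ := hbm
  have hbx : f b x = 0 := hbx
  have hgbP : g b ∉ P := by
    intro hc
    apply hbQ
    exact ⟨g b, hc, by simp⟩
  obtain ⟨v₁, hv₁, v₂, hv₂, hv⟩ := hdec (g b)
  obtain ⟨E, -, hE⟩ := exists_siegel h (e := x) (w := b) (c := 0) (hAA x hx x hx) hbx
    (by simp [hBB b hb b hb])
  have hEM : E ∈ M := hs x hx b hb hbx E hE
  have hg' : IsSieg f (g * E * g⁻¹) (g x) (g b) 0 := IsSieg.conj (f := f) hE hg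
  have hg'M : g * E * g⁻¹ ∈ M := mul_mem (mul_mem hgM hEM) (inv_mem hgM)
  have huu : f (g x) (g x) = 0 := by rw [hg, hAA x hx x hx]
  have hvv : f (g b) (g b) = 0 := by rw [hg, hBB b hb b hb]
  have hvu : f (g b) (g x) = 0 := by rw [hg, hbx]
  by_cases hind : v₁ ∈ Submodule.span F {u₁}
  · right
    have hind2 : v₂ ∉ Submodule.span F {u₂} := by
      intro hc
      apply hgbP
      obtain ⟨c₁, hc₁⟩ := Submodule.mem_span_singleton.1 hind
      obtain ⟨c₂, hc₂⟩ := Submodule.mem_span_singleton.1 hc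
      rw [hv, ← hc₁, ← hc₂]
      exact P.add_mem (P.smul_mem _ (Submodule.subset_span (by simp)))
        (P.smul_mem _ (Submodule.subset_span (by simp)))
    exact exists_good_of_pair h hBB hAA
      (fun z => by
        obtain ⟨z₁, hz₁, z₂, hz₂, hz⟩ := hdec z
        exact ⟨z₂, hz₂, z₁, hz₁, by rw [hz, add_comm]⟩) hdB hs'
      (hu.trans (add_comm _ _)) (hv.trans (add_comm _ _)) hu₂ hu₁ hv₂ hv₁ hu₂0 hind2 huu hvv hvu
      hg'M hg'
  · left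
    exact exists_good_of_pair h hAA hBB hdec hdA hs hu hv hu₁ hu₂ hv₁ hv₂ hu₁0 hind huu hvv hvu
      hg'M hg'

theorem su_le_of_lagr (hn : 7 ≤ finrank F V) (hAA : ∀ x ∈ A, ∀ y ∈ A, f x y = 0)
    (hBB : ∀ x ∈ B, ∀ y ∈ B, f x y = 0) (hsup : A ⊔ B = ⊤) (hdA : 4 ≤ finrank F A)
    (hdB : 4 ≤ finrank F B) {S' : Subgroup (V ≃ₗ[F] V)}
    (hS1 : ∀ e : V ≃ₗ[F] V, (∀ x ∈ A, e x ∈ A) → (∀ x ∈ B, e x ∈ B) → e ∈ S')
    (hS2 : ∀ e : V ≃ₗ[F] V, (∀ x ∈ A, e x ∈ B) → (∀ x ∈ B, e x ∈ A) → e ∈ S')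
    (hM : (UGrp f ⊓ slGrp F V) ⊓ S' ≤ M) {g : V ≃ₗ[F] V} (hgM : g ∈ M) (hg : g ∈ UGrp f)
    (hgS : g ∉ S') : UGrp f ⊓ slGrp F V ≤ M := by
  have hdec : ∀ x : V, ∃ x₁ ∈ A, ∃ x₂ ∈ B, x = x₁ + x₂ := by
    intro x
    have hx : x ∈ A ⊔ B := by rw [hsup]; trivial
    obtain ⟨x₁, h1, x₂, h2, rfl⟩ := Submodule.mem_sup.1 hx
    exact ⟨x₁, h1, x₂, h2, rfl⟩
  have hdec' : ∀ x : V, ∃ x₁ ∈ B, ∃ x₂ ∈ A, x = x₁ + x₂ := by
    intro z
    obtain ⟨z₁, hz₁, z₂, hz₂, hz⟩ := hdec z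
    exact ⟨z₂, hz₂, z₁, hz₁, by rw [hz, add_comm]⟩
  have hpAB : ∀ x ∈ A, x ≠ 0 → ∃ y ∈ B, f y x ≠ 0 := by
    intro x hx hx0
    obtain ⟨z, hz⟩ := h.nondeg x hx0
    obtain ⟨z₁, hz₁, z₂, hz₂, rfl⟩ := hdec z
    rw [h.add_left, hAA z₁ hz₁ x hx, zero_add] at hz
    exact ⟨z₂, hz₂, hz⟩
  have hpBA : ∀ x ∈ B, x ≠ 0 → ∃ y ∈ A, f y x ≠ 0 := by
    intro x hx hx0
    obtain ⟨z, hz⟩ := h.nondeg x hx0
    obtain ⟨z₁, hz₁, z₂, hz₂, rfl⟩ := hdec z
    rw [h.add_left, hBB z₂ hz₂ x hx, add_zero] at hz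
    exact ⟨z₁, hz₁, hz⟩
  have hs : ∀ a ∈ A, ∀ b ∈ B, f b a = 0 → ∀ S, IsSieg f S a b 0 → S ∈ M := by
    intro a ha b hb hba S hS
    refine hM ⟨hS.mem h (hAA a ha a ha) hba (by simp [hBB b hb b hb]), hS1 _ ?_ ?_⟩
    · intro x hx
      rw [hS, hAA x hx a ha]
      simp only [neg_zero, zero_smul, add_zero, mul_zero]
      exact A.add_mem hx (A.smul_mem _ ha)
    · intro x hx
      rw [hS, hBB x hx b hb]
      simp only [zero_mul, add_zero, zero_smul]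
      exact B.add_mem hx (B.smul_mem _ hb)
  have hs' : ∀ b ∈ B, ∀ a ∈ A, f a b = 0 → ∀ S, IsSieg f S b a 0 → S ∈ M := by
    intro b hb a ha hab S hS
    refine hM ⟨hS.mem h (hBB b hb b hb) hab (by simp [hAA a ha a ha]), hS1 _ ?_ ?_⟩
    · intro x hx
      rw [hS, hAA x hx a ha]
      simp only [zero_mul, add_zero, zero_smul]
      exact A.add_mem hx (A.smul_mem _ ha)
    · intro x hx
      rw [hS, hBB x hx b hb]
      simp only [neg_zero, zero_smul, add_zero, mul_zero]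
      exact B.add_mem hx (B.smul_mem _ hb)
  obtain ⟨J, hJT, hJ1, hJ2, -⟩ := exists_lagr_swap h _ A B rfl hAA hBB
    (fun x hx hx0 => by
      obtain ⟨y, hy, hyx⟩ := hpAB x hx hx0
      exact ⟨y, hy, ne_zero_comm' h hyx⟩)
    (fun y hy hy0 => hpBA y hy hy0)
  have hJU := TGrp_le_UGrp h hJT
  have hJM : J ∈ M := hM ⟨⟨hJU, TGrp_le_slGrp h hJT⟩, hS2 J hJ1 hJ2⟩
  have hAne : A ≠ ⊥ := by intro h0; rw [h0, finrank_bot] at hdA; omega
  have hBne : B ≠ ⊥ := by intro h0; rw [h0, finrank_bot] at hdB; omega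
  -- claim 1
  have c1 : ∃ x, (x ∈ A ∨ x ∈ B) ∧ g x ∉ A ∧ g x ∉ B := by
    by_contra hcon
    push Not at hcon
    have hA : ∀ x ∈ A, (g : V →ₗ[F] V) x ∈ A ∨ (g : V →ₗ[F] V) x ∈ B := by
      intro x hx
      by_cases h0 : g x ∈ A
      · exact Or.inl h0
      · exact Or.inr (hcon x (Or.inl hx) h0)
    have hA' : ∀ x ∈ B, (g : V →ₗ[F] V) x ∈ A ∨ (g : V →ₗ[F] V) x ∈ B := by
      intro x hx
      by_cases h0 : g x ∈ A
      · exact Or.inl h0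
      · exact Or.inr (hcon x (Or.inr hx) h0)
    have hall : ∀ (W : Submodule F V), (∀ x ∈ A, g x ∈ W) → (∀ x ∈ B, g x ∈ W) → W = ⊤ := by
      intro W h1 h2
      rw [eq_top_iff]
      intro z _
      obtain ⟨z₁, hz₁, z₂, hz₂, hz⟩ := hdec (g.symm z)
      have : z = g z₁ + g z₂ := by rw [← map_add, ← hz]; simp
      rw [this]
      exact W.add_mem (h1 z₁ hz₁) (h2 z₂ hz₂)
    rcases forall_or_of_forall_or _ hA with hP | hP <;>
      rcases forall_or_of_forall_or _ hA' with hQ | hQ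
    · have htop := hall A hP hQ
      obtain ⟨y, hy, hy0⟩ := Submodule.exists_mem_ne_zero_of_ne_bot hBne
      obtain ⟨x, hx, hxy⟩ := hpBA y hy hy0
      exact hxy (hAA x hx y (by rw [htop]; trivial))
    · exact hgS (hS1 g hP hQ)
    · exact hgS (hS2 g hP hQ)
    · have htop := hall B hP hQ
      obtain ⟨y, hy, hy0⟩ := Submodule.exists_mem_ne_zero_of_ne_bot hAne
      obtain ⟨x, hx, hxy⟩ := hpAB y hy hy0
      exact hxy (hBB x hx y (by rw [htop]; trivial))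
  have c3 : (∃ a' ∈ A, a' ≠ 0 ∧ GoodV σ f M a') ∨ (∃ b' ∈ B, b' ≠ 0 ∧ GoodV σ f M b') := by
    obtain ⟨x, hx, hx1, hx2⟩ := c1
    rcases hx with hx | hx
    · exact exists_good_aux h hAA hBB hdec hdA hdB hs hs' hgM hg hx hx1 hx2
    · exact (exists_good_aux h hBB hAA hdec' hdB hdA hs' hs hgM hg hx hx2 hx1).symm
  have hJinv : ∀ z, J⁻¹ (J z) = z := by
    intro z
    rw [← LinearEquiv.mul_apply, inv_mul_cancel]; rfl
  have c4 : (∀ a ∈ A, GoodV σ f M a) ∧ (∀ b ∈ B, GoodV σ f M b) := by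
    rcases c3 with ⟨a', ha', ha'0, hG⟩ | ⟨b', hb', hb'0, hG⟩
    · have hA := good_spread h hAA hBB hpAB hs ha' ha'0 hG
      refine ⟨hA, fun b hb => ?_⟩
      have := (hA (J b) (hJ2 b hb)).map (inv_mem hJM) (inv_mem hJU)
      rwa [hJinv] at this
    · have hB := good_spread h hBB hAA hpBA hs' hb' hb'0 hG
      refine ⟨fun a ha => ?_, hB⟩
      have := (hB (J a) (hJ1 a ha)).map (inv_mem hJM) (inv_mem hJU)
      rwa [hJinv] at this
  obtain ⟨hGA, hGB⟩ := c4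
  apply UGrp_inf_slGrp_le h hn
  apply UT_of_goodV h
  intro x hxx
  obtain ⟨x₁, hx₁, x₂, hx₂, rfl⟩ := hdec x
  by_cases hx₂0 : x₂ = 0
  · subst hx₂0; simpa using hGA x₁ hx₁
  have h22 : f x₂ x₂ = 0 := hBB x₂ hx₂ x₂ hx₂
  have hskew : σ (f x₁ x₂) = -f x₁ x₂ := by
    rw [h.add_left, h.add_right, h.add_right, hAA x₁ hx₁ x₁ hx₁, h22, h.herm x₂ x₁] at hxx
    linear_combination hxx
  by_cases h12 : f x₁ x₂ = 0
  · obtain ⟨a, ha, hax⟩ := hpBA x₂ hx₂ hx₂0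
    obtain ⟨t, ht0, ht⟩ := exists_skew σ h.ne_refl h.involutive
    obtain ⟨a₀, ha₀⟩ : ∃ a₀, a₀ = (t / f a x₂) • a := ⟨_, rfl⟩
    have ha₀A : a₀ ∈ A := by rw [ha₀]; exact A.smul_mem _ ha
    have hat : f a₀ x₂ = t := by rw [ha₀, h.smul_left, div_mul_cancel₀ _ hax]
    have hti : σ (-t⁻¹) = -(-t⁻¹) := by rw [map_neg, map_inv₀, ht, inv_neg]
    have hy := (hGA _ (A.sub_mem hx₁ ha₀A)).tv h (hGB x₂ hx₂) h22 hti
    rw [sub_left' h, h12, hat] at hy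
    have e1 : -t⁻¹ * (0 - t) = 1 := by field_simp; ring
    rw [e1, one_smul] at hy
    have hx := hy.tv h (hGA a₀ ha₀A) (hAA a₀ ha₀A a₀ ha₀A) hti
    rw [h.add_left, hAA _ (A.sub_mem hx₁ ha₀A) a₀ ha₀A, zero_add, h.herm x₂ a₀, hat, ht] at hx
    have e2 : -t⁻¹ * -t = 1 := by field_simp
    rw [e2, one_smul] at hx
    have e3 : x₁ - a₀ + x₂ + a₀ = x₁ + x₂ := by abel
    rwa [e3] at hx
  · have := (hGA x₁ hx₁).tv h (hGB x₂ hx₂) h22 (a := (f x₁ x₂)⁻¹)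
      (by rw [map_inv₀, hskew, inv_neg])
    rwa [inv_mul_cancel₀ h12, one_smul] at this

end lagr

end Cfsg.Agent.Lib.Helper97
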