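import Cfsg.Agent.Lib.Helper97.SubfieldGlue
import Cfsg.Agent.Lib.Helper97.HermGlue
import Cfsg.Agent.Lib.Helper97.SULagr

set_option autoImplicit false
open scoped MatrixGroups

/-! Rational structures over the fixed field of the involution. -/

namespace Cfsg.Agent.Lib.Helper97

open Module Cfsg.Agent.Lib.Helper95 Matrix

/-- `R` is an `F₀`-form of the `F`-space `V`, where `F = F₀ ⊕ ω F₀`. -/
structure RatStr {F V : Type*} [Field F] [AddCommGroup V] [Module F V] (F₀ : Subfield F) (ω : F)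
    (R : AddSubgroup V) : Prop where
  smul_mem : ∀ c ∈ F₀, ∀ v ∈ R, c • v ∈ R
  decomp : ∀ v : V, ∃ v₁ ∈ R, ∃ v₂ ∈ R, v = v₁ + ω • v₂
  unique : ∀ v₁ ∈ R, ∀ v₂ ∈ R, v₁ + ω • v₂ = 0 → v₁ = 0 ∧ v₂ = 0
  fdecomp : ∀ c : F, ∃ a ∈ F₀, ∃ b ∈ F₀, c = a + ω * b
  funique : ∀ a ∈ F₀, ∀ b ∈ F₀, a + ω * b = 0 → a = 0 ∧ b = 0

section field

variable {F : Type*} [Field F] [Fintype F] {q : ℕ}

lemma card_subfield_eq (hF : Fintype.card F = q ^ 2) (F₀ : Subfield F)
    (hcard : Fintype.card F = Nat.card F₀ ^ 2) : Nat.card F₀ = q := by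
  rw [hF] at hcard
  exact (Nat.pow_left_injective (n := 2) (by norm_num) hcard).symm

lemma sigmaQ_of_mem (hF : Fintype.card F = q ^ 2) (F₀ : Subfield F)
    (hcard : Fintype.card F = Nat.card F₀ ^ 2) {c : F} (hc : c ∈ F₀) : sigmaQ hF c = c := by
  classical
  have h1 := card_subfield_eq hF F₀ hcard
  have : Fintype F₀ := Fintype.ofFinite F₀
  have h2 := FiniteField.pow_card (⟨c, hc⟩ : F₀)
  rw [← Nat.card_eq_fintype_card, h1] at h2
  have h3 := congrArg Subtype.val h2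
  simpa using h3

lemma exists_omega (hF : Fintype.card F = q ^ 2) (F₀ : Subfield F)
    (hcard : Fintype.card F = Nat.card F₀ ^ 2) : ∃ ω : F, sigmaQ hF ω ≠ ω ∧
      (∀ c : F, ∃ a ∈ F₀, ∃ b ∈ F₀, c = a + ω * b) ∧
      (∀ a ∈ F₀, ∀ b ∈ F₀, a + ω * b = 0 → a = 0 ∧ b = 0) := by
  obtain ⟨ω, hω⟩ : ∃ ω, sigmaQ hF ω ≠ ω := by
    by_contra hcon
    push Not at hcon
    exact sigmaQ_ne_refl hF (RingEquiv.ext hcon)
  have hωF : ω ∉ F₀ := fun hc => hω (sigmaQ_of_mem hF F₀ hcard hc)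
  have huniq : ∀ a ∈ F₀, ∀ b ∈ F₀, a + ω * b = 0 → a = 0 ∧ b = 0 := by
    intro a ha b hb hab
    have hb0 : b = 0 := by
      by_contra hb0
      apply hωF
      have : ω = -a / b := by field_simp; linear_combination hab
      rw [this]
      exact F₀.div_mem (F₀.neg_mem ha) hb
    rw [hb0] at hab
    exact ⟨by simpa using hab, hb0⟩
  refine ⟨ω, hω, ?_, huniq⟩
  let j : F₀ × F₀ → F := fun p => (p.1 : F) + ω * (p.2 : F)
  have hj : Function.Injective j := by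
    rintro ⟨a, b⟩ ⟨a', b'⟩ hab
    have h1 : ((a - a' : F₀) : F) + ω * ((b - b' : F₀) : F) = 0 := by
      have : (a : F) + ω * b = a' + ω * b' := hab
      push_cast
      linear_combination this
    obtain ⟨h2, h3⟩ := huniq _ (a - a').2 _ (b - b').2 h1
    have h2' : a - a' = 0 := Subtype.ext h2
    have h3' : b - b' = 0 := Subtype.ext h3
    rw [sub_eq_zero.1 h2', sub_eq_zero.1 h3']
  have hc : Nat.card F ≤ Nat.card (F₀ × F₀) := by
    rw [Nat.card_prod, Nat.card_eq_fintype_card, hcard]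
    exact le_of_eq (sq _)
  have hbij := hj.bijective_of_nat_card_le hc
  intro c
  obtain ⟨⟨a, b⟩, hab⟩ := hbij.2 c
  exact ⟨a, a.2, b, b.2, hab.symm⟩

lemma mem_iff_sigmaQ (hF : Fintype.card F = q ^ 2) (F₀ : Subfield F)
    (hcard : Fintype.card F = Nat.card F₀ ^ 2) (c : F) : c ∈ F₀ ↔ sigmaQ hF c = c := by
  refine ⟨sigmaQ_of_mem hF F₀ hcard, fun hc => ?_⟩
  obtain ⟨ω, hω, hdec, -⟩ := exists_omega hF F₀ hcard
  obtain ⟨a, ha, b, hb, rfl⟩ := hdec c
  rw [map_add, map_mul, sigmaQ_of_mem hF F₀ hcard ha, sigmaQ_of_mem hF F₀ hcard hb] at hc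
  have h1 : (sigmaQ hF ω - ω) * b = 0 := by linear_combination hc
  rcases mul_eq_zero.1 h1 with h2 | h2
  · exact absurd (sub_eq_zero.1 h2) hω
  · rw [h2, mul_zero, add_zero]; exact ha

end field

section vec

variable {F : Type*} [Field F] {ι : Type} [Fintype ι] [DecidableEq ι]

lemma ratStr_ratVec (F₀ : Subfield F) (P : GL ι F) (ω : F)
    (hdec : ∀ c : F, ∃ a ∈ F₀, ∃ b ∈ F₀, c = a + ω * b)
    (huniq : ∀ a ∈ F₀, ∀ b ∈ F₀, a + ω * b = 0 → a = 0 ∧ b = 0) : RatStr F₀ ω (ratVec F₀ P) where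
  smul_mem := by
    rintro c hc _ ⟨u, hu, rfl⟩
    exact ⟨c • u, fun i => F₀.mul_mem hc (hu i), by rw [Matrix.mulVec_smul]⟩
  decomp := by
    intro v
    choose a ha b hb hab using fun i => hdec ((((P⁻¹ : GL ι F) : Matrix ι ι F) *ᵥ v) i)
    refine ⟨_, ⟨a, ha, rfl⟩, _, ⟨b, hb, rfl⟩, ?_⟩
    rw [← Matrix.mulVec_smul, ← Matrix.mulVec_add]
    have : a + ω • b = ((P⁻¹ : GL ι F) : Matrix ι ι F) *ᵥ v := by
      funext i
      rw [hab i]; rfl
    rw [this, mulVec_inv_mulVec]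
  unique := by
    rintro _ ⟨u, hu, rfl⟩ _ ⟨u', hu', rfl⟩ h0
    rw [← Matrix.mulVec_smul, ← Matrix.mulVec_add] at h0
    have h1 : u + ω • u' = 0 := by
      have := congrArg (fun w => ((P⁻¹ : GL ι F) : Matrix ι ι F) *ᵥ w) h0
      simpa [inv_mulVec_mulVec] using this
    have h2 : ∀ i, u i = 0 ∧ u' i = 0 := by
      intro i
      apply huniq _ (hu i) _ (hu' i)
      have := congrFun h1 i
      simpa using this
    have e1 : u = 0 := funext fun i => (h2 i).1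
    have e2 : u' = 0 := funext fun i => (h2 i).2
    rw [e1, e2]; simp
  fdecomp := hdec
  funique := huniq

end vec

end Cfsg.Agent.Lib.Helper97
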