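import Cfsg.Agent.Lib.Helper97.SUSubSp
import Cfsg.Agent.Lib.Helper95.Orth

set_option autoImplicit false

/-! The orthogonal subfield subgroup is maximal in the special unitary group (odd characteristic). -/

namespace Cfsg.Agent.Lib.Helper97

open Module Cfsg.Agent.Lib.Helper95

section field

variable {F : Type*} [Field F] [Fintype F] {q : ℕ}

lemma omega_decomp (hF : Fintype.card F = q ^ 2) (F₀ : Subfield F)
    (hcard : Fintype.card F = Nat.card F₀ ^ 2) {ω : F} (hω : sigmaQ hF ω ≠ ω) :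
      (∀ c : F, ∃ a ∈ F₀, ∃ b ∈ F₀, c = a + ω * b) ∧
      (∀ a ∈ F₀, ∀ b ∈ F₀, a + ω * b = 0 → a = 0 ∧ b = 0) := by
  have hωF : ω ∉ F₀ := fun hc => hω (sigmaQ_of_mem hF F₀ hcard hc)
  have huniq : ∀ a ∈ F₀, ∀ b ∈ F₀, a + ω * b = 0 → a = 0 ∧ b = 0 := by
    intro a ha b hb hab
    have hb0 : b = 0 := by
      by_contra hb0
      apply hωF
      have : ω = -a / b := by field_simp; linear_combination hab
      rw [this]
      exact F₀.div_mem (F₀.neg_mem ha) hb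
    rw [hb0] at hab
    exact ⟨by simpa using hab, hb0⟩
  refine ⟨?_, huniq⟩
  let j : F₀ × F₀ → F := fun p => (p.1 : F) + ω * (p.2 : F)
  have hj : Function.Injective j := by
    rintro ⟨a, b⟩ ⟨a', b'⟩ hab
    have h1 : ((a - a' : F₀) : F) + ω * ((b - b' : F₀) : F) = 0 := by
      have : (a : F) + ω * b = a' + ω * b' := hab
      push_cast
      linear_combination this
    obtain ⟨h2, h3⟩ := huniq _ (a - a').2 _ (b - b').2 h1
    have h2' : a - a' = 0 := Subtype.ext h2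
    have h3' : b - b' = 0 := Subtype.ext h3
    rw [sub_eq_zero.1 h2', sub_eq_zero.1 h3']
  have hc : Nat.card F ≤ Nat.card (F₀ × F₀) := by
    rw [Nat.card_prod, Nat.card_eq_fintype_card, hcard]
    exact le_of_eq (sq _)
  have hbij := hj.bijective_of_nat_card_le hc
  intro c
  obtain ⟨⟨a, b⟩, hab⟩ := hbij.2 c
  exact ⟨a, a.2, b, b.2, hab.symm⟩

lemma subfield_universal (F₀ : Subfield F) (hodd : Odd (Nat.card F₀)) :
    ∀ α ∈ F₀, ∀ β ∈ F₀, ∀ δ ∈ F₀, α ≠ 0 → β ≠ 0 → ∃ x ∈ F₀, ∃ y ∈ F₀, α * x ^ 2 + β * y ^ 2 = δ := by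
  classical
  intro α hα β hβ δ hδ hα0 hβ0
  have : Fintype F₀ := Fintype.ofFinite F₀
  obtain ⟨x, y, hxy⟩ := exists_sq_add_sq (K := F₀) (by rwa [← Nat.card_eq_fintype_card])
    ⟨α, hα⟩ ⟨β, hβ⟩ ⟨δ, hδ⟩ (fun h0 => hα0 (congrArg Subtype.val h0))
    (fun h0 => hβ0 (congrArg Subtype.val h0))
  refine ⟨x, x.2, y, y.2, ?_⟩
  have := congrArg Subtype.val hxy
  simpa using this

end field

section geom

variable {F V : Type*} [Field F] [AddCommGroup V] [Module F V] [FiniteDimensional F V]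
variable {σ : F ≃+* F} {f : V → V → F} (h : UF σ f)
variable {F₀ : Subfield F} {ω : F} {R : AddSubgroup V} (hR : RatStr F₀ ω R)
variable (hfix : ∀ c, c ∈ F₀ ↔ σ c = c) (hω : σ ω = -ω) (hsym : ∀ u ∈ R, ∀ v ∈ R, f u v ∈ F₀)
include h hR hsym

omit [FiniteDimensional F V] hR in
include hfix in
lemma osym_swap {u v : V} (hu : u ∈ R) (hv : v ∈ R) : f v u = f u v := by
  rw [h.herm v u, (hfix _).1 (hsym u hu v hv)]

omit [FiniteDimensional F V] in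
lemma osym_extract {v₁ v₂ y : V} (hv₁ : v₁ ∈ R) (hv₂ : v₂ ∈ R) (hy : y ∈ R)
    (h0 : f (v₁ + ω • v₂) y = 0) : f v₁ y = 0 ∧ f v₂ y = 0 := by
  rw [h.add_left, h.smul_left] at h0
  exact hR.funique _ (hsym v₁ hv₁ y hy) _ (hsym v₂ hv₂ y hy) h0

omit [FiniteDimensional F V] hR in
include hfix hω in
lemma osym_norm {x₁ x₂ : V} (hx₁ : x₁ ∈ R) (hx₂ : x₂ ∈ R) :
    f (x₁ + ω • x₂) (x₁ + ω • x₂) = f x₁ x₁ - ω ^ 2 * f x₂ x₂ := by
  rw [h.add_left, h.add_right, h.add_right, h.smul_left, h.smul_left, h.smul_right, h.smul_right,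
    hω, osym_swap h hfix hsym hx₁ hx₂]
  ring

lemma exists_orat_perp {k : ℕ} (a : Fin k → V) (ha : ∀ i, a i ∈ R) (hk : k < finrank F V) :
    ∃ r ∈ R, r ≠ 0 ∧ ∀ i, f r (a i) = 0 := by
  obtain ⟨z, hz0, hz⟩ := h.hform.exists_perp a hk
  obtain ⟨z₁, hz₁, z₂, hz₂, rfl⟩ := hR.decomp z
  by_cases h1 : z₁ = 0
  · refine ⟨z₂, hz₂, ?_, fun i => (osym_extract h hR hsym hz₁ hz₂ (ha i) (hz i)).2⟩
    rintro rfl
    apply hz0
    rw [h1]; simp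
  · exact ⟨z₁, hz₁, h1, fun i => (osym_extract h hR hsym hz₁ hz₂ (ha i) (hz i)).1⟩

include hfix hω in
lemma exists_orat_nonsing {k : ℕ} (a : Fin k → V) (ha : ∀ i, a i ∈ R) (hk : 2 * k < finrank F V) :
    ∃ r ∈ R, (∀ i, f r (a i) = 0) ∧ f r r ≠ 0 := by
  obtain ⟨z, hz, hzz⟩ := h.hform.exists_perp_aniso a hk
  obtain ⟨z₁, hz₁, z₂, hz₂, rfl⟩ := hR.decomp z
  rw [osym_norm h hfix hω hsym hz₁ hz₂] at hzz
  by_cases h1 : f z₁ z₁ = 0
  · refine ⟨z₂, hz₂, fun i => (osym_extract h hR hsym hz₁ hz₂ (ha i) (hz i)).2, ?_⟩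
    intro h2
    apply hzz
    rw [h1, h2]; ring
  · exact ⟨z₁, hz₁, fun i => (osym_extract h hR hsym hz₁ hz₂ (ha i) (hz i)).1, h1⟩

variable (hU : ∀ α ∈ F₀, ∀ β ∈ F₀, ∀ δ ∈ F₀, α ≠ 0 → β ≠ 0 →
  ∃ x ∈ F₀, ∃ y ∈ F₀, α * x ^ 2 + β * y ^ 2 = δ)

include hfix hω hU in
lemma exists_orat_norm {k : ℕ} (a : Fin k → V) (ha : ∀ i, a i ∈ R)
    (hk : 2 * (k + 1) < finrank F V) {c : F} (hc : c ∈ F₀) :
    ∃ r ∈ R, (∀ i, f r (a i) = 0) ∧ f r r = c := by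
  obtain ⟨e₁, he₁, h1, h11⟩ := exists_orat_nonsing h hR hfix hω hsym a ha (by omega)
  obtain ⟨e₂, he₂, h2', h22⟩ := exists_orat_nonsing h hR hfix hω hsym
    (Fin.cons e₁ a : Fin (k + 1) → V) (by
      intro i
      refine Fin.cases ?_ (fun j => ?_) i
      · simpa using he₁
      · simpa using ha j) hk
  have h21 : f e₂ e₁ = 0 := by simpa using h2' 0
  have h2a : ∀ i, f e₂ (a i) = 0 := fun i => by simpa using h2' i.succ
  have h12 : f e₁ e₂ = 0 := eq_zero_comm' h h21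
  obtain ⟨x, hx, y, hy, hxy⟩ := hU _ (hsym e₁ he₁ e₁ he₁) _ (hsym e₂ he₂ e₂ he₂) c hc h11 h22
  refine ⟨x • e₁ + y • e₂, R.add_mem (hR.smul_mem x hx e₁ he₁) (hR.smul_mem y hy e₂ he₂),
    fun i => ?_, ?_⟩
  · rw [h.add_left, h.smul_left, h.smul_left, h1 i, h2a i]; ring
  · simp only [h.add_left, h.add_right, h.smul_left, h.smul_right, h12, h21, (hfix x).1 hx,
      (hfix y).1 hy]
    linear_combination hxy

include hfix hU in
lemma exists_orat_sing {k : ℕ} (a : Fin k → V) (ha : ∀ i, a i ∈ R) (hk : k + 2 < finrank F V) :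
    ∃ r ∈ R, r ≠ 0 ∧ f r r = 0 ∧ ∀ i, f r (a i) = 0 := by
  obtain ⟨y₁, hy₁, hy₁0, h1⟩ := exists_orat_perp h hR hsym a ha (by omega)
  by_cases q1 : f y₁ y₁ = 0
  · exact ⟨y₁, hy₁, hy₁0, q1, h1⟩
  have ha1 : ∀ i, (Fin.cons y₁ a : Fin (k + 1) → V) i ∈ R := by
    intro i
    refine Fin.cases ?_ (fun j => ?_) i
    · simpa using hy₁
    · simpa using ha j
  obtain ⟨y₂, hy₂, hy₂0, h2⟩ := exists_orat_perp h hR hsym (Fin.cons y₁ a : Fin (k + 1) → V) ha1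
    (by omega)
  have h21 : f y₂ y₁ = 0 := by simpa using h2 0
  have h2a : ∀ i, f y₂ (a i) = 0 := fun i => by simpa using h2 i.succ
  by_cases q2 : f y₂ y₂ = 0
  · exact ⟨y₂, hy₂, hy₂0, q2, h2a⟩
  obtain ⟨y₃, hy₃, hy₃0, h3⟩ := exists_orat_perp h hR hsym
    (Fin.cons y₂ (Fin.cons y₁ a : Fin (k + 1) → V) : Fin (k + 1 + 1) → V) (by
      intro i
      refine Fin.cases ?_ (fun j => ?_) i
      · simpa using hy₂
      · simpa using ha1 j) (by omega)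
  have h32 : f y₃ y₂ = 0 := by simpa using h3 0
  have h31 : f y₃ y₁ = 0 := by simpa using h3 (Fin.succ 0)
  have h3a : ∀ i, f y₃ (a i) = 0 := fun i => by simpa using h3 i.succ.succ
  by_cases q3 : f y₃ y₃ = 0
  · exact ⟨y₃, hy₃, hy₃0, q3, h3a⟩
  obtain ⟨s, hs, t, ht, hst⟩ := hU _ (hsym y₂ hy₂ y₂ hy₂) _ (hsym y₃ hy₃ y₃ hy₃) (-f y₁ y₁)
    (F₀.neg_mem (hsym y₁ hy₁ y₁ hy₁)) q2 q3
  have h12 := eq_zero_comm' h h21
  have h13 := eq_zero_comm' h h31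
  have h23 := eq_zero_comm' h h32
  refine ⟨y₁ + s • y₂ + t • y₃,
    R.add_mem (R.add_mem hy₁ (hR.smul_mem s hs y₂ hy₂)) (hR.smul_mem t ht y₃ hy₃), ?_, ?_, ?_⟩
  · intro h0
    apply q1
    have : f (y₁ + s • y₂ + t • y₃) y₁ = f y₁ y₁ := by
      rw [h.add_left, h.add_left, h.smul_left, h.smul_left, h21, h31]; ring
    rw [← this, h0, h.zero_left]
  · simp only [h.add_left, h.add_right, h.smul_left, h.smul_right, h12, h13, h23, h21, h31, h32,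
      (hfix s).1 hs, (hfix t).1 ht]
    linear_combination hst
  · intro i
    rw [h.add_left, h.add_left, h.smul_left, h.smul_left, h1 i, h2a i, h3a i]; ring

omit [FiniteDimensional F V] hsym in
lemma exists_orat_ne {p : V} (hp : p ≠ 0) : ∃ r ∈ R, f r p ≠ 0 := by
  obtain ⟨v, hv⟩ := h.nondeg p hp
  obtain ⟨v₁, hv₁, v₂, hv₂, rfl⟩ := hR.decomp v
  by_cases h1 : f v₁ p = 0
  · refine ⟨v₂, hv₂, fun h2 => hv ?_⟩
    rw [h.add_left, h.smul_left, h1, h2]; ring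
  · exact ⟨v₁, hv₁, h1⟩

omit [FiniteDimensional F V] hsym in
lemma exists_orat_ne_ne {p p' : V} (hp : p ≠ 0) (hp' : p' ≠ 0) :
    ∃ z ∈ R, f z p ≠ 0 ∧ f z p' ≠ 0 := by
  obtain ⟨r₁, hr₁, h1⟩ := exists_orat_ne h hR hp
  obtain ⟨r₂, hr₂, h2⟩ := exists_orat_ne h hR hp'
  by_cases h3 : f r₁ p' = 0
  · by_cases h4 : f r₂ p = 0
    · refine ⟨r₁ + r₂, R.add_mem hr₁ hr₂, ?_, ?_⟩
      · rw [h.add_left, h4, add_zero]; exact h1
      · rw [h.add_left, h3, zero_add]; exact h2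
    · exact ⟨r₂, hr₂, h4, h2⟩
  · exact ⟨r₁, hr₁, h1, h3⟩

include hfix hω hU in
lemma exists_osing_ne_ne (hn : 8 < finrank F V) {p p' : V} (hpR : p ∈ R) (hpR' : p' ∈ R)
    (hp : p ≠ 0) (hp' : p' ≠ 0) : ∃ x ∈ R, f x x = 0 ∧ f x p ≠ 0 ∧ f x p' ≠ 0 := by
  obtain ⟨z, hz, h1, h2⟩ := exists_orat_ne_ne h hR hp hp'
  obtain ⟨r, hr, hra, hrr⟩ := exists_orat_norm h hR hfix hω hsym hU ![p, p', z] (by
    intro i
    fin_cases i
    · exact hpR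
    · exact hpR'
    · exact hz) (by omega) (c := -f z z) (F₀.neg_mem (hsym z hz z hz))
  have r1 : f r p = 0 := hra 0
  have r2 : f r p' = 0 := hra 1
  have r3 : f r z = 0 := hra 2
  refine ⟨z + r, R.add_mem hz hr, ?_, ?_, ?_⟩
  · rw [h.add_left, h.add_right, h.add_right, r3, eq_zero_comm' h r3, hrr]; ring
  · rw [h.add_left, r1, add_zero]; exact h1
  · rw [h.add_left, r2, add_zero]; exact h2

lemma exists_orat_perp_ne {y x p : V} (hy : y ∈ R) (hx : x ∈ R)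
    (hp : p ∉ Submodule.span F ({y, x} : Set V)) : ∃ r ∈ R, f r y = 0 ∧ f r x = 0 ∧ f r p ≠ 0 := by
  obtain ⟨v, hv, hvp⟩ := exists_perp_ne h _ hp
  have hvy := hv y (Submodule.subset_span (by simp))
  have hvx := hv x (Submodule.subset_span (by simp))
  obtain ⟨v₁, hv₁, v₂, hv₂, rfl⟩ := hR.decomp v
  obtain ⟨a1, a2⟩ := osym_extract h hR hsym hv₁ hv₂ hy hvy
  obtain ⟨b1, b2⟩ := osym_extract h hR hsym hv₁ hv₂ hx hvx
  by_cases h1 : f v₁ p = 0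
  · refine ⟨v₂, hv₂, a2, b2, ?_⟩
    intro h2
    apply hvp
    rw [h.add_left, h.smul_left, h1, h2]; ring
  · exact ⟨v₁, hv₁, a1, b1, h1⟩

end geom

section closure

variable {F V : Type*} [Field F] [AddCommGroup V] [Module F V] [FiniteDimensional F V]
variable {σ : F ≃+* F} {f : V → V → F} (h : UF σ f)
variable {F₀ : Subfield F} {ω : F} {R : AddSubgroup V} (hR : RatStr F₀ ω R)
variable (hfix : ∀ c, c ∈ F₀ ↔ σ c = c) (hω : σ ω = -ω) (hsym : ∀ u ∈ R, ∀ v ∈ R, f u v ∈ F₀)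
variable (h2 : (2 : F) ≠ 0)
variable (hU : ∀ α ∈ F₀, ∀ β ∈ F₀, ∀ δ ∈ F₀, α ≠ 0 → β ≠ 0 →
  ∃ x ∈ F₀, ∃ y ∈ F₀, α * x ^ 2 + β * y ^ 2 = δ)
variable {M : Subgroup (V ≃ₗ[F] V)}
include h hR hfix hω hsym

omit h hsym hω [FiniteDimensional F V] in
lemma omega_ne_zero : ω ≠ 0 := by
  rintro rfl
  exact omega_ne hR hfix (map_zero σ)

include hU in
/-- Spreading goodness over the singular rational vectors. -/
lemma osing_spread (hn : 8 < finrank F V)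
    (hH : ∀ e ∈ R, ∀ w ∈ R, ∀ c ∈ F₀, f e e = 0 → f w e = 0 → c + σ c + f w w = 0 →
      ∀ S, IsSieg f S e w c → S ∈ M)
    {a' : V} (ha' : a' ∈ R) (ha'0 : a' ≠ 0) (haa' : f a' a' = 0) (hG : GoodV σ f M a') :
    ∀ a'' ∈ R, f a'' a'' = 0 → GoodV σ f M a'' := by
  intro a'' ha'' haa''
  by_cases h0 : a'' = 0
  · subst h0; exact goodV_zero
  obtain ⟨u, hu, huu, hu1, hu2⟩ := exists_osing_ne_ne h hR hfix hω hsym hU hn ha' ha'' ha'0 h0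
  have hve : f a' u ≠ 0 := ne_zero_comm' h hu1
  have hve' : f a'' u ≠ 0 := ne_zero_comm' h hu2
  obtain ⟨v₁, hv₁⟩ : ∃ v₁, v₁ = (f a' u)⁻¹ • a' := ⟨_, rfl⟩
  obtain ⟨v₂, hv₂⟩ : ∃ v₂, v₂ = (f a'' u)⁻¹ • a'' := ⟨_, rfl⟩
  have hv₁R : v₁ ∈ R := by rw [hv₁]; exact hR.smul_mem _ (F₀.inv_mem (hsym a' ha' u hu)) a' ha'
  have hv₂R : v₂ ∈ R := by rw [hv₂]; exact hR.smul_mem _ (F₀.inv_mem (hsym a'' ha'' u hu)) a'' ha''
  have h11 : f v₁ v₁ = 0 := by rw [hv₁, h.smul_left, h.smul_right, haa']; ring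
  have h22 : f v₂ v₂ = 0 := by rw [hv₂, h.smul_left, h.smul_right, haa'']; ring
  have h1e : f v₁ u = 1 := by rw [hv₁, h.smul_left, inv_mul_cancel₀ hve]
  have h2e : f v₂ u = 1 := by rw [hv₂, h.smul_left, inv_mul_cancel₀ hve']
  have hG1 : GoodV σ f M v₁ := by rw [hv₁]; exact hG.smul h _
  have hwe : f (v₁ - v₂) u = 0 := by rw [sub_left' h, h1e, h2e]; ring
  have hc : f v₁ v₂ + σ (f v₁ v₂) + f (v₁ - v₂) (v₁ - v₂) = 0 := by
    rw [← h.herm v₂ v₁, sub_left' h, sub_right' h, sub_right' h, h11, h22]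
    ring
  obtain ⟨S, hS, hSf⟩ := exists_siegel h huu hwe hc
  have hSM : S ∈ M := hH u hu _ (R.sub_mem hv₁R hv₂R) _ (hsym v₁ hv₁R v₂ hv₂R) huu hwe hc S hSf
  have hG2 := hG1.map hSM hS.1
  have hSv : S v₁ = v₂ := by
    rw [hSf, h1e]
    have : f v₁ (v₁ - v₂) + f v₁ v₂ * 1 = 0 := by
      rw [sub_right' h, h11]; ring
    rw [this]; module
  rw [hSv] at hG2
  have := hG2.smul h (f a'' u)
  rwa [hv₂, smul_smul, mul_inv_cancel₀ hve', one_smul] at this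

include h2 in
/-- Both components singular. -/
lemma ogood_of_sing_sing (hGs : ∀ r ∈ R, f r r = 0 → GoodV σ f M r) {x₁ x₂ : V} (hx₁ : x₁ ∈ R)
    (hx₂ : x₂ ∈ R) (h11 : f x₁ x₁ = 0) (h22 : f x₂ x₂ = 0) : GoodV σ f M (x₁ + ω • x₂) := by
  have hω0 : ω ≠ 0 := omega_ne_zero hR hfix
  by_cases h12 : f x₁ x₂ = 0
  · by_cases hd : x₂ ∈ Submodule.span F {x₁}
    · obtain ⟨c, hc⟩ := Submodule.mem_span_singleton.1 hd
      have : x₁ + ω • x₂ = (1 + ω * c) • x₁ := by rw [← hc]; module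
      rw [this]; exact (hGs x₁ hx₁ h11).smul h _
    have hs : (({x₁, x₁} : Set V)) = {x₁} := by simp
    obtain ⟨z₀, hz₀, hz₀1, -, hz₀2⟩ := exists_orat_perp_ne h hR hsym hx₁ hx₁ (p := x₂) (by rwa [hs])
    have h21 : f x₂ x₁ = 0 := eq_zero_comm' h h12
    obtain ⟨k, hk⟩ : ∃ k, k = f z₀ z₀ / (2 * f z₀ x₂) := ⟨_, rfl⟩
    have hkF : k ∈ F₀ := by
      rw [hk]
      exact F₀.div_mem (hsym z₀ hz₀ z₀ hz₀)
        (F₀.mul_mem (by simp) (hsym z₀ hz₀ x₂ hx₂))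
    obtain ⟨z, hz⟩ : ∃ z, z = z₀ - k • x₂ := ⟨_, rfl⟩
    have hzR : z ∈ R := by rw [hz]; exact R.sub_mem hz₀ (hR.smul_mem k hkF x₂ hx₂)
    have hz1 : f z x₁ = 0 := by rw [hz, sub_smul_left h, hz₀1, h21]; ring
    have hz2 : f z x₂ = f z₀ x₂ := by rw [hz, sub_smul_left h, h22]; ring
    have hzz : f z z = 0 := by
      rw [hz, sub_smul_left h, sub_smul_right h, sub_smul_right h, h22, (hfix k).1 hkF,
        osym_swap h hfix hsym hz₀ hx₂, hk]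
      field_simp
      ring
    obtain ⟨φ, hφ⟩ : ∃ φ, φ = f z x₂ := ⟨_, rfl⟩
    have hφ0 : φ ≠ 0 := by rw [hφ, hz2]; exact hz₀2
    have hφF : σ φ = φ := by rw [hφ]; exact (hfix _).1 (hsym z hzR x₂ hx₂)
    have h2z : f x₂ z = φ := by rw [hφ, osym_swap h hfix hsym hzR hx₂]
    have h1z : f x₁ z = 0 := eq_zero_comm' h hz1
    have hsk : σ (-ω⁻¹ / φ) = -(-ω⁻¹ / φ) := by
      rw [map_div₀, map_neg, map_inv₀, hω, hφF, inv_neg]; ring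
    have hp := (hGs x₂ hx₂ h22).tv h (hGs z hzR hzz) hzz hsk
    rw [h2z] at hp
    have e1 : -ω⁻¹ / φ * φ = -ω⁻¹ := by field_simp
    rw [e1] at hp
    have hrr : f (x₁ + z) (x₁ + z) = 0 := by
      rw [h.add_left, h.add_right, h.add_right, h11, hzz, h1z, hz1]; ring
    have hsω : σ (-ω⁻¹) = ω⁻¹ := by rw [map_neg, map_inv₀, hω, inv_neg, neg_neg]
    have hpp : f (x₂ + (-ω⁻¹) • z) (x₂ + (-ω⁻¹) • z) = 0 := by
      rw [h.add_left, h.add_right, h.add_right, h.smul_left, h.smul_left, h.smul_right,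
        h.smul_right, h22, hzz, h2z, ← hφ, hsω]
      ring
    have hsk2 : σ (ω / φ) = -(ω / φ) := by rw [map_div₀, hω, hφF]; ring
    have hx := (hGs _ (R.add_mem hx₁ hzR) hrr).tv h hp hpp hsk2
    have e2 : f (x₁ + z) (x₂ + (-ω⁻¹) • z) = φ := by
      rw [h.add_left, h.add_right, h.add_right, h.smul_right, h.smul_right, h12, h1z, hzz, ← hφ]
      ring
    rw [e2] at hx
    have e3 : ω / φ * φ = ω := by field_simp
    rw [e3] at hx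
    have e4 : x₁ + z + ω • (x₂ + (-ω⁻¹) • z) = x₁ + ω • x₂ := by
      have : ω * ω⁻¹ = 1 := mul_inv_cancel₀ hω0
      have e5 : x₁ + z + ω • (x₂ + (-ω⁻¹) • z) = x₁ + ω • x₂ + (1 - ω * ω⁻¹) • z := by module
      rw [e5, this]; simp
    rwa [e4] at hx
  · have hF : σ (f x₁ x₂) = f x₁ x₂ := (hfix _).1 (hsym x₁ hx₁ x₂ hx₂)
    have := (hGs x₁ hx₁ h11).tv h (hGs x₂ hx₂ h22) h22 (a := ω / f x₁ x₂)
      (by rw [map_div₀, hω, hF]; ring)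
    rwa [div_mul_cancel₀ _ h12] at this

include h2 hU in
lemma ogood_all (hn : 8 < finrank F V) (hGs : ∀ r ∈ R, f r r = 0 → GoodV σ f M r) :
    ∀ x, f x x = 0 → GoodV σ f M x := by
  have hω0 : ω ≠ 0 := omega_ne_zero hR hfix
  have hω2 : ω ^ 2 ∈ F₀ := by rw [hfix, map_pow, hω]; ring
  intro x hxx
  obtain ⟨x₁, hx₁, x₂, hx₂, rfl⟩ := hR.decomp x
  rw [osym_norm h hfix hω hsym hx₁ hx₂] at hxx
  have hnorm : f x₁ x₁ = ω ^ 2 * f x₂ x₂ := by linear_combination hxx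
  by_cases h22 : f x₂ x₂ = 0
  · exact ogood_of_sing_sing h hR hfix hω hsym h2 hGs hx₁ hx₂ (by rw [hnorm, h22, mul_zero]) h22
  have hx₂0 : x₂ ≠ 0 := by
    rintro rfl
    exact h22 (h.zero_left 0)
  have hx₁0 : x₁ ≠ 0 := by
    rintro rfl
    rw [h.zero_left] at hnorm
    exact (mul_ne_zero (pow_ne_zero 2 hω0) h22) hnorm.symm
  obtain ⟨u, hu, huu, hu1, hu2⟩ := exists_osing_ne_ne h hR hfix hω hsym hU hn hx₁ hx₂ hx₁0 hx₂0
  obtain ⟨α₁, hα₁⟩ : ∃ α₁, α₁ = f x₁ u := ⟨_, rfl⟩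
  obtain ⟨α₂, hα₂⟩ : ∃ α₂, α₂ = f x₂ u := ⟨_, rfl⟩
  have hα₁0 : α₁ ≠ 0 := by rw [hα₁]; exact ne_zero_comm' h hu1
  have hα₂0 : α₂ ≠ 0 := by rw [hα₂]; exact ne_zero_comm' h hu2
  have hα₁F : α₁ ∈ F₀ := by rw [hα₁]; exact hsym x₁ hx₁ u hu
  have hα₂F : α₂ ∈ F₀ := by rw [hα₂]; exact hsym x₂ hx₂ u hu
  have hux₁ : f u x₁ = α₁ := by rw [hα₁, osym_swap h hfix hsym hx₁ hu]
  have hux₂ : f u x₂ = α₂ := by rw [hα₂, osym_swap h hfix hsym hx₂ hu]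
  obtain ⟨t, ht⟩ : ∃ t, t = -f x₂ x₂ / (2 * α₁ * α₂) := ⟨_, rfl⟩
  have htF : t ∈ F₀ := by
    rw [ht]
    exact F₀.div_mem (F₀.neg_mem (hsym x₂ hx₂ x₂ hx₂))
      (F₀.mul_mem (F₀.mul_mem (by simp) hα₁F) hα₂F)
  have hk1F : t * ω ^ 2 * α₂ ∈ F₀ := F₀.mul_mem (F₀.mul_mem htF hω2) hα₂F
  have hk2F : t * α₁ ∈ F₀ := F₀.mul_mem htF hα₁F
  have hy₁ : x₁ + (t * ω ^ 2 * α₂) • u ∈ R := R.add_mem hx₁ (hR.smul_mem _ hk1F u hu)
  have hy₂ : x₂ + (t * α₁) • u ∈ R := R.add_mem hx₂ (hR.smul_mem _ hk2F u hu)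
  have key : f x₂ x₂ + 2 * t * α₁ * α₂ = 0 := by rw [ht]; field_simp; ring
  have q2 : f (x₂ + (t * α₁) • u) (x₂ + (t * α₁) • u) = 0 := by
    rw [h.add_left, h.add_right, h.add_right, h.smul_left, h.smul_left, h.smul_right, h.smul_right,
      huu, (hfix _).1 hk2F, ← hα₂, hux₂]
    linear_combination key
  have q1 : f (x₁ + (t * ω ^ 2 * α₂) • u) (x₁ + (t * ω ^ 2 * α₂) • u) = 0 := by
    rw [h.add_left, h.add_right, h.add_right, h.smul_left, h.smul_left, h.smul_right, h.smul_right,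
      huu, (hfix _).1 hk1F, ← hα₁, hux₁, hnorm]
    linear_combination ω ^ 2 * key
  have hG' := ogood_of_sing_sing h hR hfix hω hsym h2 hGs hy₁ hy₂ q1 q2
  have hsk : σ (-(ω * t)) = -(-(ω * t)) := by
    rw [map_neg, map_mul, hω, (hfix t).1 htF]; ring
  have hx := hG'.tv h (hGs u hu huu) huu hsk
  have e1 : f (x₁ + (t * ω ^ 2 * α₂) • u + ω • (x₂ + (t * α₁) • u)) u = α₁ + ω * α₂ := by
    rw [h.add_left, h.add_left, h.smul_left, h.smul_left, h.add_left, h.smul_left, huu, ← hα₁,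
      ← hα₂]
    ring
  rw [e1] at hx
  have e2 : x₁ + (t * ω ^ 2 * α₂) • u + ω • (x₂ + (t * α₁) • u) +
      (-(ω * t) * (α₁ + ω * α₂)) • u = x₁ + ω • x₂ := by module
  rwa [e2] at hx

include h2 hU in
/-- A conjugate of a Siegel element produces a good singular rational vector. -/
lemma exists_osing_good (hn : 8 < finrank F V)
    (hH : ∀ e ∈ R, ∀ w ∈ R, ∀ c ∈ F₀, f e e = 0 → f w e = 0 → c + σ c + f w w = 0 →
      ∀ S, IsSieg f S e w c → S ∈ M)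
    {g : V ≃ₗ[F] V} (hgM : g ∈ M) (hgU : g ∈ UGrp f) {b : V} (hb : b ∈ R)
    (hnr : ¬ ∃ c : F, ∃ v' ∈ R, g⁻¹ b = c • v') :
    ∃ a ∈ R, a ≠ 0 ∧ f a a = 0 ∧ GoodV σ f M a := by
  have hω0 : ω ≠ 0 := omega_ne_zero hR hfix
  have h2F : (2 : F) ∈ F₀ := by simp
  obtain ⟨p₁, hp₁, p₂, hp₂, hbt⟩ := hR.decomp (g⁻¹ b)
  have hi2 : p₂ ∉ Submodule.span F {p₁} := by
    intro hc
    obtain ⟨c, hc⟩ := Submodule.mem_span_singleton.1 hc
    exact hnr ⟨1 + ω * c, p₁, hp₁, by rw [hbt, ← hc]; module⟩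
  have hp₁0 : p₁ ≠ 0 := by
    rintro rfl
    exact hnr ⟨ω, p₂, hp₂, by rw [hbt, zero_add]⟩
  obtain ⟨p₃, hp₃, hp₃0, hp₃a⟩ := exists_orat_perp h hR hsym ![p₁, p₂] (by
    intro i
    fin_cases i
    · exact hp₁
    · exact hp₂) (by omega)
  have h31 : f p₃ p₁ = 0 := hp₃a 0
  have h32 : f p₃ p₂ = 0 := hp₃a 1
  obtain ⟨x, hx, hxx, hx1, hx3⟩ := exists_osing_ne_ne h hR hfix hω hsym hU hn hp₁ hp₃ hp₁0 hp₃0
  obtain ⟨m, hm⟩ : ∃ m, m = f x p₁ • p₂ - f x p₂ • p₁ := ⟨_, rfl⟩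
  have hmx : m ∉ Submodule.span F ({x, x} : Set V) := by
    have hs : (({x, x} : Set V)) = {x} := by simp
    rw [hs]
    intro hc
    obtain ⟨k, hk⟩ := Submodule.mem_span_singleton.1 hc
    have e1 : f m p₃ = 0 := by
      rw [hm, sub_smul_left h, h.smul_left, eq_zero_comm' h h31, eq_zero_comm' h h32]; ring
    rw [← hk, h.smul_left] at e1
    have hk0 : k = 0 := (mul_eq_zero.1 e1).resolve_right hx3
    rw [hk0, zero_smul] at hk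
    apply hi2
    rw [Submodule.mem_span_singleton]
    refine ⟨(f x p₁)⁻¹ * f x p₂, ?_⟩
    have e2 : f x p₁ • p₂ = f x p₂ • p₁ := by
      rw [hm] at hk
      exact sub_eq_zero.1 hk.symm
    rw [mul_smul, ← e2, smul_smul, inv_mul_cancel₀ hx1, one_smul]
  obtain ⟨y, hy, hyx, -, hym⟩ := exists_orat_perp_ne h hR hsym hx hx hmx
  obtain ⟨c, hc⟩ : ∃ c, c = -f y y / 2 := ⟨_, rfl⟩
  have hcF : c ∈ F₀ := by rw [hc]; exact F₀.div_mem (F₀.neg_mem (hsym y hy y hy)) h2F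
  have hcc : c + σ c + f y y = 0 := by rw [(hfix c).1 hcF, hc]; field_simp; ring
  obtain ⟨E, -, hE⟩ := exists_siegel h hxx hyx hcc
  have hEM : E ∈ M := hH x hx y hy c hcF hxx hyx hcc E hE
  have hg' : IsSieg f (g * E * g⁻¹) (g x) (g y) c := IsSieg.conj (f := f) hE hgU
  have hg'M : g * E * g⁻¹ ∈ M := mul_mem (mul_mem hgM hEM) (inv_mem hgM)
  have hg'U : g * E * g⁻¹ ∈ UGrp f :=
    (hg'.mem h (by rw [hgU, hxx]) (by rw [hgU, hyx]) (by rw [hgU]; exact hcc)).1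
  obtain ⟨g', hg'def⟩ : ∃ g', g' = g * E * g⁻¹ := ⟨_, rfl⟩
  rw [← hg'def] at hg' hg'M hg'U
  -- the values
  obtain ⟨A₁, hA₁⟩ : ∃ A₁, A₁ = f p₁ y := ⟨_, rfl⟩
  obtain ⟨A₂, hA₂⟩ : ∃ A₂, A₂ = f p₂ y := ⟨_, rfl⟩
  obtain ⟨B₁, hB₁⟩ : ∃ B₁, B₁ = f p₁ x := ⟨_, rfl⟩
  obtain ⟨B₂, hB₂⟩ : ∃ B₂, B₂ = f p₂ x := ⟨_, rfl⟩
  have sA₁ : σ A₁ = A₁ := by rw [hA₁]; exact (hfix _).1 (hsym p₁ hp₁ y hy)
  have sA₂ : σ A₂ = A₂ := by rw [hA₂]; exact (hfix _).1 (hsym p₂ hp₂ y hy)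
  have sB₁ : σ B₁ = B₁ := by rw [hB₁]; exact (hfix _).1 (hsym p₁ hp₁ x hx)
  have sB₂ : σ B₂ = B₂ := by rw [hB₂]; exact (hfix _).1 (hsym p₂ hp₂ x hx)
  have hbv : f b (g y) = A₁ + ω * A₂ := by
    rw [← UGrp_inv_left hgU, hbt, h.add_left, h.smul_left, ← hA₁, ← hA₂]
  have hbu : f b (g x) = B₁ + ω * B₂ := by
    rw [← UGrp_inv_left hgU, hbt, h.add_left, h.smul_left, ← hB₁, ← hB₂]
  have hvb : f (g y) b = A₁ - ω * A₂ := by
    rw [h.herm, hbv, map_add, map_mul, sA₁, sA₂, hω]; ring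
  have hub : f (g x) b = B₁ - ω * B₂ := by
    rw [h.herm, hbu, map_add, map_mul, sB₁, sB₂, hω]; ring
  have hD : A₂ * B₁ - A₁ * B₂ ≠ 0 := by
    intro h0
    apply hym
    rw [hm, sub_smul_right h, h.smul_right, (hfix _).1 (hsym x hx p₁ hp₁),
      (hfix _).1 (hsym x hx p₂ hp₂), osym_swap h hfix hsym hp₁ hx, osym_swap h hfix hsym hp₂ hx,
      osym_swap h hfix hsym hp₁ hy, osym_swap h hfix hsym hp₂ hy, ← hA₁, ← hA₂, ← hB₁, ← hB₂]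
    linear_combination h0
  -- the vector `a`
  obtain ⟨u₁, hu₁, u₂, hu₂, hu⟩ := hR.decomp (g x)
  obtain ⟨v₁, hv₁, v₂, hv₂, hv⟩ := hR.decomp (g y)
  obtain ⟨a, ha, ha0, haa, haperp⟩ := exists_orat_sing h hR hfix hsym hU ![u₁, u₂, v₁, v₂, b] (by
    intro i
    fin_cases i
    · exact hu₁
    · exact hu₂
    · exact hv₁
    · exact hv₂
    · exact hb) (by omega)
  have a1 : f a u₁ = 0 := haperp 0
  have a2 : f a u₂ = 0 := haperp 1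
  have a3 : f a v₁ = 0 := haperp 2
  have a4 : f a v₂ = 0 := haperp 3
  have hab : f a b = 0 := haperp 4
  have hba : f b a = 0 := eq_zero_comm' h hab
  have hau : f a (g x) = 0 := by rw [hu, h.add_right, h.smul_right, a1, a2]; ring
  have hav : f a (g y) = 0 := by rw [hv, h.add_right, h.smul_right, a3, a4]; ring
  have hg'a : g' a = a := by rw [hg', hau, hav]; simp
  obtain ⟨y', hy'⟩ : ∃ y', y' = f (g' b) b := ⟨_, rfl⟩
  have sbb : σ (f b b) = f b b := h.self_fixed b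
  have hy'v : σ y' - y' = -(4 * ω * (A₂ * B₁ - A₁ * B₂)) := by
    have e : y' = f b b + -(B₁ + ω * B₂) * (A₁ - ω * A₂) +
        (A₁ + ω * A₂ + c * (B₁ + ω * B₂)) * (B₁ - ω * B₂) := by
      rw [hy', hg', h.add_left, h.add_left, h.smul_left, h.smul_left, hbu, hbv, hvb, hub]
    rw [e]
    simp only [map_add, map_mul, map_neg, map_sub, sA₁, sA₂, sB₁, sB₂, hω, sbb, (hfix c).1 hcF]
    ring
  have hy'0 : σ y' - y' ≠ 0 := by
    rw [hy'v]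
    have h4 : (4 : F) ≠ 0 := by
      have : (4 : F) = 2 * 2 := by norm_num
      rw [this]; exact mul_ne_zero h2 h2
    exact neg_ne_zero.2 (mul_ne_zero (mul_ne_zero h4 hω0) hD)
  refine ⟨a, ha, ha0, haa, ?_⟩
  intro κ hκ t ht
  obtain ⟨s, hs⟩ : ∃ s, s = κ / (σ y' - y') := ⟨_, rfl⟩
  have hsF : s ∈ F₀ := by
    rw [hfix, hs, map_div₀, map_sub, h.involutive, hκ]
    have : y' - σ y' = -(σ y' - y') := by ring
    rw [this, neg_div_neg_eq]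
  obtain ⟨c₁, hc₁⟩ : ∃ c₁, c₁ = -f b b / 2 := ⟨_, rfl⟩
  have hc₁F : c₁ ∈ F₀ := by rw [hc₁]; exact F₀.div_mem (F₀.neg_mem (hsym b hb b hb)) h2F
  have hcc₁ : c₁ + σ c₁ + f b b = 0 := by rw [(hfix c₁).1 hc₁F, hc₁]; field_simp; ring
  have hsb : s • b ∈ R := hR.smul_mem s hsF b hb
  obtain ⟨c₂, hc₂⟩ : ∃ c₂, c₂ = -f (s • b) (s • b) / 2 := ⟨_, rfl⟩
  have hc₂F : c₂ ∈ F₀ := by rw [hc₂]; exact F₀.div_mem (F₀.neg_mem (hsym _ hsb _ hsb)) h2F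
  have hcc₂ : c₂ + σ c₂ + f (s • b) (s • b) = 0 := by
    rw [(hfix c₂).1 hc₂F, hc₂]; field_simp; ring
  have hsba : f (s • b) a = 0 := by rw [h.smul_left, hba, mul_zero]
  obtain ⟨E₁, -, hE₁⟩ := exists_siegel h haa hba hcc₁
  obtain ⟨E₂, -, hE₂⟩ := exists_siegel h haa hsba hcc₂
  have hE₁M : E₁ ∈ M := hH a ha b hb c₁ hc₁F haa hba hcc₁ E₁ hE₁
  have hE₂M : E₂ ∈ M := hH a ha _ hsb c₂ hc₂F haa hsba hcc₂ E₂ hE₂
  have hE₃ : IsSieg f (g' * E₂ * g'⁻¹) a (g' (s • b)) c₂ := by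
    have := IsSieg.conj (f := f) hE₂ hg'U
    rwa [hg'a] at this
  have hE₃M : g' * E₂ * g'⁻¹ ∈ M := mul_mem (mul_mem hg'M hE₂M) (inv_mem hg'M)
  refine tv_of_comm h haa hba ?_ hE₁ hE₃ hE₁M hE₃M ?_
  · conv_lhs => rw [← hg'a]
    rw [hg'U, hsba]
  · intro z
    rw [ht]
    have e1 : f (g' (s • b)) b = s * y' := by rw [map_smul, h.smul_left, ← hy']
    have e2 : f b (g' (s • b)) = s * σ y' := by rw [h.herm, e1, map_mul, (hfix s).1 hsF]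
    rw [e1, e2]
    have : s * σ y' - s * y' = κ := by
      rw [← mul_sub, hs, div_mul_cancel₀ _ hy'0]
    rw [this]

end closure

section mainO

variable {F V : Type*} [Field F] [AddCommGroup V] [Module F V] [FiniteDimensional F V]
variable {σ : F ≃+* F} {f : V → V → F} (h : UF σ f)
variable {F₀ : Subfield F} {ω : F} {R : AddSubgroup V} (hR : RatStr F₀ ω R)
variable (hfix : ∀ c, c ∈ F₀ ↔ σ c = c) (hω : σ ω = -ω) (hsym : ∀ u ∈ R, ∀ v ∈ R, f u v ∈ F₀)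
variable (h2 : (2 : F) ≠ 0)
variable (hU : ∀ α ∈ F₀, ∀ β ∈ F₀, ∀ δ ∈ F₀, α ≠ 0 → β ≠ 0 →
  ∃ x ∈ F₀, ∃ y ∈ F₀, α * x ^ 2 + β * y ^ 2 = δ)
variable {M : Subgroup (V ≃ₗ[F] V)}
include h hR hfix hω hsym hU

include h2 in
theorem su_le_of_orth_subfield [Finite F] (hn : 9 ≤ finrank F V) {S' : Subgroup (V ≃ₗ[F] V)}
    (hSin : ∀ (e : V ≃ₗ[F] V) (c : F), c ≠ 0 → (∀ v ∈ R, ∃ v' ∈ R, e v = c • v') → e ∈ S')
    (hM : (UGrp f ⊓ slGrp F V) ⊓ S' ≤ M) {g : V ≃ₗ[F] V} (hgM : g ∈ M) (hgU : g ∈ UGrp f)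
    (hgS : g ∉ S') : UGrp f ⊓ slGrp F V ≤ M := by
  have : Nontrivial V := Module.nontrivial_of_finrank_pos (R := F) (by omega)
  have hH : ∀ e ∈ R, ∀ w ∈ R, ∀ c ∈ F₀, f e e = 0 → f w e = 0 → c + σ c + f w w = 0 →
      ∀ S, IsSieg f S e w c → S ∈ M := by
    intro e he w hw c hc hee hwe hcc S hS
    apply hM
    refine ⟨hS.mem h hee hwe hcc, hSin S 1 one_ne_zero (fun v hv => ⟨S v, ?_, by rw [one_smul]⟩)⟩
    rw [hS]
    exact R.add_mem (R.add_mem hv (hR.smul_mem _ (F₀.neg_mem (hsym v hv e he)) w hw))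
      (hR.smul_mem _ (F₀.add_mem (hsym v hv w hw) (F₀.mul_mem hc (hsym v hv e he))) e he)
  have hgi : g⁻¹ ∉ S' := fun hc => hgS (by simpa using inv_mem hc)
  obtain ⟨b, hb, hnr⟩ : ∃ b ∈ R, ¬ ∃ c : F, ∃ v' ∈ R, g⁻¹ b = c • v' := by
    by_contra hcon
    push Not at hcon
    obtain ⟨c, hc, hgc⟩ := hR.exists_scalar (g := g⁻¹) hcon
    exact hgi (hSin g⁻¹ c hc hgc)
  obtain ⟨a, ha, ha0, haa, hG⟩ := exists_osing_good h hR hfix hω hsym h2 hU (by omega) hH hgM hgU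
    hb hnr
  have hGs := osing_spread h hR hfix hω hsym hU (by omega) hH ha ha0 haa hG
  apply UGrp_inf_slGrp_le h (by omega)
  apply UT_of_goodV h
  exact ogood_all h hR hfix hω hsym h2 hU (by omega) hGs

theorem exists_su_not_orth_subfield (hn : 9 ≤ finrank F V) {S' : Subgroup (V ≃ₗ[F] V)}
    (hSout : ∀ e ∈ S', ∃ c : F, c ≠ 0 ∧ ∀ v ∈ R, ∃ v' ∈ R, e v = c • v') :
    ∃ t ∈ UGrp f ⊓ slGrp F V, t ∉ S' := by
  obtain ⟨u, hu, hu0, huu, -⟩ := exists_orat_sing h hR hfix hsym hU (k := 0) ![]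
    (fun i => i.elim0) (by omega)
  have hl : ω + σ ω + ω * σ ω * f u u = 0 := by rw [hω, huu]; ring
  obtain ⟨t, ht⟩ := exists_sim h hl
  refine ⟨t, ⟨mem_UGrp_of_formula h hl ht, ?_⟩, fun hc => ?_⟩
  · change LinearEquiv.det t = 1
    apply Units.ext
    rw [det_of_formula h ht, huu]; simp
  obtain ⟨c, hc0, hc⟩ := hSout t hc
  have hcF : c ∈ F₀ := by
    obtain ⟨v', hv', htv⟩ := hc u hu
    rw [ht, huu, mul_zero, zero_smul, add_zero] at htv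
    have hv'0 : v' ≠ 0 := by
      rintro rfl
      rw [smul_zero] at htv
      exact hu0 htv
    exact hR.mem_of_smul hu hv' hv'0 htv
  obtain ⟨x, hx, hxu⟩ := exists_orat_ne h hR hu0
  obtain ⟨x', hx', htx⟩ := hc x hx
  rw [ht] at htx
  have hr : (ω * f x u) • u ∈ R := by
    have : (ω * f x u) • u = c • x' - x := by rw [← htx]; abel
    rw [this]
    exact R.sub_mem (hR.smul_mem c hcF x' hx') hx
  have h1 : ω * f x u ∈ F₀ := hR.mem_of_smul hr hu hu0 rfl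
  have h3 : ω ∈ F₀ := by
    have : ω = ω * f x u / f x u := by field_simp
    rw [this]
    exact F₀.div_mem h1 (hsym x hx u hu)
  exact omega_ne hR hfix ((hfix ω).1 h3)

end mainO

end Cfsg.Agent.Lib.Helper97
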