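import Cfsg.Agent.Lib.Helper97.SURat

set_option autoImplicit false

/-! The symplectic subfield subgroup is maximal in the special unitary group. -/

namespace Cfsg.Agent.Lib.Helper97

open Module Cfsg.Agent.Lib.Helper95

section general

variable {F V : Type*} [Field F] [AddCommGroup V] [Module F V]
variable {F₀ : Subfield F} {ω : F} {R : AddSubgroup V} (hR : RatStr F₀ ω R)
include hR

lemma RatStr.mem_of_smul {c : F} {y v : V} (hy : y ∈ R) (hv : v ∈ R) (hv0 : v ≠ 0)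
    (hyv : y = c • v) : c ∈ F₀ := by
  obtain ⟨a, ha, b, hb, rfl⟩ := hR.fdecomp c
  have h1 : (y - a • v) + ω • (-(b • v)) = 0 := by rw [hyv]; module
  obtain ⟨-, h2⟩ := hR.unique _ (R.sub_mem hy (hR.smul_mem a ha v hv)) _
    (R.neg_mem (hR.smul_mem b hb v hv)) h1
  have h3 : b = 0 := by
    rcases smul_eq_zero.1 (neg_eq_zero.1 h2) with h3 | h3
    · exact h3
    · exact absurd h3 hv0
  rw [h3, mul_zero, add_zero]; exact ha

/-- A linear automorphism mapping rational points to rational points maps `R` into `c • R`. -/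
lemma RatStr.exists_scalar [Nontrivial V] {g : V ≃ₗ[F] V}
    (hg : ∀ v ∈ R, ∃ c : F, ∃ v' ∈ R, g v = c • v') :
    ∃ c : F, c ≠ 0 ∧ ∀ v ∈ R, ∃ v' ∈ R, g v = c • v' := by
  obtain ⟨v₀, hv₀, hv₀0⟩ : ∃ v₀ ∈ R, v₀ ≠ 0 := by
    obtain ⟨x, hx⟩ := exists_ne (0 : V)
    obtain ⟨x₁, hx₁, x₂, hx₂, rfl⟩ := hR.decomp x
    by_cases h1 : x₁ = 0
    · refine ⟨x₂, hx₂, ?_⟩
      rintro rfl
      apply hx
      rw [h1]; simp
    · exact ⟨x₁, hx₁, h1⟩
  obtain ⟨c₀, w₀, hw₀, hgv₀⟩ := hg v₀ hv₀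
  have hgv₀0 : g v₀ ≠ 0 := by simpa using hv₀0
  have hc₀ : c₀ ≠ 0 := by
    rintro rfl
    rw [zero_smul] at hgv₀
    exact hgv₀0 hgv₀
  have hw₀0 : w₀ ≠ 0 := by
    rintro rfl
    rw [smul_zero] at hgv₀
    exact hgv₀0 hgv₀
  refine ⟨c₀, hc₀, fun v hv => ?_⟩
  obtain ⟨d, w, hw, hgv⟩ := hg v hv
  obtain ⟨e, w', hw', hgvv⟩ := hg (v + v₀) (R.add_mem hv hv₀)
  obtain ⟨d₁, hd₁, d₂, hd₂, hd⟩ := hR.fdecomp (d / c₀)
  obtain ⟨e₁, he₁, e₂, he₂, he⟩ := hR.fdecomp (e / c₀)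
  have hd' : d = c₀ * (d₁ + ω * d₂) := by rw [← hd]; field_simp
  have he' : e = c₀ * (e₁ + ω * e₂) := by rw [← he]; field_simp
  have h1 : d • w + c₀ • w₀ = e • w' := by rw [← hgv, ← hgv₀, ← hgvv, map_add]
  have h2 : (d₁ • w + w₀ - e₁ • w') + ω • (d₂ • w - e₂ • w') = 0 := by
    have h3 : c₀ • ((d₁ • w + w₀ - e₁ • w') + ω • (d₂ • w - e₂ • w')) = 0 := by
      have : c₀ • ((d₁ • w + w₀ - e₁ • w') + ω • (d₂ • w - e₂ • w')) =
          (c₀ * (d₁ + ω * d₂)) • w + c₀ • w₀ - (c₀ * (e₁ + ω * e₂)) • w' := by module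
      rw [this, ← hd', ← he', h1, sub_self]
    rcases smul_eq_zero.1 h3 with h4 | h4
    · exact absurd h4 hc₀
    · exact h4
  obtain ⟨h3, h4⟩ := hR.unique _
    (R.sub_mem (R.add_mem (hR.smul_mem d₁ hd₁ w hw) hw₀) (hR.smul_mem e₁ he₁ w' hw')) _
    (R.sub_mem (hR.smul_mem d₂ hd₂ w hw) (hR.smul_mem e₂ he₂ w' hw')) h2
  by_cases hdw : d₂ • w = 0
  · refine ⟨d₁ • w, hR.smul_mem d₁ hd₁ w hw, ?_⟩
    rw [hgv, hd']
    have : (c₀ * (d₁ + ω * d₂)) • w = c₀ • d₁ • w + (c₀ * ω) • d₂ • w := by module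
    rw [this, hdw, smul_zero, add_zero]
  · have he₂0 : e₂ ≠ 0 := by
      rintro rfl
      rw [zero_smul, sub_zero] at h4
      exact hdw h4
    have hw'eq : w' = (d₂ / e₂) • w := by
      have : e₂ • w' = d₂ • w := (sub_eq_zero.1 h4).symm
      rw [div_eq_inv_mul, mul_smul, ← this, smul_smul, inv_mul_cancel₀ he₂0, one_smul]
    have hw₀eq : w₀ = (e₁ * (d₂ / e₂) - d₁) • w := by
      have : w₀ = e₁ • w' - d₁ • w := by
        have := sub_eq_zero.1 h3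
        rw [← this]; abel
      rw [this, hw'eq]; module
    obtain ⟨k, hk⟩ : ∃ k, k = e₁ * (d₂ / e₂) - d₁ := ⟨_, rfl⟩
    rw [← hk] at hw₀eq
    have hk0 : k ≠ 0 := by
      rintro rfl
      rw [zero_smul] at hw₀eq
      exact hw₀0 hw₀eq
    have hweq : w = k⁻¹ • w₀ := by rw [hw₀eq, smul_smul, inv_mul_cancel₀ hk0, one_smul]
    have hgv' : g v = g ((d * k⁻¹ / c₀) • v₀) := by
      rw [map_smul, hgv₀, hgv, hweq, smul_smul, smul_smul]
      congr 1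
      field_simp
    have hv' : v = (d * k⁻¹ / c₀) • v₀ := g.injective hgv'
    have hl := hR.mem_of_smul hv hv₀ hv₀0 hv'
    refine ⟨(d * k⁻¹ / c₀) • w₀, hR.smul_mem _ hl w₀ hw₀, ?_⟩
    rw [hgv', map_smul, hgv₀, smul_comm]

end general

section symp

variable {F V : Type*} [Field F] [Finite F] [AddCommGroup V] [Module F V] [FiniteDimensional F V]
variable {σ : F ≃+* F} {f : V → V → F} (h : UF σ f)
variable {F₀ : Subfield F} {ω : F} {R : AddSubgroup V} (hR : RatStr F₀ ω R)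
variable (hfix : ∀ c, c ∈ F₀ ↔ σ c = c) (halt : ∀ u ∈ R, f u u = 0)
variable {M : Subgroup (V ≃ₗ[F] V)}
include h halt

omit [Finite F] [FiniteDimensional F V] in
lemma rat_swap {u v : V} (hu : u ∈ R) (hv : v ∈ R) : f v u = -f u v := by
  have := halt (u + v) (R.add_mem hu hv)
  rw [h.add_left, h.add_right, h.add_right, halt u hu, halt v hv] at this
  linear_combination this

omit [Finite F] [FiniteDimensional F V] in
lemma rat_skew {u v : V} (hu : u ∈ R) (hv : v ∈ R) : σ (f u v) = -f u v := by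
  rw [← h.herm v u, rat_swap h halt hu hv]

include hR hfix

omit [Finite F] [FiniteDimensional F V] in
lemma rat_extract {v₁ v₂ y : V} (hv₁ : v₁ ∈ R) (hv₂ : v₂ ∈ R) (hy : y ∈ R)
    (h0 : f (v₁ + ω • v₂) y = 0) : f v₁ y = 0 ∧ f v₂ y = 0 := by
  obtain ⟨ζ, hζ0, hζ⟩ := exists_skew σ h.ne_refl h.involutive
  have m1 : ζ * f v₁ y ∈ F₀ := by
    rw [hfix, map_mul, hζ, rat_skew h halt hv₁ hy]; ring
  have m2 : ζ * f v₂ y ∈ F₀ := by
    rw [hfix, map_mul, hζ, rat_skew h halt hv₂ hy]; ring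
  rw [h.add_left, h.smul_left] at h0
  obtain ⟨e1, e2⟩ := hR.funique _ m1 _ m2 (by linear_combination ζ * h0)
  exact ⟨(mul_eq_zero.1 e1).resolve_left hζ0, (mul_eq_zero.1 e2).resolve_left hζ0⟩

omit [Finite F] in
/-- Rational vectors orthogonal to two rational vectors and not orthogonal to a vector outside
their span. -/
lemma exists_rat_perp {y x p : V} (hy : y ∈ R) (hx : x ∈ R)
    (hp : p ∉ Submodule.span F ({y, x} : Set V)) : ∃ r ∈ R, f r y = 0 ∧ f r x = 0 ∧ f r p ≠ 0 := by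
  obtain ⟨v, hv, hvp⟩ := exists_perp_ne h _ hp
  have hvy := hv y (Submodule.subset_span (by simp))
  have hvx := hv x (Submodule.subset_span (by simp))
  obtain ⟨v₁, hv₁, v₂, hv₂, rfl⟩ := hR.decomp v
  obtain ⟨a1, a2⟩ := rat_extract h hR hfix halt hv₁ hv₂ hy hvy
  obtain ⟨b1, b2⟩ := rat_extract h hR hfix halt hv₁ hv₂ hx hvx
  by_cases h1 : f v₁ p = 0
  · refine ⟨v₂, hv₂, a2, b2, ?_⟩
    intro h2
    apply hvp
    rw [h.add_left, h.smul_left, h1, h2]; ring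
  · exact ⟨v₁, hv₁, a1, b1, h1⟩

omit hR hfix [Finite F] [FiniteDimensional F V] in
lemma good_step1 (hG : ∀ r ∈ R, GoodV σ f M r) {y₁ y₂ z : V} (hy₁ : y₁ ∈ R) (hz : z ∈ R)
    (h21 : f y₂ y₁ = 0) (h2z : f y₂ z = 0) (h1z : f y₁ z ≠ 0) (α β : F)
    (hg : GoodV σ f M (α • y₁ + β • y₂)) : GoodV σ f M (α • z + β • y₂) := by
  have hu : z - y₁ ∈ R := R.sub_mem hz hy₁
  have ha : σ (f y₁ z)⁻¹ = -(f y₁ z)⁻¹ := by
    rw [map_inv₀, rat_skew h halt hy₁ hz, inv_neg]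
  have := hg.tv h (hG _ hu) (halt _ hu) ha
  rw [h.add_left, h.smul_left, h.smul_left, sub_right' h, sub_right' h, halt y₁ hy₁, h21, h2z] at this
  have e : (f y₁ z)⁻¹ * (α * (f y₁ z - 0) + β * (0 - 0)) = α := by field_simp; ring
  rw [e] at this
  have e2 : α • y₁ + β • y₂ + α • (z - y₁) = α • z + β • y₂ := by module
  rwa [e2] at this

omit [Finite F] in
lemma good_step (hG : ∀ r ∈ R, GoodV σ f M r) {y₁ y₂ z : V} (hy₁ : y₁ ∈ R) (hy₂ : y₂ ∈ R)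
    (hz : z ∈ R) (h21 : f y₂ y₁ = 0) (h2z : f y₂ z = 0) (hi1 : y₁ ∉ Submodule.span F {y₂})
    (hiz : z ∉ Submodule.span F {y₂}) (α β : F)
    (hg : GoodV σ f M (α • y₁ + β • y₂)) : GoodV σ f M (α • z + β • y₂) := by
  by_cases h1z : f y₁ z = 0
  · have hs : (({y₂, y₂} : Set V)) = {y₂} := by simp
    obtain ⟨p₁, hp₁, a1, -, a2⟩ := exists_rat_perp h hR hfix halt hy₂ hy₂ (p := y₁) (by rwa [hs])
    obtain ⟨p₂, hp₂, b1, -, b2⟩ := exists_rat_perp h hR hfix halt hy₂ hy₂ (p := z) (by rwa [hs])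
    obtain ⟨z', hz', c1, c2, c3⟩ : ∃ z' ∈ R, f z' y₂ = 0 ∧ f z' y₁ ≠ 0 ∧ f z' z ≠ 0 := by
      by_cases h3 : f p₁ z = 0
      · by_cases h4 : f p₂ y₁ = 0
        · refine ⟨p₁ + p₂, R.add_mem hp₁ hp₂, ?_, ?_, ?_⟩
          · rw [h.add_left, a1, b1, add_zero]
          · rw [h.add_left, h4, add_zero]; exact a2
          · rw [h.add_left, h3, zero_add]; exact b2
        · exact ⟨p₂, hp₂, b1, h4, b2⟩
      · exact ⟨p₁, hp₁, a1, a2, h3⟩
    have s1 := good_step1 h halt hG hy₁ hz' h21 (eq_zero_comm' h c1) (ne_zero_comm' h c2) α β hg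
    exact good_step1 h halt hG hz' hz (eq_zero_comm' h c1) h2z c3 α β s1
  · exact good_step1 h halt hG hy₁ hz h21 h2z h1z α β hg

omit [Finite F] in
/-- A rational vector orthogonal to `y` and `x` and not a multiple of either. -/
lemma exists_rat_aux (hn : 5 ≤ finrank F V) {y x : V} (hy : y ∈ R) (hx : x ∈ R) :
    ∃ z ∈ R, f z y = 0 ∧ f z x = 0 ∧ z ∉ Submodule.span F {y} ∧ z ∉ Submodule.span F {x} := by
  classical
  obtain ⟨p, hpm, hp⟩ : ∃ p ∈ LinearMap.ker (h.hat y) ⊓ LinearMap.ker (h.hat x),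
      p ∉ Submodule.span F ({y, x} : Set V) := by
    by_contra hcon
    push Not at hcon
    have h1 : LinearMap.ker (h.hat y) ⊓ LinearMap.ker (h.hat x) ≤
        Submodule.span F ({y, x} : Set V) := hcon
    have h2 := Submodule.finrank_mono h1
    have h3 : finrank F (Submodule.span F ({y, x} : Set V)) ≤ 2 := by
      have := (finrank_span_finset_le_card (R := F) ({y, x} : Finset V)).trans Finset.card_le_two
      rw [Finset.coe_insert, Finset.coe_singleton] at this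
      exact this
    have h4 := UF.finrank_inf_ker (⊤ : Submodule F V) (h.hat y)
    have h5 := UF.finrank_inf_ker (⊤ ⊓ LinearMap.ker (h.hat y) : Submodule F V) (h.hat x)
    rw [top_inf_eq] at h4 h5
    rw [finrank_top] at h4
    omega
  obtain ⟨hpy, hpx⟩ := hpm
  have hpy : f p y = 0 := hpy
  have hpx : f p x = 0 := hpx
  obtain ⟨z, hz, hzy, hzx, hzp⟩ := exists_rat_perp h hR hfix halt hy hx hp
  refine ⟨z, hz, hzy, hzx, ?_, ?_⟩
  · intro hc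
    obtain ⟨c, rfl⟩ := Submodule.mem_span_singleton.1 hc
    apply hzp
    rw [h.smul_left, eq_zero_comm' h hpy, mul_zero]
  · intro hc
    obtain ⟨c, rfl⟩ := Submodule.mem_span_singleton.1 hc
    apply hzp
    rw [h.smul_left, eq_zero_comm' h hpx, mul_zero]

omit h halt hR hfix [Finite F] [FiniteDimensional F V] in
lemma not_mem_span_symm {a b : V} (ha0 : a ≠ 0) (hb : b ∉ Submodule.span F {a}) :
    a ∉ Submodule.span F {b} := by
  intro hc
  obtain ⟨c, hc⟩ := Submodule.mem_span_singleton.1 hc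
  have hc0 : c ≠ 0 := by
    rintro rfl
    rw [zero_smul] at hc
    exact ha0 hc.symm
  apply hb
  rw [Submodule.mem_span_singleton]
  exact ⟨c⁻¹, by rw [← hc, smul_smul, inv_mul_cancel₀ hc0, one_smul]⟩

omit h halt [Finite F] [FiniteDimensional F V] in
lemma omega_ne : σ ω ≠ ω := by
  intro hc
  have h1 : ω ∈ F₀ := (hfix ω).2 hc
  have := (hR.funique (-ω) (F₀.neg_mem h1) 1 F₀.one_mem (by ring)).2
  exact one_ne_zero this

omit [Finite F] [FiniteDimensional F V] in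
lemma rat_iso {x₁ x₂ : V} (hx₁ : x₁ ∈ R) (hx₂ : x₂ ∈ R)
    (hxx : f (x₁ + ω • x₂) (x₁ + ω • x₂) = 0) : f x₁ x₂ = 0 := by
  rw [h.add_left, h.add_right, h.add_right, h.smul_left, h.smul_left, h.smul_right, h.smul_right,
    halt x₁ hx₁, halt x₂ hx₂, rat_swap h halt hx₁ hx₂] at hxx
  have h1 : (σ ω - ω) * f x₁ x₂ = 0 := by linear_combination hxx
  rcases mul_eq_zero.1 h1 with h2 | h2
  · exact absurd (sub_eq_zero.1 h2) (omega_ne hR hfix)
  · exact h2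

theorem su_le_of_symp_subfield (hn : 7 ≤ finrank F V) {S' : Subgroup (V ≃ₗ[F] V)}
    (hSin : ∀ (e : V ≃ₗ[F] V) (c : F), c ≠ 0 → (∀ v ∈ R, ∃ v' ∈ R, e v = c • v') → e ∈ S')
    (hM : (UGrp f ⊓ slGrp F V) ⊓ S' ≤ M) {g : V ≃ₗ[F] V} (hgM : g ∈ M) (hgU : g ∈ UGrp f)
    (hgS : g ∉ S') : UGrp f ⊓ slGrp F V ≤ M := by
  have : Nontrivial V := Module.nontrivial_of_finrank_pos (R := F) (by omega)
  have hG : ∀ r ∈ R, GoodV σ f M r := by
    intro r hr a ha t ht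
    have hl : a + σ a + a * σ a * f r r = 0 := by rw [ha, halt r hr]; ring
    apply hM
    refine ⟨⟨mem_UGrp_of_formula h hl ht, ?_⟩,
      hSin t 1 one_ne_zero (fun v hv => ⟨t v, ?_, by rw [one_smul]⟩)⟩
    · change LinearEquiv.det t = 1
      apply Units.ext
      rw [det_of_formula h ht, halt r hr]; simp
    · rw [ht]
      exact R.add_mem hv (hR.smul_mem _
        (by rw [hfix, map_mul, ha, rat_skew h halt hv hr]; ring) r hr)
  obtain ⟨v₀, hv₀, hnr⟩ : ∃ v₀ ∈ R, ¬ ∃ c : F, ∃ v' ∈ R, g v₀ = c • v' := by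
    by_contra hcon
    push Not at hcon
    obtain ⟨c, hc, hgc⟩ := hR.exists_scalar (g := g) hcon
    exact hgS (hSin g c hc hgc)
  obtain ⟨w₁, hw₁, w₂, hw₂, hw⟩ := hR.decomp (g v₀)
  have hGw : GoodV σ f M (w₁ + ω • w₂) := by rw [← hw]; exact (hG v₀ hv₀).map hgM hgU
  have hww : f (w₁ + ω • w₂) (w₁ + ω • w₂) = 0 := by rw [← hw, hgU, halt v₀ hv₀]
  have hw12 : f w₁ w₂ = 0 := rat_iso h hR hfix halt hw₁ hw₂ hww
  have hi1 : w₁ ∉ Submodule.span F {w₂} := by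
    intro hc
    obtain ⟨c, hc⟩ := Submodule.mem_span_singleton.1 hc
    exact hnr ⟨c + ω, w₂, hw₂, by rw [hw, ← hc]; module⟩
  have hi2 : w₂ ∉ Submodule.span F {w₁} := by
    intro hc
    obtain ⟨c, hc⟩ := Submodule.mem_span_singleton.1 hc
    exact hnr ⟨1 + ω * c, w₁, hw₁, by rw [hw, ← hc]; module⟩
  have hw₂0 : w₂ ≠ 0 := by
    rintro rfl
    exact hi2 (Submodule.zero_mem _)
  apply UGrp_inf_slGrp_le h hn
  apply UT_of_goodV h
  intro x hxx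
  obtain ⟨x₁, hx₁, x₂, hx₂, rfl⟩ := hR.decomp x
  by_cases d1 : x₁ ∈ Submodule.span F {x₂}
  · obtain ⟨c, hc⟩ := Submodule.mem_span_singleton.1 d1
    have : x₁ + ω • x₂ = (c + ω) • x₂ := by rw [← hc]; module
    rw [this]; exact (hG x₂ hx₂).smul h _
  by_cases d2 : x₂ ∈ Submodule.span F {x₁}
  · obtain ⟨c, hc⟩ := Submodule.mem_span_singleton.1 d2
    have : x₁ + ω • x₂ = (1 + ω * c) • x₁ := by rw [← hc]; module
    rw [this]; exact (hG x₁ hx₁).smul h _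
  have hx₂0 : x₂ ≠ 0 := by
    rintro rfl
    exact d2 (Submodule.zero_mem _)
  have hx12 : f x₁ x₂ = 0 := rat_iso h hR hfix halt hx₁ hx₂ hxx
  obtain ⟨z, hz, hzw, hzx, hzw', hzx'⟩ := exists_rat_aux h hR hfix halt (by omega) hw₂ hx₂
  have sA := good_step h hR hfix halt hG hw₁ hw₂ hz (eq_zero_comm' h hw12) (eq_zero_comm' h hzw) hi1
    hzw' 1 ω (by rwa [one_smul])
  have sB := good_step h hR hfix halt hG hw₂ hz hx₂ hzw hzx (not_mem_span_symm hw₂0 hzw')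
    (not_mem_span_symm hx₂0 hzx') ω 1 (by rwa [add_comm])
  have sC := good_step h hR hfix halt hG hz hx₂ hx₁ (eq_zero_comm' h hzx) (eq_zero_comm' h hx12) hzx'
    d1 1 ω (by rwa [add_comm])
  rwa [one_smul] at sC

omit [Finite F] in
theorem exists_su_not_symp_subfield (hn : 7 ≤ finrank F V) {S' : Subgroup (V ≃ₗ[F] V)}
    (hSout : ∀ e ∈ S', ∃ c : F, c ≠ 0 ∧ ∀ v ∈ R, ∃ v' ∈ R, e v = c • v') :
    ∃ t ∈ UGrp f ⊓ slGrp F V, t ∉ S' := by
  have : Nontrivial V := Module.nontrivial_of_finrank_pos (R := F) (by omega)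
  obtain ⟨x₂, hx₂, hx₂0⟩ : ∃ v₀ ∈ R, v₀ ≠ 0 := by
    obtain ⟨x, hx⟩ := exists_ne (0 : V)
    obtain ⟨x₁, hx₁, x₂, hx₂, rfl⟩ := hR.decomp x
    by_cases h1 : x₁ = 0
    · refine ⟨x₂, hx₂, ?_⟩
      rintro rfl
      apply hx
      rw [h1]; simp
    · exact ⟨x₁, hx₁, h1⟩
  obtain ⟨x₁, hx₁, hx12, -, hi, -⟩ := exists_rat_aux h hR hfix halt (by omega) hx₂ hx₂
  have hx21 : f x₂ x₁ = 0 := eq_zero_comm' h hx12
  obtain ⟨x, hx⟩ : ∃ x, x = x₁ + ω • x₂ := ⟨_, rfl⟩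
  have hxx : f x x = 0 := by
    rw [hx, h.add_left, h.add_right, h.add_right, h.smul_left, h.smul_left, h.smul_right,
      h.smul_right, halt x₁ hx₁, halt x₂ hx₂, hx12, hx21]
    ring
  have hx0 : x ≠ 0 := by
    intro h0
    rw [hx] at h0
    exact hx₂0 (hR.unique x₁ hx₁ x₂ hx₂ h0).2
  obtain ⟨a, ha0, ha⟩ := exists_skew σ h.ne_refl h.involutive
  have hl : a + σ a + a * σ a * f x x = 0 := by rw [ha, hxx]; ring
  obtain ⟨t, ht⟩ := exists_sim h hl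
  refine ⟨t, ⟨mem_UGrp_of_formula h hl ht, ?_⟩, fun hc => ?_⟩
  · change LinearEquiv.det t = 1
    apply Units.ext
    rw [det_of_formula h ht, hxx]; simp
  obtain ⟨c, hc0, hc⟩ := hSout t hc
  have hcF : c ∈ F₀ := by
    obtain ⟨v', hv', htv⟩ := hc x₂ hx₂
    have h2x : f x₂ x = 0 := by
      rw [hx, h.add_right, h.smul_right, hx21, halt x₂ hx₂]; ring
    rw [ht, h2x, mul_zero, zero_smul, add_zero] at htv
    have hv'0 : v' ≠ 0 := by
      rintro rfl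
      rw [smul_zero] at htv
      exact hx₂0 htv
    exact hR.mem_of_smul hx₂ hv' hv'0 htv
  obtain ⟨p, hp, hpx⟩ : ∃ p ∈ R, f p x ≠ 0 := by
    obtain ⟨v, hv⟩ := h.nondeg x hx0
    obtain ⟨v₁, hv₁, v₂, hv₂, rfl⟩ := hR.decomp v
    by_cases h1 : f v₁ x = 0
    · refine ⟨v₂, hv₂, fun h2 => hv ?_⟩
      rw [h.add_left, h.smul_left, h1, h2]; ring
    · exact ⟨v₁, hv₁, h1⟩
  obtain ⟨p', hp', htp⟩ := hc p hp
  obtain ⟨μ, hμ⟩ : ∃ μ, μ = a * f p x := ⟨_, rfl⟩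
  have hμ0 : μ ≠ 0 := by rw [hμ]; exact mul_ne_zero ha0 hpx
  rw [ht, ← hμ] at htp
  have hr : μ • x ∈ R := by
    have : μ • x = c • p' - p := by rw [← htp]; abel
    rw [this]
    exact R.sub_mem (hR.smul_mem c hcF p' hp') hp
  obtain ⟨m₁, hm₁, m₂, hm₂, hm⟩ := hR.fdecomp μ⁻¹
  have e1 : (x₁ - m₁ • (μ • x)) + ω • (x₂ - m₂ • (μ • x)) = 0 := by
    have : x = (μ⁻¹ * μ) • x := by rw [inv_mul_cancel₀ hμ0, one_smul]
    have e2 : (x₁ - m₁ • (μ • x)) + ω • (x₂ - m₂ • (μ • x)) =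
        (x₁ + ω • x₂) - ((m₁ + ω * m₂) * μ) • x := by module
    rw [e2, ← hm, ← this, hx, sub_self]
  obtain ⟨e3, e4⟩ := hR.unique _ (R.sub_mem hx₁ (hR.smul_mem m₁ hm₁ _ hr)) _
    (R.sub_mem hx₂ (hR.smul_mem m₂ hm₂ _ hr)) e1
  have hm₂0 : m₂ ≠ 0 := by
    rintro rfl
    rw [zero_smul, sub_zero] at e4
    exact hx₂0 e4
  apply hi
  rw [Submodule.mem_span_singleton]
  refine ⟨m₁ * m₂⁻¹, ?_⟩
  rw [sub_eq_zero.1 e3]
  conv_lhs => rw [sub_eq_zero.1 e4]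
  rw [smul_smul, mul_assoc, inv_mul_cancel₀ hm₂0, mul_one]

end symp

end Cfsg.Agent.Lib.Helper97
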