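import Mathlib
import Cfsg.Agent.Lib.Helper97.QExt
import Cfsg.Agent.Lib.Helper97.UGeo

set_option autoImplicit false

namespace Cfsg.Agent.Lib.Helper97

open Cfsg.Agent.Lib.Helper95 Module QuadraticAlgebra

section form

variable {F V : Type*} [Field F] [AddCommGroup V] [Module F V] {δ : F}
variable [Module (QuadraticAlgebra F δ 0) V] [IsScalarTower F (QuadraticAlgebra F δ 0) V]

/-- The hermitian form attached to an alternating form for which `ω` is skew. -/
def hS (B : LinearMap.BilinForm F V) (x y : V) : QuadraticAlgebra F δ 0 :=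
  ⟨B ((ω : QuadraticAlgebra F δ 0) • x) y, B x y⟩

/-- conjugation of the quadratic algebra as a ring automorphism. -/
def qconj (a b : F) : QuadraticAlgebra F a b ≃+* QuadraticAlgebra F a b := starRingAut

@[simp] lemma qconj_apply (a b : F) (k : QuadraticAlgebra F a b) : qconj a b k = star k := rfl

variable {B : LinearMap.BilinForm F V}

@[simp] lemma hS_re (x y : V) : (hS (δ := δ) B x y).re = B ((ω : QuadraticAlgebra F δ 0) • x) y := rfl
@[simp] lemma hS_im (x y : V) : (hS (δ := δ) B x y).im = B x y := rfl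

variable [Fact (∀ r : F, r ^ 2 ≠ δ + 0 * r)]

lemma hS_uf (h2 : (2 : F) ≠ 0) (hB : B.IsAlt) (hnd : B.Nondegenerate)
    (hsk : ∀ x y, B ((ω : QuadraticAlgebra F δ 0) • x) y = - B x ((ω : QuadraticAlgebra F δ 0) • y)) :
    UF (qconj δ 0) (hS (δ := δ) B) where
  ne_refl := by
    intro h
    have h1 := congrArg (fun e : QuadraticAlgebra F δ 0 ≃+* QuadraticAlgebra F δ 0 =>
      (e (ω : QuadraticAlgebra F δ 0)).im) h
    simp only [qconj_apply, im_star, omega_im, RingEquiv.refl_apply] at h1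
    apply h2
    linear_combination -h1
  involutive := fun a => by simp
  add_left := fun x y v => by
    ext <;> simp [smul_add]
  smul_left := fun c x v => by
    ext
    · simp only [hS_re, re_mul, hS_im]
      rw [qsmul_eq c x, smul_add, omega_smul_smul, omega_smul_smul, omega_omega_smul]
      simp only [map_add, map_smul, LinearMap.add_apply, LinearMap.smul_apply, smul_eq_mul]
      ring
    · simp only [hS_re, im_mul, hS_im]
      rw [qsmul_eq c x]
      simp only [map_add, map_smul, LinearMap.add_apply, LinearMap.smul_apply, smul_eq_mul]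
      ring
  herm := fun v w => by
    ext
    · simp only [hS_re, qconj_apply, re_star, hS_im]
      rw [hsk v w, alt_swap hB]
      ring
    · simp only [hS_im, qconj_apply, im_star]
      rw [alt_swap hB]
  nondeg := fun v hv => by
    by_contra hcon
    push Not at hcon
    apply hv
    apply hnd.2 v
    intro x
    have := congrArg QuadraticAlgebra.im (hcon x)
    simpa using this

end form

section pairs

variable {F V : Type*} [Field F] [AddCommGroup V] [Module F V]
variable {B : LinearMap.BilinForm F V} (hB : B.IsAlt)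

/-- The pairs `(a, b)` with `t_a(c δ) t_b(-c) ∈ M` for all `c`. -/
def GoodP (hB : B.IsAlt) (M : Subgroup (V ≃ₗ[F] V)) (δ : F) (a b : V) : Prop :=
  ∀ c : F, stv B hB a (c * δ) * stv B hB b (-c) ∈ M

variable {M : Subgroup (V ≃ₗ[F] V)} {δ : F}

lemma stv_neg_left (v : V) (c : F) : stv B hB (-v) c = stv B hB v c := by
  have := stv_smul hB v (-1) c
  simpa using this

lemma goodP_conj {a b : V} (hg : GoodP hB M δ a b) {n : V ≃ₗ[F] V} (hn : n ∈ M)
    (hn' : n ∈ isoGrp B) : GoodP hB M δ (n a) (n b) := by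
  intro c
  have e : stv B hB (n a) (c * δ) * stv B hB (n b) (-c) =
      n * (stv B hB a (c * δ) * stv B hB b (-c)) * n⁻¹ := by
    rw [← conj_stv hB hn', ← conj_stv hB hn']
    group
  rw [e]
  exact mul_mem (mul_mem hn (hg c)) (inv_mem hn)

lemma goodP_transfer (hδ : δ ≠ 0) {a b w w' : V} (hab : B a b = 0) (hg : GoodP hB M δ a b)
    (hw : GoodP hB M δ w w') (h1 : B w a = 1) (h2 : B w' a = 0) (h3 : B w b = 0)
    (h4 : B w' b = 0) : GoodP hB M δ w b := by
  have h1' : B a w = -1 := by rw [alt_swap hB, h1]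
  have h2' : B a w' = 0 := by rw [alt_swap hB, h2, neg_zero]
  have h3' : B b w = 0 := by rw [alt_swap hB, h3, neg_zero]
  have h4' : B b w' = 0 := by rw [alt_swap hB, h4, neg_zero]
  have hba : B b a = 0 := by rw [alt_swap hB, hab, neg_zero]
  have hn := mul_mem (hg δ⁻¹) (hw δ⁻¹)
  have hn' : (stv B hB a (δ⁻¹ * δ) * stv B hB b (-δ⁻¹)) *
      (stv B hB w (δ⁻¹ * δ) * stv B hB w' (-δ⁻¹)) ∈ isoGrp B :=
    mul_mem (mul_mem (stv_mem_isoGrp hB _ _) (stv_mem_isoGrp hB _ _))
      (mul_mem (stv_mem_isoGrp hB _ _) (stv_mem_isoGrp hB _ _))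
  have key := goodP_conj hB hg hn hn'
  have ea : ((stv B hB a (δ⁻¹ * δ) * stv B hB b (-δ⁻¹)) *
      (stv B hB w (δ⁻¹ * δ) * stv B hB w' (-δ⁻¹))) a = -w := by
    simp only [LinearEquiv.mul_apply, stv_apply, inv_mul_cancel₀ hδ, h2', mul_zero, zero_smul,
      add_zero, h1', map_add, map_smul, LinearMap.add_apply, LinearMap.smul_apply, hab, h3, hB a,
      h1, smul_eq_mul]
    module
  have eb : ((stv B hB a (δ⁻¹ * δ) * stv B hB b (-δ⁻¹)) *
      (stv B hB w (δ⁻¹ * δ) * stv B hB w' (-δ⁻¹))) b = b := by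
    simp only [LinearEquiv.mul_apply, stv_apply, h4', h3', hB b, hba, mul_zero, zero_smul, add_zero]
  rw [ea, eb] at key
  intro c
  have := key c
  rwa [stv_neg_left] at this

lemma mem_of_goodP_goodP {w b w' : V} (h1 : GoodP hB M δ w b) (h2 : GoodP hB M δ w w') (c : F) :
    stv B hB b c * stv B hB w' (-c) ∈ M := by
  have e : stv B hB b c * stv B hB w' (-c) =
      (stv B hB w (c * δ) * stv B hB b (-c))⁻¹ * (stv B hB w (c * δ) * stv B hB w' (-c)) := by
    rw [mul_inv_rev, stv_inv, neg_neg]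
    group
  rw [e]
  exact mul_mem (inv_mem (h1 c)) (h2 c)

lemma tvSet_of_three (h2 : (2 : F) ≠ 0) {b u z : V} (huz : B u z = 0)
    (h0 : ∀ c, stv B hB b c * stv B hB u (-c) ∈ M)
    (hp : ∀ c, stv B hB b c * stv B hB (u + z) (-c) ∈ M)
    (hm : ∀ c, stv B hB b c * stv B hB (u - z) (-c) ∈ M) : z ∈ tvSet B hB M := by
  intro c
  have hzu : B z u = 0 := by rw [alt_swap hB, huz, neg_zero]
  obtain ⟨d, rfl⟩ : ∃ d, c = -2 * d := ⟨-c / 2, by field_simp⟩
  have e : stv B hB z (-2 * d) =
      ((stv B hB b d * stv B hB u (-d))⁻¹ * (stv B hB b d * stv B hB (u + z) (-d))) *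
      ((stv B hB b d * stv B hB u (-d))⁻¹ * (stv B hB b d * stv B hB (u - z) (-d))) := by
    have e1 : ∀ y : V, (stv B hB b d * stv B hB u (-d))⁻¹ * (stv B hB b d * stv B hB y (-d)) =
        stv B hB u d * stv B hB y (-d) := by
      intro y
      rw [mul_inv_rev, stv_inv, neg_neg]
      group
    rw [e1, e1]
    ext x
    simp only [LinearEquiv.mul_apply, stv_apply, map_add, map_sub, map_smul, LinearMap.add_apply,
      LinearMap.sub_apply, LinearMap.smul_apply, smul_eq_mul, hB u, hB z, huz, hzu]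
    module
  rw [e]
  exact mul_mem (mul_mem (inv_mem (h0 d)) (hp d)) (mul_mem (inv_mem (h0 d)) (hm d))

end pairs

section main

variable {F V : Type*} [Field F] [Finite F] [AddCommGroup V] [Module F V] {δ : F}
variable [Fact (∀ r : F, r ^ 2 ≠ δ + 0 * r)]
variable [Module (QuadraticAlgebra F δ 0) V] [IsScalarTower F (QuadraticAlgebra F δ 0) V]
variable [FiniteDimensional (QuadraticAlgebra F δ 0) V]
variable {B : LinearMap.BilinForm F V} (hB : B.IsAlt) {M : Subgroup (V ≃ₗ[F] V)}

local notation "om" => (ω : QuadraticAlgebra F δ 0)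

omit [Finite F] in
lemma delta_ne_zero : δ ≠ 0 := by
  intro h
  have := (Fact.out : ∀ r : F, r ^ 2 ≠ δ + 0 * r) 0
  apply this
  rw [h]; ring

include hB in
lemma hS_self_eq_zero {v : V} : hS (δ := δ) B v v = 0 ↔ B (om • v) v = 0 := by
  constructor
  · intro h
    simpa using congrArg QuadraticAlgebra.re h
  · intro h
    ext
    · simpa using h
    · simpa using hB v

lemma tvSet_step (hM : ∀ v : V, B (om • v) v = 0 → GoodP hB M δ v (om • v)) {a w : V} (ha : a ∈ tvSet B hB M) (hw : B (om • w) w = 0)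
    (h1 : B a (om • w) = 0) (h3 : B a w ≠ 0) : w ∈ tvSet B hB M := by
  have hδ : δ ≠ 0 := delta_ne_zero
  have hτ := hM w hw (δ * B a w)⁻¹
  have hτ' : stv B hB w ((δ * B a w)⁻¹ * δ) * stv B hB (om • w) (-(δ * B a w)⁻¹) ∈ isoGrp B :=
    mul_mem (stv_mem_isoGrp hB _ _) (stv_mem_isoGrp hB _ _)
  have e := tvSet_map hB hτ hτ' ha
  have e1 : (stv B hB w ((δ * B a w)⁻¹ * δ) * stv B hB (om • w) (-(δ * B a w)⁻¹)) a = a + w := by
    simp only [LinearEquiv.mul_apply, stv_apply, h1, mul_zero, zero_smul, add_zero]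
    congr 1
    have : (δ * B a w)⁻¹ * δ * B a w = 1 := by field_simp
    rw [this, one_smul]
  rw [e1] at e
  have e2 := tvSet_add hB ha e (by rw [map_add, hB a, zero_add]; exact h3) (-1)
  have e3 := tvSet_smul hB e2 (-1)
  have e4 : (-1 : F) • (a + (-1 : F) • (a + w)) = w := by module
  rwa [e4] at e3

lemma tvSet_iso_of_not_span (h2 : (2 : F) ≠ 0) (hnd : B.Nondegenerate)
    (hsk : ∀ x y : V, B (om • x) y = - B x (om • y))
    (hn : 7 ≤ finrank (QuadraticAlgebra F δ 0) V)
    (hM : ∀ v : V, B (om • v) v = 0 → GoodP hB M δ v (om • v))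
    {z y : V} (hz : z ∈ tvSet B hB M) (hz0 : z ≠ 0)
    (hy : B (om • y) y = 0) (hyz : y ∉ Submodule.span (QuadraticAlgebra F δ 0) {z}) :
    y ∈ tvSet B hB M := by
  have h := hS_uf (δ := δ) h2 hB hnd hsk
  have hns : y ∉ Submodule.span (QuadraticAlgebra F δ 0) {z - y} := by
    intro hmem
    obtain ⟨c, hc⟩ := Submodule.mem_span_singleton.1 hmem
    have e : (1 + c) • y = c • z := by
      calc (1 + c) • y = y + c • y := by module
        _ = c • (z - y) + c • y := by rw [hc]
        _ = c • z := by module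
    by_cases hc1 : 1 + c = 0
    · have hc' : c = -1 := by linear_combination hc1
      rw [hc1, zero_smul, hc'] at e
      apply hz0
      have : z = -((-1 : QuadraticAlgebra F δ 0) • z) := by module
      rw [this, ← e, neg_zero]
    · apply hyz
      refine Submodule.mem_span_singleton.2 ⟨(1 + c)⁻¹ * c, ?_⟩
      rw [mul_smul, ← e, smul_smul, inv_mul_cancel₀ hc1, one_smul]
  obtain ⟨u, huu, hu1, hu2⟩ := h.exists_iso_val (by omega) hns om
  have hu3 : hS (δ := δ) B u z = om := by
    have : z = (z - y) + y := by abel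
    rw [this, h.add_right, hu1, hu2, zero_add]
  have a1 : B (om • u) z = 0 := by simpa using congrArg QuadraticAlgebra.re hu3
  have a2 : B u z = 1 := by simpa using congrArg QuadraticAlgebra.im hu3
  have a3 : B (om • u) y = 0 := by simpa using congrArg QuadraticAlgebra.re hu2
  have a4 : B u y = 1 := by simpa using congrArg QuadraticAlgebra.im hu2
  have hu : u ∈ tvSet B hB M := by
    refine tvSet_step hB hM hz ((hS_self_eq_zero hB).1 huu) ?_ ?_
    · rw [alt_swap hB, a1, neg_zero]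
    · rw [alt_swap hB, a2]; simp
  refine tvSet_step hB hM hu hy ?_ ?_
  · have := hsk u y
    rw [a3] at this
    linear_combination this
  · rw [a4]; exact one_ne_zero

lemma tvSet_iso (h2 : (2 : F) ≠ 0) (hnd : B.Nondegenerate)
    (hsk : ∀ x y : V, B (om • x) y = - B x (om • y))
    (hn : 7 ≤ finrank (QuadraticAlgebra F δ 0) V)
    (hM : ∀ v : V, B (om • v) v = 0 → GoodP hB M δ v (om • v))
    {z y : V} (hz : z ∈ tvSet B hB M) (hz0 : z ≠ 0) (hy : B (om • y) y = 0) :
    y ∈ tvSet B hB M := by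
  have h := hS_uf (δ := δ) h2 hB hnd hsk
  by_cases hyz : y ∈ Submodule.span (QuadraticAlgebra F δ 0) {z}
  · by_cases hy0 : y = 0
    · rw [hy0]; exact zero_mem_tvSet hB
    obtain ⟨y₁, h11, -, -, hy₁, -⟩ := h.exists_iso_perp2 (by omega) z z
    have hy₁T := tvSet_iso_of_not_span hB h2 hnd hsk hn hM hz hz0 ((hS_self_eq_zero hB).1 h11) hy₁
    have hy₁0 : y₁ ≠ 0 := by
      rintro rfl
      exact hy₁ (Submodule.zero_mem _)
    refine tvSet_iso_of_not_span hB h2 hnd hsk hn hM hy₁T hy₁0 hy ?_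
    intro hmem
    obtain ⟨c, hc⟩ := Submodule.mem_span_singleton.1 hyz
    obtain ⟨d, hd⟩ := Submodule.mem_span_singleton.1 hmem
    have hd0 : d ≠ 0 := by
      rintro rfl
      apply hy0
      rw [← hd, zero_smul]
    apply hy₁
    refine Submodule.mem_span_singleton.2 ⟨d⁻¹ * c, ?_⟩
    rw [mul_smul, hc, ← hd, smul_smul, inv_mul_cancel₀ hd0, one_smul]
  · exact tvSet_iso_of_not_span hB h2 hnd hsk hn hM hz hz0 hy hyz

lemma tvSet_all (h2 : (2 : F) ≠ 0) (hnd : B.Nondegenerate)
    (hsk : ∀ x y : V, B (om • x) y = - B x (om • y))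
    (hn : 7 ≤ finrank (QuadraticAlgebra F δ 0) V)
    (hM : ∀ v : V, B (om • v) v = 0 → GoodP hB M δ v (om • v))
    {z : V} (hz : z ∈ tvSet B hB M) (hz0 : z ≠ 0) (x : V) : x ∈ tvSet B hB M := by
  have h := hS_uf (δ := δ) h2 hB hnd hsk
  by_cases hx0 : x = 0
  · rw [hx0]; exact zero_mem_tvSet hB
  obtain ⟨u, huu, hux⟩ := h.exists_iso_val' (by omega) hx0
    (⟨B (om • x) x / 2, 1⟩ : QuadraticAlgebra F δ 0)
  have a1 : B (om • u) x = B (om • x) x / 2 := by simpa using congrArg QuadraticAlgebra.re hux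
  have a2 : B u x = 1 := by simpa using congrArg QuadraticAlgebra.im hux
  have a3 : B (om • u) u = 0 := (hS_self_eq_zero hB).1 huu
  have a4 : B (om • x) u = B (om • x) x / 2 := by
    rw [hsk, alt_swap hB, neg_neg, a1]
  have hxu : B (om • (x - u)) (x - u) = 0 := by
    rw [smul_sub]
    simp only [map_sub, LinearMap.sub_apply, a1, a3, a4]
    field_simp
    ring
  have hu := tvSet_iso hB h2 hnd hsk hn hM hz hz0 a3
  have hxu' := tvSet_iso hB h2 hnd hsk hn hM hz hz0 hxu
  have := tvSet_add hB hu hxu' (by rw [map_sub, a2, hB u]; simp) 1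
  have e : u + (1 : F) • (x - u) = x := by module
  rwa [e] at this

lemma exists_tvSet_of_goodP (h2 : (2 : F) ≠ 0) (hnd : B.Nondegenerate)
    (hsk : ∀ x y : V, B (om • x) y = - B x (om • y))
    (hn : 7 ≤ finrank (QuadraticAlgebra F δ 0) V)
    (hM : ∀ v : V, B (om • v) v = 0 → GoodP hB M δ v (om • v))
    {a b : V} (hg : GoodP hB M δ a b) (hab : B a b = 0) (ha : a ≠ 0)
    (hb : b ∉ Submodule.span (QuadraticAlgebra F δ 0) {a}) : ∃ z, z ≠ 0 ∧ z ∈ tvSet B hB M := by
  have h := hS_uf (δ := δ) h2 hB hnd hsk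
  have hδ : δ ≠ 0 := delta_ne_zero
  have hns : a ∉ Submodule.span (QuadraticAlgebra F δ 0) {b} := by
    intro hmem
    obtain ⟨c, hc⟩ := Submodule.mem_span_singleton.1 hmem
    have hc0 : c ≠ 0 := by
      rintro rfl
      apply ha
      rw [← hc, zero_smul]
    apply hb
    refine Submodule.mem_span_singleton.2 ⟨c⁻¹, ?_⟩
    rw [← hc, smul_smul, inv_mul_cancel₀ hc0, one_smul]
  have key : ∀ w : V, hS (δ := δ) B w w = 0 → hS (δ := δ) B w b = 0 → hS (δ := δ) B w a = om →
      ∀ c, stv B hB b c * stv B hB (om • w) (-c) ∈ M := by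
    intro w h1 h3 h4
    have hw := hM w ((hS_self_eq_zero hB).1 h1)
    refine mem_of_goodP_goodP hB (goodP_transfer hB hδ hab hg hw ?_ ?_ ?_ ?_) hw
    · simpa using congrArg QuadraticAlgebra.im h4
    · simpa using congrArg QuadraticAlgebra.re h4
    · simpa using congrArg QuadraticAlgebra.im h3
    · simpa using congrArg QuadraticAlgebra.re h3
  obtain ⟨w, hww, hwb, hwa⟩ := h.exists_iso_val (by omega) hns om
  obtain ⟨z, hz0, hzz, hz⟩ := h.hform.exists_iso_perp (exists_norm _ h.ne_refl h.involutive)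
    (k := 3) ![a, b, w] (by omega)
  have hza : hS (δ := δ) B z a = 0 := hz 0
  have hzb : hS (δ := δ) B z b = 0 := hz 1
  have hzw : hS (δ := δ) B z w = 0 := hz 2
  have hwz : hS (δ := δ) B w z = 0 := h.hform.eq_zero_comm.1 hzw
  refine ⟨om • z, ?_, ?_⟩
  · intro h0
    rcases smul_eq_zero.1 h0 with h1 | h1
    · have := congrArg QuadraticAlgebra.im h1
      simp at this
    · exact hz0 h1
  · refine tvSet_of_three hB h2 (b := b) (u := om • w) ?_ (key w hww hwb hwa) ?_ ?_
    · rw [hsk, omega_omega_smul]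
      have : B w z = 0 := by simpa using congrArg QuadraticAlgebra.im hwz
      simp [this]
    · rw [← smul_add]
      refine key _ ?_ ?_ ?_
      · rw [h.add_left, h.add_right, h.add_right, hww, hzz, hwz, hzw]; ring
      · rw [h.add_left, hwb, hzb, add_zero]
      · rw [h.add_left, hwa, hza, add_zero]
    · rw [← smul_sub]
      refine key _ ?_ ?_ ?_
      · rw [h.hform.sub_left, h.hform.sub_right, h.hform.sub_right, hww, hzz, hwz, hzw]; ring
      · rw [h.hform.sub_left, hwb, hzb, sub_zero]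
      · rw [h.hform.sub_left, hwa, hza, sub_zero]

/-- Overgroups of the unitary transvections in the symplectic group which are not semilinear. -/
theorem sp_le_of_unitary (h2 : (2 : F) ≠ 0) (hnd : B.Nondegenerate)
    (hsk : ∀ x y : V, B (om • x) y = - B x (om • y))
    (hn : 7 ≤ finrank (QuadraticAlgebra F δ 0) V)
    (hM : ∀ v : V, B (om • v) v = 0 → GoodP hB M δ v (om • v))
    [FiniteDimensional F V] {g : V ≃ₗ[F] V} (hgM : g ∈ M)
    (hgB : g ∈ isoGrp B) (hg : ¬ ∃ k : QuadraticAlgebra F δ 0, ∀ x, g (om • x) = k • g x) :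
    isoGrp B ≤ M := by
  have h := hS_uf (δ := δ) h2 hB hnd hsk
  obtain ⟨v, hvv, hv⟩ := exists_iso_not_line h (by omega) g hg
  have hvv' := (hS_self_eq_zero hB).1 hvv
  obtain ⟨z, hz0, hz⟩ := exists_tvSet_of_goodP hB h2 hnd hsk hn hM
    (goodP_conj hB (hM v hvv') hgM hgB) (by rw [hgB, alt_swap hB, hvv', neg_zero])
    (by
      intro h0
      have hv0 : v = 0 := by simpa using h0
      apply hv 0
      rw [hv0]; simp)
    (by
      intro hmem
      obtain ⟨c, hc⟩ := Submodule.mem_span_singleton.1 hmem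
      exact hv c hc.symm)
  exact isoGrp_le_of_stv_mem hB hnd M (fun x c => tvSet_all hB h2 hnd hsk hn hM hz hz0 x c)

end main

section main2

variable {F V : Type*} [Field F] [Finite F] [AddCommGroup V] [Module F V] {δ : F}
variable [Fact (∀ r : F, r ^ 2 ≠ δ + 0 * r)]
variable [Module (QuadraticAlgebra F δ 0) V] [IsScalarTower F (QuadraticAlgebra F δ 0) V]
variable [FiniteDimensional (QuadraticAlgebra F δ 0) V]
variable {B : LinearMap.BilinForm F V}

local notation "om" => (ω : QuadraticAlgebra F δ 0)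

lemma utau_comm (hB : B.IsAlt) (hsk : ∀ x y : V, B (om • x) y = - B x (om • y)) {v : V}
    (hv : B (om • v) v = 0) (c : F) (x : V) :
    (stv B hB v (c * δ) * stv B hB (om • v) (-c)) (om • x) =
      om • ((stv B hB v (c * δ) * stv B hB (om • v) (-c)) x) := by
  have e1 : B (om • x) (om • v) = -(δ * B x v) := by
    rw [hsk, omega_omega_smul]
    simp
  have e2 : B (om • x) v = - B x (om • v) := hsk x v
  simp only [LinearEquiv.mul_apply, stv_apply, map_add, map_smul, LinearMap.add_apply,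
    LinearMap.smul_apply, hv, smul_add, omega_smul_smul, omega_omega_smul, e1, e2, smul_eq_mul]
  module

lemma exists_not_semilinear (hB : B.IsAlt) (h2 : (2 : F) ≠ 0) (hnd : B.Nondegenerate)
    (hsk : ∀ x y : V, B (om • x) y = - B x (om • y))
    (hn : 7 ≤ finrank (QuadraticAlgebra F δ 0) V) :
    ∃ g ∈ isoGrp B, ¬ ∃ k : QuadraticAlgebra F δ 0, ∀ x, g (om • x) = k • g x := by
  have h := hS_uf (δ := δ) h2 hB hnd hsk
  obtain ⟨x₀, hx₀0, hx₀, -⟩ := h.hform.exists_iso_perp (exists_norm _ h.ne_refl h.involutive)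
    (k := 0) ![] (by omega)
  obtain ⟨y, -, hy⟩ := h.exists_iso_val' (by omega) hx₀0 1
  refine ⟨stv B hB x₀ 1, stv_mem_isoGrp hB _ _, ?_⟩
  rintro ⟨k, hk⟩
  have a1 : B (om • y) x₀ = 1 := by simpa using congrArg QuadraticAlgebra.re hy
  have a2 : B y x₀ = 0 := by simpa using congrArg QuadraticAlgebra.im hy
  have e := hk y
  rw [stv_apply, stv_apply, a1, a2, mul_zero, zero_smul, add_zero, mul_one, one_smul] at e
  have e1 : (om - k) • y = -x₀ := by
    rw [sub_smul, ← e]
    abel
  have e2 := congrArg (fun t => hS (δ := δ) B t x₀) e1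
  simp only [h.smul_left, hy, h.hform.neg_left, hx₀, mul_one, neg_zero] at e2
  rw [e2, zero_smul] at e1
  apply hx₀0
  rw [← neg_eq_zero, ← e1]

/-- Abstract maximality statement. -/
theorem sp_unitary_max_abstract [FiniteDimensional F V] (hB : B.IsAlt) (h2 : (2 : F) ≠ 0)
    (hnd : B.Nondegenerate) (hsk : ∀ x y : V, B (om • x) y = - B x (om • y))
    (hn : 7 ≤ finrank (QuadraticAlgebra F δ 0) V) (S' : Subgroup (V ≃ₗ[F] V))
    (hS : ∀ e : V ≃ₗ[F] V, e ∈ S' ↔
      ∃ k : QuadraticAlgebra F δ 0, ∀ x, e (om • x) = k • e x) :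
    (∃ g ∈ isoGrp B, g ∉ S') ∧ ∀ M' : Subgroup (V ≃ₗ[F] V), isoGrp B ⊓ S' ≤ M' →
      M' ≤ isoGrp B → ∀ g ∈ M', g ∉ S' → isoGrp B ≤ M' := by
  constructor
  · obtain ⟨g, hg, hg'⟩ := exists_not_semilinear hB h2 hnd hsk hn
    exact ⟨g, hg, fun h => hg' ((hS g).1 h)⟩
  · intro M' h1 h1' g hg hgS
    refine sp_le_of_unitary hB h2 hnd hsk hn ?_ hg (h1' hg) (fun h => hgS ((hS g).2 h))
    intro v hv c
    apply h1
    refine Subgroup.mem_inf.2 ⟨mul_mem (stv_mem_isoGrp hB _ _) (stv_mem_isoGrp hB _ _), ?_⟩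
    exact (hS _).2 ⟨ω, utau_comm hB hsk hv c⟩

end main2

end Cfsg.Agent.Lib.Helper97
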