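import Mathlib
import Cfsg.Agent.Lib.Helper97.QGlue
import Cfsg.Agent.Lib.Helper97.SpUnit

set_option autoImplicit false

namespace Cfsg.Agent.Lib.Helper97

open Cfsg.Agent.Lib.Helper95 Matrix Module QuadraticAlgebra

variable {F : Type*} [Field F]

lemma exists_skew_theta (m : ℕ) (h2 : (2 : F) ≠ 0)
    (K : Subalgebra F (Matrix (Fin m ⊕ Fin m) (Fin m ⊕ Fin m) F))
    (hK : Cfsg.Geo.IsFieldSubalgebra 2 K) (hac : Cfsg.Geo.IsAdjointClosedFor (Cfsg.sympForm m F) K)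
    (hnsa : ¬ Cfsg.Geo.IsSelfAdjointFor (Cfsg.sympForm m F) K) :
    ∃ (θ : Matrix (Fin m ⊕ Fin m) (Fin m ⊕ Fin m) F) (δ : F), θ ∈ K ∧ (∀ c : F, θ ≠ c • 1) ∧
      θ * θ = δ • 1 ∧ (∀ r : F, r ^ 2 ≠ δ) ∧
      ∀ u v, sympB m F (θ *ᵥ u) v = - sympB m F u (θ *ᵥ v) := by
  have hB := sympB_isAlt (F := F) m
  have hnd := sympB_nondegenerate (F := F) m
  unfold Cfsg.Geo.IsSelfAdjointFor at hnsa
  push Not at hnsa
  obtain ⟨k₀, hk₀, u₀, v₀, hne⟩ := hnsa
  obtain ⟨k₁, hk₁, hadj⟩ := hac k₀ hk₀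
  simp only [← sympB_apply] at hne hadj
  have hadj' : ∀ u v, sympB m F (k₁ *ᵥ u) v = sympB m F u (k₀ *ᵥ v) := by
    intro u v
    rw [alt_swap hB, ← hadj, alt_swap hB, neg_neg]
  have hskew : ∀ u v, sympB m F ((k₀ - k₁) *ᵥ u) v = - sympB m F u ((k₀ - k₁) *ᵥ v) := by
    intro u v
    rw [Matrix.sub_mulVec, Matrix.sub_mulVec, map_sub, map_sub, LinearMap.sub_apply, hadj, hadj']
    ring
  have hθK : k₀ - k₁ ∈ K := K.sub_mem hk₀ hk₁
  have hns : ∀ c : F, k₀ - k₁ ≠ c • 1 := by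
    intro c hc
    by_cases hc0 : c = 0
    · rw [hc0, zero_smul, sub_eq_zero] at hc
      apply hne
      rw [hadj, ← hc]
    · have h0 : ∀ u v, sympB m F u v = 0 := by
        intro u v
        have := hskew u v
        rw [hc, Matrix.smul_mulVec, Matrix.smul_mulVec, Matrix.one_mulVec, Matrix.one_mulVec,
          map_smul, map_smul, LinearMap.smul_apply, smul_eq_mul] at this
        have h3 : (2 * c) * sympB m F u v = 0 := by linear_combination this
        exact (mul_eq_zero.1 h3).resolve_left (mul_ne_zero h2 hc0)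
      apply hne
      rw [h0, h0]
  obtain ⟨x, y, hxy⟩ := (mem_iff_of_finrank_two K hK.finrank_eq hθK hns _).1 (K.mul_mem hθK hθK)
  have hy : y = 0 := by
    by_contra hy
    apply hns 0
    rw [zero_smul]
    have h0 : ∀ u v, sympB m F ((k₀ - k₁) *ᵥ u) v = 0 := by
      intro u v
      have e1 : sympB m F (((k₀ - k₁) * (k₀ - k₁)) *ᵥ u) v =
          sympB m F u (((k₀ - k₁) * (k₀ - k₁)) *ᵥ v) := by
        rw [← Matrix.mulVec_mulVec, ← Matrix.mulVec_mulVec, hskew, hskew, neg_neg]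
      rw [hxy] at e1
      simp only [Matrix.add_mulVec, Matrix.smul_mulVec, Matrix.one_mulVec, map_add, map_smul,
        LinearMap.add_apply, LinearMap.smul_apply, smul_eq_mul] at e1
      have e2 := hskew u v
      have h3 : (2 * y) * sympB m F ((k₀ - k₁) *ᵥ u) v = 0 := by linear_combination e1 + y * e2
      exact (mul_eq_zero.1 h3).resolve_left (mul_ne_zero h2 hy)
    apply Matrix.ext_of_mulVec_single
    intro i
    rw [Matrix.zero_mulVec]
    exact hnd.1 _ (fun v => h0 _ v)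
  rw [hy, zero_smul, add_zero] at hxy
  refine ⟨k₀ - k₁, x, hθK, hns, hxy, ?_, hskew⟩
  intro r hr
  have hne1 : k₀ - k₁ - r • 1 ≠ 0 := fun h => hns r (sub_eq_zero.1 h)
  obtain ⟨z, -, hz⟩ := hK.inv _ (K.sub_mem hθK (K.smul_mem K.one_mem r)) hne1
  apply hns (-r)
  have e1 : (k₀ - k₁ + r • 1) * (k₀ - k₁ - r • 1) = 0 := by
    have : ∀ t : Matrix (Fin m ⊕ Fin m) (Fin m ⊕ Fin m) F,
        (t + r • 1) * (t - r • 1) = t * t - (r ^ 2) • 1 := by
      intro t
      rw [add_mul, mul_sub, mul_sub]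
      simp only [smul_mul_assoc, mul_smul_comm, one_mul, mul_one, smul_smul, sq]
      abel
    rw [this, hxy, hr, sub_self]
  have e2 : k₀ - k₁ + r • 1 = 0 := by
    calc k₀ - k₁ + r • 1 = (k₀ - k₁ + r • 1) * ((k₀ - k₁ - r • 1) * z) := by rw [hz, mul_one]
      _ = 0 := by rw [← mul_assoc, e1, zero_mul]
  rw [neg_smul, eq_neg_iff_add_eq_zero]
  exact e2

/-- The normaliser of a quadratic field of unitary type is maximal in the symplectic group. -/
theorem sp_unitary_maximal [Fintype F] (m : ℕ) (hm : 7 ≤ m) (h2 : (2 : F) ≠ 0)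
    (K : Subalgebra F (Matrix (Fin m ⊕ Fin m) (Fin m ⊕ Fin m) F))
    (hK : Cfsg.Geo.IsFieldSubalgebra 2 K) (hac : Cfsg.Geo.IsAdjointClosedFor (Cfsg.sympForm m F) K)
    (hnsa : ¬ Cfsg.Geo.IsSelfAdjointFor (Cfsg.sympForm m F) K) :
    Cfsg.Geo.IsMaximalIn (Cfsg.spGL m F) (Cfsg.Geo.subalgebraNormalizer K ⊓ Cfsg.spGL m F) := by
  obtain ⟨θ, δ, hθK, hns, hθθ, hδ, hskew⟩ := exists_skew_theta m h2 K hK hac hnsa
  have hB := sympB_isAlt (F := F) m
  have hnd := sympB_nondegenerate (F := F) m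
  have hθ : (Matrix.toLin' θ : Module.End F (Fin m ⊕ Fin m → F)) * Matrix.toLin' θ =
      δ • 1 + (0 : F) • Matrix.toLin' θ := by
    rw [zero_smul, add_zero, Module.End.mul_eq_comp, ← Matrix.toLin'_mul, hθθ, map_smul,
      Matrix.toLin'_one]
    rfl
  haveI : Fact (∀ r : F, r ^ 2 ≠ δ + 0 * r) := ⟨fun r => by rw [zero_mul, add_zero]; exact hδ r⟩
  letI := qModule δ 0 (Matrix.toLin' θ) hθ
  haveI := qModule_tower δ 0 (Matrix.toLin' θ) hθ
  haveI : FiniteDimensional (QuadraticAlgebra F δ 0) (Fin m ⊕ Fin m → F) :=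
    Module.Finite.of_restrictScalars_finite F _ _
  have hsm : ∀ (k : QuadraticAlgebra F δ 0) (x : Fin m ⊕ Fin m → F),
      k • x = k.re • x + k.im • (θ *ᵥ x) := by
    intro k x
    rw [qModule_smul, Matrix.toLin'_apply]
  have hom : ∀ x : Fin m ⊕ Fin m → F, (ω : QuadraticAlgebra F δ 0) • x = θ *ᵥ x := by
    intro x
    rw [hsm]; simp
  have hfr : 7 ≤ finrank (QuadraticAlgebra F δ 0) (Fin m ⊕ Fin m → F) := by
    have h1 := Module.finrank_mul_finrank F (QuadraticAlgebra F δ 0) (Fin m ⊕ Fin m → F)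
    rw [QuadraticAlgebra.finrank_eq_two, finrank_sum_fin] at h1
    omega
  have hsk : ∀ x y : Fin m ⊕ Fin m → F, sympB m F ((ω : QuadraticAlgebra F δ 0) • x) y =
      - sympB m F x ((ω : QuadraticAlgebra F δ 0) • y) := by
    intro x y
    rw [hom, hom, hskew]
  have hS : ∀ e : (Fin m ⊕ Fin m → F) ≃ₗ[F] (Fin m ⊕ Fin m → F),
      e ∈ toLinGrp (Cfsg.Geo.subalgebraNormalizer K) ↔
        ∃ k : QuadraticAlgebra F δ 0, ∀ x, e ((ω : QuadraticAlgebra F δ 0) • x) = k • e x := by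
    intro e
    rw [mem_toLinGrp_normalizer_iff K hK.finrank_eq hθK hns]
    constructor
    · rintro ⟨x, y, hxy⟩
      exact ⟨⟨x, y⟩, fun v => by rw [hom, hsm, hxy]⟩
    · rintro ⟨k, hk⟩
      exact ⟨k.re, k.im, fun v => by rw [← hom, hk, hsm]⟩
  obtain ⟨hne, hmax⟩ := sp_unitary_max_abstract hB h2 hnd hsk hfr
    (toLinGrp (Cfsg.Geo.subalgebraNormalizer K)) hS
  exact isMaximalIn_transfer (S' := toLinGrp (Cfsg.Geo.subalgebraNormalizer K)) (mem_spGL_iff m)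
    (fun g => glEquiv_mem_toLinGrp.symm) hne hmax

end Cfsg.Agent.Lib.Helper97
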